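/-
Helpers for the "not maximal" statements: dimension counts for decompositions.
-/
import Cfsg.Agent.Lib.GeoOmega.NondegW
import Cfsg.Agent.Lib.Geo.SpDecomp
set_option autoImplicit false

namespace Cfsg.Agent.Lib.NotMax.Basic

open Cfsg Cfsg.Geo Cfsg.Agent.Lib.Geo.Basic
open scoped MatrixGroups Matrix

variable {ι : Type} [Fintype ι] {F : Type*} [Field F]

/-- The dimension of a sum is at most the sum of the dimensions. -/
theorem finrank_biSup_le {T : Type*} (D : T → Submodule F (ι → F)) (s : Finset T) :
    Module.finrank F (⨆ i ∈ s, D i : Submodule F (ι → F)) ≤ ∑ i ∈ s, Module.finrank F (D i) := by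
  classical
  induction s using Finset.induction_on with
  | empty => simp
  | insert a s ha ih =>
    rw [Finset.iSup_insert, Finset.sum_insert ha]
    exact (Submodule.finrank_add_le_finrank_add_finrank _ _).trans (Nat.add_le_add_left ih _)

/-- A decomposition has at least `n / m` members. -/
theorem card_le_mul {t m : ℕ} (D : Fin t → Submodule F (ι → F)) (h : iSup D = ⊤)
    (hm : ∀ i, Module.finrank F (D i) = m) : Fintype.card ι ≤ t * m := by
  have h1 := finrank_biSup_le D Finset.univ
  have e0 : (⨆ i ∈ (Finset.univ : Finset (Fin t)), D i) = iSup D := by simp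
  rw [e0, h, finrank_top] at h1
  have e1 : Module.finrank F (ι → F) = Fintype.card ι := by simp
  have e2 : ∑ i : Fin t, Module.finrank F (D i) = t * m := by
    simp [hm]
  rw [e1, e2] at h1
  exact h1

end Cfsg.Agent.Lib.NotMax.Basic
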