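/-
Stabilisers of sets of vectors, used to exhibit intermediate subgroups.
-/
import Cfsg.Agent.Lib.NotMax.Basic
set_option autoImplicit false

namespace Cfsg.Agent.Lib.NotMax.SetStab

open Cfsg Cfsg.Geo Cfsg.Agent.Lib.Geo.Basic
open scoped MatrixGroups Matrix

variable {ι : Type} [Fintype ι] [DecidableEq ι] {F : Type*} [Field F]

/-- The stabiliser of a set of vectors, in a finite general linear group. -/
def setStab [Finite F] (S : Set (ι → F)) : Subgroup (GL ι F) where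
  carrier := {g | ∀ x ∈ S, (g : Matrix ι ι F) *ᵥ x ∈ S}
  mul_mem' {a b} ha hb x hx := by
    rw [Units.val_mul, ← Matrix.mulVec_mulVec]
    exact ha _ (hb _ hx)
  one_mem' x hx := by simpa using hx
  inv_mem' {g} hg := by
    have hp : ∀ k : ℕ, ∀ x ∈ S, ((g ^ k : GL ι F) : Matrix ι ι F) *ᵥ x ∈ S := by
      intro k
      induction k with
      | zero => intro x hx; simpa using hx
      | succ k ih =>
        intro x hx
        rw [pow_succ', Units.val_mul, ← Matrix.mulVec_mulVec]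
        exact hg _ (ih _ hx)
    have hfin : IsOfFinOrder g := isOfFinOrder_of_finite g
    have hpos : 0 < orderOf g := hfin.orderOf_pos
    have h1 : g⁻¹ = g ^ (orderOf g - 1) := by
      apply inv_eq_of_mul_eq_one_right
      rw [← pow_succ', Nat.sub_add_cancel hpos, pow_orderOf_eq_one]
    intro x hx
    rw [h1]
    exact hp _ x hx

theorem mem_setStab [Finite F] {S : Set (ι → F)} {g : GL ι F} :
    g ∈ setStab S ↔ ∀ x ∈ S, (g : Matrix ι ι F) *ᵥ x ∈ S := Iff.rfl

/-- Not maximal, by a set of vectors. -/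
theorem not_maximal_of_set [Finite F] {G H : Subgroup (GL ι F)} (S : Set (ι → F)) (hHG : H ≤ G)
    (hHS : ∀ h ∈ H, ∀ x ∈ S, (h : Matrix ι ι F) *ᵥ x ∈ S)
    (w : GL ι F) (hwG : w ∈ G) (hwS : ∀ x ∈ S, (w : Matrix ι ι F) *ᵥ x ∈ S) (hwH : w ∉ H)
    (s : GL ι F) (hsG : s ∈ G) (x₀ : ι → F) (hx₀ : x₀ ∈ S) (hs : (s : Matrix ι ι F) *ᵥ x₀ ∉ S) :
    ∃ K : Subgroup (GL ι F), H < K ∧ K < G := by
  refine ⟨setStab S ⊓ G, lt_of_le_of_ne ?_ ?_, lt_of_le_of_ne inf_le_right ?_⟩
  · intro h hh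
    exact ⟨hHS h hh, hHG hh⟩
  · intro e
    have : w ∈ H := by
      rw [e]
      exact ⟨hwS, hwG⟩
    exact hwH this
  · intro e
    have : s ∈ setStab S ⊓ G := by
      rw [e]
      exact hsG
    exact hs (this.1 x₀ hx₀)

end Cfsg.Agent.Lib.NotMax.SetStab
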