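/-
Tensor decompositions: pure tensors, the shape of stabilisers, and forms on pure tensors.
-/
import Cfsg.Agent.Lib.NotMax.SetStab
set_option autoImplicit false

namespace Cfsg.Agent.Lib.NotMax.Tensor

open Cfsg Cfsg.Geo Cfsg.Agent.Lib.Geo.Basic Cfsg.Agent.Lib.NotMax.SetStab
open scoped MatrixGroups Matrix Kronecker

variable {ι : Type} [Fintype ι] [DecidableEq ι] {F : Type*} [Field F] {k l : ℕ}

set_option linter.unusedSectionVars false

/-- Pure tensors, in coordinates. -/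
def pureT (x : Fin k → F) (y : Fin l → F) : Fin k × Fin l → F := fun c => x c.1 * y c.2

/-- Pure tensors, in the ambient space. -/
def TT (e : ι ≃ Fin k × Fin l) (P : GL ι F) (x : Fin k → F) (y : Fin l → F) : ι → F :=
  (P : Matrix ι ι F) *ᵥ (pureT x y ∘ e)

section Basic
variable (e : ι ≃ Fin k × Fin l) (P : GL ι F)

theorem TT_add_left (x x' : Fin k → F) (y : Fin l → F) : TT e P (x + x') y = TT e P x y + TT e P x' y := by
  unfold TT
  rw [← Matrix.mulVec_add]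
  congr 1
  funext i
  simp [pureT, add_mul]

theorem TT_add_right (x : Fin k → F) (y y' : Fin l → F) : TT e P x (y + y') = TT e P x y + TT e P x y' := by
  unfold TT
  rw [← Matrix.mulVec_add]
  congr 1
  funext i
  simp [pureT, mul_add]

theorem TT_smul_left (r : F) (x : Fin k → F) (y : Fin l → F) : TT e P (r • x) y = r • TT e P x y := by
  unfold TT
  rw [← Matrix.mulVec_smul]
  congr 1
  funext i
  simp [pureT, mul_assoc]

theorem TT_smul_right (r : F) (x : Fin k → F) (y : Fin l → F) : TT e P x (r • y) = r • TT e P x y := by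
  unfold TT
  rw [← Matrix.mulVec_smul]
  congr 1
  funext i
  simp [pureT, mul_left_comm]

theorem TT_inj {x x' : Fin k → F} {y y' : Fin l → F} (h : TT e P x y = TT e P x' y') :
    pureT x y = pureT x' y' := by
  have h1 := congrArg (fun v => ((P⁻¹ : GL ι F) : Matrix ι ι F) *ᵥ v) h
  simp only [TT, inv_mulVec_mulVec] at h1
  funext c
  have h2 := congrFun h1 (e.symm c)
  simpa using h2

omit [Fintype ι] [DecidableEq ι] in
theorem pureT_unique {x x' : Fin k → F} {y y' : Fin l → F} (hx : x ≠ 0) (hy : y ≠ 0)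
    (h : pureT x y = pureT x' y') : ∃ r : F, r ≠ 0 ∧ x' = r • x ∧ y = r • y' := by
  obtain ⟨i, hi⟩ := Function.ne_iff.mp hx
  obtain ⟨j, hj⟩ := Function.ne_iff.mp hy
  have hi' : x i ≠ 0 := hi
  have hj' : y j ≠ 0 := hj
  have hij := congrFun h (i, j)
  simp only [pureT] at hij
  have hne : x' i * y' j ≠ 0 := by
    rw [← hij]
    exact mul_ne_zero hi' hj'
  have hx'i : x' i ≠ 0 := left_ne_zero_of_mul hne
  have hy'j : y' j ≠ 0 := right_ne_zero_of_mul hne
  refine ⟨x' i / x i, div_ne_zero hx'i hi', ?_, ?_⟩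
  · funext a
    have h1 := congrFun h (a, j)
    simp only [pureT] at h1
    simp only [Pi.smul_apply, smul_eq_mul]
    have h2 : x' a * y' j = x' i / x i * x a * y' j := by
      rw [← h1]
      field_simp
      linear_combination (x a) * hij
    exact mul_right_cancel₀ hy'j h2
  · funext b
    have h1 := congrFun h (i, b)
    simp only [pureT] at h1
    simp only [Pi.smul_apply, smul_eq_mul]
    field_simp
    linear_combination h1

theorem TT_unique {x x' : Fin k → F} {y y' : Fin l → F} (hx : x ≠ 0) (hy : y ≠ 0)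
    (h : TT e P x y = TT e P x' y') : ∃ r : F, r ≠ 0 ∧ x' = r • x ∧ y = r • y' :=
  pureT_unique hx hy (TT_inj e P h)

theorem TT_ne_zero {x : Fin k → F} {y : Fin l → F} (hx : x ≠ 0) (hy : y ≠ 0) : TT e P x y ≠ 0 := by
  intro h
  have h1 : TT e P x y = TT e P 0 y := by
    rw [h]
    have := TT_smul_left e P (0 : F) x y
    simp only [zero_smul] at this
    exact this.symm
  obtain ⟨r, hr, h2, -⟩ := TT_unique e P hx hy h1
  obtain ⟨i, hi⟩ := Function.ne_iff.mp hx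
  have h3 := congrFun h2 i
  simp only [Pi.zero_apply, Pi.smul_apply, smul_eq_mul] at h3
  exact (mul_ne_zero hr hi) h3.symm

/-- Every vector is a coordinate vector. -/
theorem exists_coord (v : ι → F) : ∃ z : Fin k × Fin l → F, v = (P : Matrix ι ι F) *ᵥ (z ∘ e) := by
  refine ⟨(((P⁻¹ : GL ι F) : Matrix ι ι F) *ᵥ v) ∘ e.symm, ?_⟩
  have : (((P⁻¹ : GL ι F) : Matrix ι ι F) *ᵥ v) ∘ e.symm ∘ e = ((P⁻¹ : GL ι F) : Matrix ι ι F) *ᵥ v := by
    funext i
    simp
  rw [Function.comp_assoc, this, mulVec_inv_mulVec]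

/-- Pure tensors span. -/
theorem span_TT (p : (ι → F) → Prop) (h0 : p 0) (hadd : ∀ u v, p u → p v → p (u + v))
    (hT : ∀ x y, p (TT e P x y)) (v : ι → F) : p v := by
  classical
  obtain ⟨z, rfl⟩ := exists_coord e P v
  have hz : z = ∑ c : Fin k × Fin l, pureT ((z c) • (Pi.single c.1 1 : Fin k → F)) (Pi.single c.2 1 : Fin l → F) := by
    funext c
    rw [Finset.sum_apply, Finset.sum_eq_single c]
    · simp [pureT]
    · intro b _ hb
      simp only [pureT, Pi.smul_apply, smul_eq_mul]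
      by_cases h1 : b.1 = c.1
      · have h2 : b.2 ≠ c.2 := fun h => hb (Prod.ext h1 h)
        simp [Pi.single_apply, Ne.symm h2]
      · simp [Pi.single_apply, Ne.symm h1]
    · simp
  have key : ∀ s : Finset (Fin k × Fin l),
      p ((P : Matrix ι ι F) *ᵥ ((∑ c ∈ s, pureT ((z c) • (Pi.single c.1 1 : Fin k → F)) (Pi.single c.2 1 : Fin l → F)) ∘ e)) := by
    intro s
    induction s using Finset.induction_on with
    | empty =>
      have : ((∑ c ∈ (∅ : Finset (Fin k × Fin l)), pureT ((z c) • (Pi.single c.1 1 : Fin k → F)) (Pi.single c.2 1 : Fin l → F)) ∘ e) = 0 := by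
        funext i
        simp
      rw [this, Matrix.mulVec_zero]
      exact h0
    | insert a s ha ih =>
      rw [Finset.sum_insert ha]
      have : ((pureT ((z a) • (Pi.single a.1 1 : Fin k → F)) (Pi.single a.2 1 : Fin l → F) +
          ∑ c ∈ s, pureT ((z c) • (Pi.single c.1 1 : Fin k → F)) (Pi.single c.2 1 : Fin l → F)) ∘ e) =
          (pureT ((z a) • (Pi.single a.1 1 : Fin k → F)) (Pi.single a.2 1 : Fin l → F)) ∘ e +
          (∑ c ∈ s, pureT ((z c) • (Pi.single c.1 1 : Fin k → F)) (Pi.single c.2 1 : Fin l → F)) ∘ e := by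
        funext i
        simp
      rw [this, Matrix.mulVec_add]
      exact hadd _ _ (hT _ _) ih
  have := key Finset.univ
  rwa [← hz] at this

/-- Matrices agreeing on pure tensors are equal. -/
theorem ext_TT {A B : Matrix ι ι F} (h : ∀ x y, A *ᵥ TT e P x y = B *ᵥ TT e P x y) : A = B := by
  have key : ∀ v : ι → F, A *ᵥ v = B *ᵥ v := by
    refine span_TT e P _ ?_ ?_ h
    · simp
    · intro u v hu hv
      rw [Matrix.mulVec_add, Matrix.mulVec_add, hu, hv]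
  funext i j
  have := congrFun (key (Pi.single j 1)) i
  simpa using this

end Basic

section Psi
variable (e : ι ≃ Fin k × Fin l) (P : GL ι F)

/-- The transport of matrices. -/
def Psi : GL (Fin k × Fin l) F ≃* GL ι F := (glReindex e.symm).trans (MulAut.conj P)

theorem mem_tensor_iff {g : GL ι F} :
    g ∈ tensorProductSubgroup k l e P ↔ ∃ M ∈ kroneckerSubgroup k l F, Psi e P M = g := by
  unfold tensorProductSubgroup Psi
  simp only [Subgroup.mem_map]
  constructor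
  · rintro ⟨_, ⟨M, hM, rfl⟩, rfl⟩
    exact ⟨M, hM, rfl⟩
  · rintro ⟨M, hM, rfl⟩
    exact ⟨_, ⟨M, hM, rfl⟩, rfl⟩

theorem Psi_val (M : GL (Fin k × Fin l) F) :
    ((Psi e P M : GL ι F) : Matrix ι ι F) =
      (P : Matrix ι ι F) * (Matrix.reindex e.symm e.symm (M : Matrix _ _ F)) * ((P⁻¹ : GL ι F) : Matrix ι ι F) := by
  rfl

theorem Psi_mulVec (M : GL (Fin k × Fin l) F) (z : Fin k × Fin l → F) :
    ((Psi e P M : GL ι F) : Matrix ι ι F) *ᵥ ((P : Matrix ι ι F) *ᵥ (z ∘ e)) =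
      (P : Matrix ι ι F) *ᵥ (((M : Matrix _ _ F) *ᵥ z) ∘ e) := by
  rw [Psi_val, ← Matrix.mulVec_mulVec, ← Matrix.mulVec_mulVec, inv_mulVec_mulVec]
  congr 1
  funext i
  simp only [Matrix.mulVec, dotProduct, Matrix.reindex_apply, Matrix.submatrix_apply, Function.comp,
    Equiv.symm_symm]
  exact (Equiv.sum_comp e (fun c => (M : Matrix _ _ F) (e i) c * z c))

omit [Fintype ι] [DecidableEq ι] in
theorem kronecker_mulVec_pure (a : Matrix (Fin k) (Fin k) F) (b : Matrix (Fin l) (Fin l) F)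
    (x : Fin k → F) (y : Fin l → F) : (a ⊗ₖ b) *ᵥ pureT x y = pureT (a *ᵥ x) (b *ᵥ y) := by
  funext c
  simp only [Matrix.mulVec, dotProduct, pureT, Matrix.kroneckerMap_apply, Fintype.sum_prod_type]
  rw [Finset.sum_mul_sum]
  refine Finset.sum_congr rfl fun d _ => Finset.sum_congr rfl fun d' _ => ?_
  ring

theorem Psi_T (a : GL (Fin k) F) (b : GL (Fin l) F) (M : GL (Fin k × Fin l) F)
    (hM : (M : Matrix _ _ F) = (a : Matrix (Fin k) (Fin k) F) ⊗ₖ (b : Matrix (Fin l) (Fin l) F))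
    (x : Fin k → F) (y : Fin l → F) :
    ((Psi e P M : GL ι F) : Matrix ι ι F) *ᵥ TT e P x y =
      TT e P ((a : Matrix _ _ F) *ᵥ x) ((b : Matrix _ _ F) *ᵥ y) := by
  unfold TT
  rw [Psi_mulVec, hM, kronecker_mulVec_pure]

/-- The shape of elements of a tensor decomposition stabiliser. -/
theorem mem_tensor {g : GL ι F} (hg : g ∈ tensorProductSubgroup k l e P) :
    ∃ (a : GL (Fin k) F) (b : GL (Fin l) F), ∀ x y, (g : Matrix ι ι F) *ᵥ TT e P x y =
      TT e P ((a : Matrix _ _ F) *ᵥ x) ((b : Matrix _ _ F) *ᵥ y) := by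
  obtain ⟨M, ⟨a, b, hM⟩, rfl⟩ := (mem_tensor_iff e P).mp hg
  exact ⟨a, b, Psi_T e P a b M hM⟩

end Psi

section Gram
variable {κ : Type} [Fintype κ] [DecidableEq κ]

/-- A sesquilinear form is given by its Gram matrix. -/
theorem formOfGram_eq (σ : F → F) (f : (κ → F) → (κ → F) → F)
    (h1 : ∀ x y v, f (x + y) v = f x v + f y v) (h2 : ∀ (c : F) x v, f (c • x) v = c * f x v)
    (h3 : ∀ v x y, f v (x + y) = f v x + f v y) (h4 : ∀ (c : F) v x, f v (c • x) = σ c * f v x)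
    (x y : κ → F) : formOfGram σ (gramMatrix f) x y = f x y := by
  have hz : ∀ v, f 0 v = 0 := fun v => by simpa using h2 0 0 v
  have hz' : ∀ v, f v 0 = 0 := fun v => by
    have := h3 v 0 0
    simp only [add_zero] at this
    exact left_eq_add.mp this
  have hl : ∀ (s : Finset κ) (g : κ → κ → F) (v : κ → F), f (∑ a ∈ s, g a) v = ∑ a ∈ s, f (g a) v := by
    intro s g v
    induction s using Finset.induction_on with
    | empty => simp [hz]
    | insert a s ha ih => rw [Finset.sum_insert ha, Finset.sum_insert ha, h1, ih]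
  have hr : ∀ (s : Finset κ) (g : κ → κ → F) (v : κ → F), f v (∑ a ∈ s, g a) = ∑ a ∈ s, f v (g a) := by
    intro s g v
    induction s using Finset.induction_on with
    | empty => simp [hz']
    | insert a s ha ih => rw [Finset.sum_insert ha, Finset.sum_insert ha, h3, ih]
  have hx : ∀ v : κ → F, v = ∑ a, v a • (Pi.single a 1 : κ → F) := by
    intro v
    funext i
    rw [Finset.sum_apply, Finset.sum_eq_single i]
    · simp
    · intro b _ hb
      simp [Ne.symm hb]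
    · simp
  conv_rhs => rw [hx x, hx y]
  rw [hl]
  unfold formOfGram gramMatrix
  refine Finset.sum_congr rfl fun a _ => ?_
  rw [h2, hr, Finset.mul_sum]
  refine Finset.sum_congr rfl fun b _ => ?_
  rw [h4]
  ring

theorem formOfGram_bilinear {f : (κ → F) → (κ → F) → F} (hf : IsBilinearForm f) (x y : κ → F) :
    formOfGram id (gramMatrix f) x y = f x y :=
  formOfGram_eq id f hf.add_left hf.smul_left hf.add_right (fun c v x => hf.smul_right c v x) x y

end Gram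

section FormLaw
variable {e : ι ≃ Fin k × Fin l} {P : GL ι F}

omit [Fintype ι] [DecidableEq ι] in
theorem formOfGram_pure (σ : F → F) (hσ : ∀ a b, σ (a * b) = σ a * σ b) (G₁ : Matrix (Fin k) (Fin k) F)
    (G₂ : Matrix (Fin l) (Fin l) F) (x₁ y₁ : Fin k → F) (x₂ y₂ : Fin l → F) :
    formOfGram σ (G₁ ⊗ₖ G₂) (pureT x₁ x₂) (pureT y₁ y₂) =
      formOfGram σ G₁ x₁ y₁ * formOfGram σ G₂ x₂ y₂ := by
  unfold formOfGram pureT
  simp only [Fintype.sum_prod_type, Matrix.kroneckerMap_apply, hσ]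
  rw [Finset.sum_mul_sum]
  refine Finset.sum_congr rfl fun d _ => Finset.sum_congr rfl fun j _ => ?_
  rw [Finset.sum_mul_sum]
  refine Finset.sum_congr rfl fun d' _ => Finset.sum_congr rfl fun j' _ => ?_
  ring

/-- The form law on pure tensors. -/
theorem form_T (σ : F → F) (hσ : ∀ a b, σ (a * b) = σ a * σ b) {f : (ι → F) → (ι → F) → F}
    {f₁ : (Fin k → F) → (Fin k → F) → F} {f₂ : (Fin l → F) → (Fin l → F) → F} {c : F}
    (h : ∀ x y : Fin k × Fin l → F, f ((P : Matrix ι ι F) *ᵥ (x ∘ e)) ((P : Matrix ι ι F) *ᵥ (y ∘ e)) =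
      c * formOfGram σ (gramMatrix f₁ ⊗ₖ gramMatrix f₂) x y)
    (h₁ : ∀ x y, formOfGram σ (gramMatrix f₁) x y = f₁ x y)
    (h₂ : ∀ x y, formOfGram σ (gramMatrix f₂) x y = f₂ x y)
    (x₁ y₁ : Fin k → F) (x₂ y₂ : Fin l → F) :
    f (TT e P x₁ x₂) (TT e P y₁ y₂) = c * f₁ x₁ y₁ * f₂ x₂ y₂ := by
  unfold TT
  rw [h, formOfGram_pure σ hσ, h₁, h₂]
  ring

end FormLaw

section Abstract

/-- An abstract tensor map. -/
structure IsTensorMap (T : (Fin k → F) → (Fin l → F) → ι → F) : Prop where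
  add_left : ∀ x x' y, T (x + x') y = T x y + T x' y
  add_right : ∀ x y y', T x (y + y') = T x y + T x y'
  smul_left : ∀ (r : F) x y, T (r • x) y = r • T x y
  smul_right : ∀ (r : F) x y, T x (r • y) = r • T x y
  uniq : ∀ {x x' : Fin k → F} {y y' : Fin l → F}, x ≠ 0 → y ≠ 0 → T x y = T x' y' →
    ∃ r : F, r ≠ 0 ∧ x' = r • x ∧ y = r • y'

theorem isTensorMap_TT (e : ι ≃ Fin k × Fin l) (P : GL ι F) : IsTensorMap (TT e P) where
  add_left := TT_add_left e P
  add_right := TT_add_right e P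
  smul_left := TT_smul_left e P
  smul_right := TT_smul_right e P
  uniq := TT_unique e P

variable {T : (Fin k → F) → (Fin l → F) → ι → F}

theorem IsTensorMap.swap (h : IsTensorMap T) : IsTensorMap (fun (y : Fin l → F) (x : Fin k → F) => T x y) where
  add_left y y' x := h.add_right x y y'
  add_right y x x' := h.add_left x x' y
  smul_left r y x := h.smul_right r x y
  smul_right r y x := h.smul_left r x y
  uniq := by
    intro y y' x x' hy hx he
    obtain ⟨r, hr, h1, h2⟩ := h.uniq hx hy he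
    refine ⟨r⁻¹, inv_ne_zero hr, ?_, ?_⟩
    · rw [h2, smul_smul, inv_mul_cancel₀ hr, one_smul]
    · rw [h1, smul_smul, inv_mul_cancel₀ hr, one_smul]

theorem IsTensorMap.zero_left (h : IsTensorMap T) (y : Fin l → F) : T 0 y = 0 := by
  have := h.smul_left 0 0 y
  simpa using this

theorem IsTensorMap.zero_right (h : IsTensorMap T) (x : Fin k → F) : T x 0 = 0 := by
  have := h.smul_right 0 x 0
  simpa using this

theorem IsTensorMap.ne_zero (h : IsTensorMap T) {x : Fin k → F} {y : Fin l → F} (hx : x ≠ 0) (hy : y ≠ 0) :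
    T x y ≠ 0 := by
  intro h0
  have h1 : T x y = T 0 y := by rw [h0, h.zero_left]
  obtain ⟨r, hr, h2, -⟩ := h.uniq hx hy h1
  obtain ⟨i, hi⟩ := Function.ne_iff.mp hx
  have h3 := congrFun h2 i
  simp only [Pi.zero_apply, Pi.smul_apply, smul_eq_mul] at h3
  exact (mul_ne_zero hr hi) h3.symm

/-- **The frame criterion**, for abstract tensor maps. -/
theorem frame_not_maximal_T [Finite F] (hT : IsTensorMap T) {G H : Subgroup (GL ι F)}
    (Fr : Set (Fin k → F)) (hHG : H ≤ G)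
    (hH : ∀ h ∈ H, ∃ (a : GL (Fin k) F) (b : GL (Fin l) F),
      (∀ x y, (h : Matrix ι ι F) *ᵥ T x y = T ((a : Matrix _ _ F) *ᵥ x) ((b : Matrix _ _ F) *ᵥ y)) ∧
        ∀ x ∈ Fr, (a : Matrix _ _ F) *ᵥ x ∈ Fr)
    {v₁ v₂ : Fin k → F} (hv₁ : v₁ ∈ Fr) (hv₁0 : v₁ ≠ 0) (hv₂0 : v₂ ≠ 0)
    (w : GL ι F) (hwG : w ∈ G)
    (hwS : ∀ x ∈ Fr, ∀ y, ∃ x' ∈ Fr, ∃ y', (w : Matrix ι ι F) *ᵥ T x y = T x' y')
    {y₀ y' : Fin l → F} (hy₀ : y₀ ≠ 0) (hw2 : (w : Matrix ι ι F) *ᵥ T v₂ y₀ = T v₂ y₀)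
    (hw1 : (w : Matrix ι ι F) *ᵥ T v₁ y₀ = T v₁ y') (hy' : ∀ r : F, y' ≠ r • y₀)
    (s : GL ι F) (hsG : s ∈ G)
    (hs : ∀ x ∈ Fr, ∀ y, (s : Matrix ι ι F) *ᵥ T v₁ y₀ ≠ T x y) :
    ∃ K : Subgroup (GL ι F), H < K ∧ K < G := by
  refine not_maximal_of_set {z | ∃ x ∈ Fr, ∃ y, z = T x y} hHG ?_ w hwG ?_ ?_ s hsG (T v₁ y₀)
    ⟨v₁, hv₁, y₀, rfl⟩ ?_
  · rintro h hh _ ⟨x, hx, y, rfl⟩
    obtain ⟨a, b, h1, h2⟩ := hH h hh
    exact ⟨_, h2 x hx, _, h1 x y⟩
  · rintro _ ⟨x, hx, y, rfl⟩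
    obtain ⟨x', hx', y'', h⟩ := hwS x hx y
    exact ⟨x', hx', y'', h⟩
  · intro hw
    obtain ⟨a, b, h1, -⟩ := hH w hw
    have h2 : T v₂ y₀ = T ((a : Matrix _ _ F) *ᵥ v₂) ((b : Matrix _ _ F) *ᵥ y₀) := by
      rw [← h1, hw2]
    obtain ⟨r, hr, -, h3⟩ := hT.uniq hv₂0 hy₀ h2
    have hy'0 : y' ≠ 0 := by
      intro h0
      apply hy' 0
      rw [h0, zero_smul]
    have h4 : T v₁ y' = T ((a : Matrix _ _ F) *ᵥ v₁) ((b : Matrix _ _ F) *ᵥ y₀) := by
      rw [← h1, hw1]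
    obtain ⟨r', hr', -, h5⟩ := hT.uniq hv₁0 hy'0 h4
    apply hy' (r' * r⁻¹)
    rw [h5]
    conv_rhs => rw [h3]
    rw [smul_smul, mul_assoc, inv_mul_cancel₀ hr, mul_one]
  · rintro ⟨x, hx, y, h⟩
    exact hs x hx y h

/-- Bilinear version of the frame criterion, with a dichotomy. -/
theorem frame_not_maximal_law [Finite F] (hT : IsTensorMap T) {G H : Subgroup (GL ι F)}
    {f : (ι → F) → (ι → F) → F} (hfadd : ∀ u u' z, f (u + u') z = f u z + f u' z)
    {A : (Fin k → F) → (Fin k → F) → F} {B : (Fin l → F) → (Fin l → F) → F} {c : F} (hc : c ≠ 0)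
    (hlaw : ∀ x y x' y', f (T x y) (T x' y') = c * A x x' * B y y')
    (hBnd : ∀ y : Fin l → F, y ≠ 0 → ∃ t, B y t ≠ 0)
    (Fr : Set (Fin k → F)) (hHG : H ≤ G)
    (hH : ∀ h ∈ H, ∃ (a : GL (Fin k) F) (b : GL (Fin l) F),
      (∀ x y, (h : Matrix ι ι F) *ᵥ T x y = T ((a : Matrix _ _ F) *ᵥ x) ((b : Matrix _ _ F) *ᵥ y)) ∧
        ∀ x ∈ Fr, (a : Matrix _ _ F) *ᵥ x ∈ Fr)
    {v₁ v₂ : Fin k → F} (hv₁ : v₁ ∈ Fr) (hv₁0 : v₁ ≠ 0) (hv₂0 : v₂ ≠ 0)
    (h12 : A v₁ v₂ = 0) (h21 : A v₂ v₁ = 0) (h11 : A v₁ v₁ ≠ 0) (h22 : A v₂ v₂ ≠ 0)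
    (hd : ∀ x ∈ Fr, A x v₁ = 0 ∨ ∃ r : F, r ≠ 0 ∧ x = r • v₁)
    (w : GL ι F) (hwG : w ∈ G)
    (hw : ∀ x y, ∃ y', (w : Matrix ι ι F) *ᵥ T x y = T x y + T v₁ y')
    (hw0 : ∀ x y, A x v₁ = 0 → (w : Matrix ι ι F) *ᵥ T x y = T x y)
    {y₀ y' : Fin l → F} (hy₀ : y₀ ≠ 0)
    (hw1 : (w : Matrix ι ι F) *ᵥ T v₁ y₀ = T v₁ y') (hy' : ∀ r : F, y' ≠ r • y₀)
    (s : GL ι F) (hsG : s ∈ G) {y₁ y₂ : Fin l → F} (hy₁ : y₁ ≠ 0) (hy₂ : y₂ ≠ 0)
    (hs : (s : Matrix ι ι F) *ᵥ T v₁ y₀ = T v₁ y₁ + T v₂ y₂) :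
    ∃ K : Subgroup (GL ι F), H < K ∧ K < G := by
  refine frame_not_maximal_T hT Fr hHG hH hv₁ hv₁0 hv₂0 w hwG ?_ hy₀ (hw0 _ _ h21) hw1 hy' s hsG ?_
  · intro x hx y
    rcases hd x hx with h0 | ⟨r, hr, rfl⟩
    · exact ⟨_, hx, _, hw0 x y h0⟩
    · obtain ⟨y'', h⟩ := hw (r • v₁) y
      refine ⟨_, hx, y + r⁻¹ • y'', ?_⟩
      rw [h, hT.add_right, hT.smul_left, hT.smul_right r⁻¹ (r • v₁), hT.smul_left, smul_smul r⁻¹ r,
        inv_mul_cancel₀ hr, one_smul]
  · intro x hx y he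
    rw [hs] at he
    obtain ⟨t, ht⟩ := hBnd y₁ hy₁
    have h1 := congrArg (fun z => f z (T v₁ t)) he
    simp only [hfadd, hlaw, h21] at h1
    have h2 : A x v₁ ≠ 0 := by
      intro h0
      rw [h0] at h1
      have : c * A v₁ v₁ * B y₁ t = 0 := by linear_combination h1
      exact mul_ne_zero (mul_ne_zero hc h11) ht this
    rcases hd x hx with h0 | ⟨r, hr, rfl⟩
    · exact h2 h0
    · obtain ⟨t', ht'⟩ := hBnd y₂ hy₂
      have h3 := congrArg (fun z => f z (T v₂ t')) he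
      simp only [hfadd, hlaw, h12] at h3
      have h4 := hT.smul_left r v₁ y
      have h5 : T (r • v₁) y = T v₁ (r • y) := by rw [h4, hT.smul_right]
      have h6 := congrArg (fun z => f z (T v₂ t')) h5
      simp only [hlaw, h12] at h6
      have : c * A v₂ v₂ * B y₂ t' = 0 := by linear_combination h3 + h6
      exact mul_ne_zero (mul_ne_zero hc h22) ht' this

/-- Rigidity. -/
theorem rigid_zero {f : (ι → F) → (ι → F) → F} {A : (Fin k → F) → (Fin k → F) → F}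
    {B : (Fin l → F) → (Fin l → F) → F} {c : F} (hc : c ≠ 0)
    (hlaw : ∀ x y x' y', f (T x y) (T x' y') = c * A x x' * B y y')
    (hB : ∃ y y', B y y' ≠ 0) {g : Matrix ι ι F} (hiso : ∀ u v, f (g *ᵥ u) (g *ᵥ v) = f u v)
    {a : Matrix (Fin k) (Fin k) F} {b : Matrix (Fin l) (Fin l) F}
    (hg : ∀ x y, g *ᵥ T x y = T (a *ᵥ x) (b *ᵥ y)) {x x' : Fin k → F} (h0 : A (a *ᵥ x) (a *ᵥ x') = 0) :
    A x x' = 0 := by
  obtain ⟨y, y', hy⟩ := hB
  have h1 := hiso (T x y) (T x' y')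
  rw [hg, hg, hlaw, hlaw, h0] at h1
  have h2 : c * A x x' * B y y' = 0 := by linear_combination -h1
  exact (mul_eq_zero.mp ((mul_eq_zero.mp h2).resolve_right hy)).resolve_left hc

/-- The frame of a symmetric form: vectors whose perpendicular space is anisotropic. -/
def FrO (A : (Fin k → F) → (Fin k → F) → F) : Set (Fin k → F) :=
  {x | x ≠ 0 ∧ ∀ y, A x y = 0 → A y y = 0 → y = 0}

theorem FrO_map {A : (Fin k → F) → (Fin k → F) → F} (a : GL (Fin k) F)
    (h : ∀ x x', A ((a : Matrix _ _ F) *ᵥ x) ((a : Matrix _ _ F) *ᵥ x') = 0 → A x x' = 0)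
    {x : Fin k → F} (hx : x ∈ FrO A) : (a : Matrix _ _ F) *ᵥ x ∈ FrO A := by
  refine ⟨?_, fun y h1 h2 => ?_⟩
  · intro h0
    apply hx.1
    have := inv_mulVec_mulVec a x
    rw [h0] at this
    simpa using this.symm
  · have e : y = (a : Matrix (Fin k) (Fin k) F) *ᵥ (((a⁻¹ : GL (Fin k) F) : Matrix (Fin k) (Fin k) F) *ᵥ y) :=
      (mulVec_inv_mulVec a y).symm
    rw [e] at h1 h2 ⊢
    have h3 := h _ _ h1
    have h4 := h _ _ h2
    rw [hx.2 _ h3 h4, Matrix.mulVec_zero]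

/-- The frame of a unitary form: non-isotropic vectors. -/
def FrU (A : (Fin k → F) → (Fin k → F) → F) : Set (Fin k → F) := {x | A x x ≠ 0}

theorem FrU_map {A : (Fin k → F) → (Fin k → F) → F} (a : GL (Fin k) F)
    (h : ∀ x x', A ((a : Matrix _ _ F) *ᵥ x) ((a : Matrix _ _ F) *ᵥ x') = 0 → A x x' = 0)
    {x : Fin k → F} (hx : x ∈ FrU A) : (a : Matrix _ _ F) *ᵥ x ∈ FrU A :=
  fun h0 => hx (h _ _ h0)

end Abstract

end Cfsg.Agent.Lib.NotMax.Tensor
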