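/-
`Sp_2m(2)`: the stabiliser of a decomposition into non-degenerate planes is not maximal: it lies in an orthogonal group.
-/
import Cfsg.Agent.Lib.NotMax.Basic
set_option autoImplicit false

namespace Cfsg.Agent.Lib.NotMax.Sp2

open Cfsg Cfsg.Geo Cfsg.Agent.Lib.Geo.Basic Cfsg.Agent.Lib.Geo.QForm Cfsg.Agent.Lib.Geo.SympInSL
open Cfsg.Agent.Lib.Geo.SpBase Cfsg.Agent.Lib.Geo.SpFrames Cfsg.Agent.Lib.Geo.SpDecomp Cfsg.Agent.Lib.NotMax.Basic
open scoped MatrixGroups Matrix

variable {ι : Type} [Fintype ι] [DecidableEq ι] {F : Type*} [Field F]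

section F2
variable [Fintype F] (hq : Fintype.card F = 2) {f : (ι → F) → (ι → F) → F}

omit [Fintype ι] [DecidableEq ι] in
include hq in
theorem eq_zero_or_one (x : F) : x = 0 ∨ x = 1 := by
  classical
  have h1 : (Finset.univ : Finset F) = {0, 1} := by
    symm
    apply Finset.eq_of_subset_of_card_le (Finset.subset_univ _)
    rw [Finset.card_univ, hq, Finset.card_pair zero_ne_one]
  have : x ∈ ({0, 1} : Finset F) := h1 ▸ Finset.mem_univ x
  simpa using this

omit [Fintype ι] [DecidableEq ι] in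
include hq in
theorem two_eq_zero : (2 : F) = 0 := by
  rcases eq_zero_or_one hq (2 : F) with h | h
  · exact h
  · exfalso
    have h2 : (1 : F) = 0 := by linear_combination h
    exact one_ne_zero h2

omit [DecidableEq ι] in
include hq in
/-- Existence of the quadratic form. -/
theorem exists_Q (hf : IsSymplecticForm f) {t : ℕ} {D : Fin t → Submodule F (ι → F)}
    (hD : IsNondegenerateMDecomposition f 2 D) :
    ∃ Q : (ι → F) → F, (∀ x y, Q (x + y) = Q x + Q y + f x y) ∧ ∀ i, ∀ v ∈ D i, v ≠ 0 → Q v = 1 := by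
  classical
  have h2 : (2 : F) = 0 := two_eq_zero hq
  have hne1 : ∀ {x : F}, x ≠ 0 → x = 1 := fun {x} hx => (eq_zero_or_one hq x).resolve_left hx
  -- a basis of each member
  have hbasis : ∀ i, ∃ a ∈ D i, ∃ b ∈ D i, f a b = 1 ∧ ∀ v ∈ D i, v = f v b • a + f a v • b := by
    intro i
    have h0 : D i ≠ ⊥ := by
      intro h
      have := hD.decomp.finrank_eq i
      rw [h, finrank_bot] at this
      omega
    obtain ⟨a, ha, ha0⟩ := Submodule.exists_mem_ne_zero_of_ne_bot h0
    obtain ⟨b, hb, hab⟩ := (hD.nondegenerate i a ha ha0).2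
    have hab1 : f a b = 1 := hne1 hab
    refine ⟨a, ha, b, hb, hab1, ?_⟩
    have hli : LinearIndependent F ![a, b] := by
      rw [LinearIndependent.pair_iff]
      intro s u hsu
      have h1 := congrArg (fun v => f a v) hsu
      have h3 := congrArg (fun v => f v b) hsu
      simp only [hf.bilinear.add_right, hf.bilinear.smul_right, hf.alternating,
        hf.bilinear.add_left, hf.bilinear.smul_left, hab1] at h1 h3
      have hz : f a 0 = 0 := by
        have := hf.bilinear.smul_right 0 a 0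
        simpa using this
      have hz' : f 0 b = 0 := by
        have := hf.bilinear.smul_left 0 0 b
        simpa using this
      rw [hz] at h1
      rw [hz'] at h3
      simp only [mul_zero, zero_add, mul_one, add_zero] at h1 h3
      exact ⟨h3, h1⟩
    have hspan : Submodule.span F {a, b} = D i := by
      apply Submodule.eq_of_le_of_finrank_eq
      · rw [Submodule.span_le]
        rintro x (rfl | rfl)
        · exact ha
        · exact hb
      · have h3 := finrank_span_eq_card hli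
        simp only [Fintype.card_fin] at h3
        have e : Set.range ![a, b] = {a, b} := by simp [Matrix.range_cons, Set.pair_comm]
        rw [e] at h3
        rw [h3, hD.decomp.finrank_eq i]
    intro v hv
    rw [← hspan] at hv
    obtain ⟨s, u, rfl⟩ := Submodule.mem_span_pair.mp hv
    have hba : f b b = 0 := hf.alternating b
    simp only [hf.bilinear.add_right, hf.bilinear.smul_right, hf.alternating,
      hf.bilinear.add_left, hf.bilinear.smul_left, hab1, hba, mul_zero, zero_add, mul_one, add_zero]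
  choose a ha b hb hab hexp using hbasis
  have hAO : ∀ i j, i ≠ j → ∀ x ∈ D i, ∀ y ∈ D j, f x y = 0 := fun i j hij x hx y hy =>
    hD.orthogonal i j hij x hx y hy
  refine ⟨fun x => ∑ i, (f x (b i) ^ 2 + f x (b i) * f (a i) x + f (a i) x ^ 2), ?_, ?_⟩
  · intro x y
    obtain ⟨c, hc, rfl⟩ := exists_comps hD.decomp.iSup_eq_top x
    obtain ⟨c', hc', rfl⟩ := exists_comps hD.decomp.iSup_eq_top y
    have e1 : ∀ (c : Fin t → ι → F) (_ : ∀ i, c i ∈ D i) (i : Fin t), f (∑ j, c j) (b i) = f (c i) (b i) := by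
      intro c hc i
      rw [form_sum_left hf]
      exact Finset.sum_eq_single i (fun j _ hj => hAO j i hj _ (hc j) _ (hb i)) (by simp)
    have e2 : ∀ (c : Fin t → ι → F) (_ : ∀ i, c i ∈ D i) (i : Fin t), f (a i) (∑ j, c j) = f (a i) (c i) := by
      intro c hc i
      rw [form_sum_right hf]
      exact Finset.sum_eq_single i (fun j _ hj => hAO i j hj.symm _ (ha i) _ (hc j)) (by simp)
    beta_reduce
    have hXY := form_sum_sum hf (fun i j hij => hD.orthogonal i j hij) hc hc'
    have hX1 := e1 c hc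
    have hX2 := e2 c hc
    have hY1 := e1 c' hc'
    have hY2 := e2 c' hc'
    generalize (∑ j, c j) = X at *
    generalize (∑ j, c' j) = Y at *
    simp only [hf.bilinear.add_left, hf.bilinear.add_right, hX1, hX2, hY1, hY2, hXY, ← Finset.sum_add_distrib]
    refine Finset.sum_congr rfl fun i _ => ?_
    -- the form on a member
    have e3 : f (c i) (c' i) = f (c i) (b i) * f (a i) (c' i) - f (a i) (c i) * f (c' i) (b i) := by
      conv_lhs => rw [hexp i (c i) (hc i), hexp i (c' i) (hc' i)]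
      simp only [hf.bilinear.add_right, hf.bilinear.smul_right, hf.bilinear.add_left, hf.bilinear.smul_left,
        hf.alternating, hab]
      rw [hf.skew (b i) (a i), hab]
      ring
    rw [e3]
    linear_combination (f (c i) (b i) * f (c' i) (b i) + f (a i) (c i) * f (a i) (c' i) +
      f (c' i) (b i) * f (a i) (c i)) * h2
  · intro i v hv hv0
    have e1 : ∀ j, j ≠ i → f v (b j) = 0 := fun j hj => hAO i j hj.symm _ hv _ (hb j)
    have e2 : ∀ j, j ≠ i → f (a j) v = 0 := fun j hj => hAO j i hj _ (ha j) _ hv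
    have e3 : (∑ j, (f v (b j) ^ 2 + f v (b j) * f (a j) v + f (a j) v ^ 2)) =
        f v (b i) ^ 2 + f v (b i) * f (a i) v + f (a i) v ^ 2 := by
      refine Finset.sum_eq_single i (fun j _ hj => ?_) (by simp)
      rw [e1 j hj, e2 j hj]
      ring
    show (∑ j, (f v (b j) ^ 2 + f v (b j) * f (a j) v + f (a j) v ^ 2)) = 1
    rw [e3]
    have h5 := hexp i v hv
    rcases eq_zero_or_one hq (f v (b i)) with h6 | h6 <;> rcases eq_zero_or_one hq (f (a i) v) with h7 | h7
    · exfalso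
      apply hv0
      rw [h5, h6, h7]
      simp
    · rw [h6, h7]
      ring
    · rw [h6, h7]
      ring
    · rw [h6, h7]
      linear_combination h2

end F2

/-- Main statement in abstract form. -/
theorem decomp_not_maximal [Fintype F] (hq : Fintype.card F = 2) {f : (ι → F) → (ι → F) → F}
    {hf : IsSymplecticForm f} {I : Subgroup (GL ι F)} (S : IsSpGroup hf I) {t : ℕ}
    {D : Fin t → Submodule F (ι → F)} (hD : IsNondegenerateMDecomposition f 2 D) (ht : 3 ≤ t) :
    ∃ K : Subgroup (GL ι F), decompositionStabilizer D ⊓ I < K ∧ K < I := by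
  classical
  obtain ⟨Q, hQ, hQv⟩ := exists_Q hq hf hD
  have h2 : (2 : F) = 0 := two_eq_zero hq
  have hQ0 : Q 0 = 0 := by
    have := hQ 0 0
    rw [add_zero] at this
    have hz : f 0 0 = 0 := hf.alternating 0
    rw [hz] at this
    linear_combination -this
  have hne1 : ∀ {x : F}, x ≠ 0 → x = 1 := fun {x} hx => (eq_zero_or_one hq x).resolve_left hx
  -- three vectors
  have hmem : ∀ i, ∃ v ∈ D i, v ≠ 0 := by
    intro i
    have h0 : D i ≠ ⊥ := by
      intro h
      have := hD.decomp.finrank_eq i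
      rw [h, finrank_bot] at this
      omega
    exact Submodule.exists_mem_ne_zero_of_ne_bot h0
  set i₁ : Fin t := ⟨0, by omega⟩ with hi₁
  set i₂ : Fin t := ⟨1, by omega⟩ with hi₂
  set i₃ : Fin t := ⟨2, by omega⟩ with hi₃
  have h12 : i₁ ≠ i₂ := by simp [hi₁, hi₂, Fin.ext_iff]
  have h13 : i₁ ≠ i₃ := by simp [hi₁, hi₃, Fin.ext_iff]
  have h23 : i₂ ≠ i₃ := by simp [hi₂, hi₃, Fin.ext_iff]
  obtain ⟨v₁, hv₁, hv₁0⟩ := hmem i₁
  obtain ⟨v₂, hv₂, hv₂0⟩ := hmem i₂
  obtain ⟨v₃, hv₃, hv₃0⟩ := hmem i₃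
  have hAO : ∀ i j, i ≠ j → ∀ x ∈ D i, ∀ y ∈ D j, f x y = 0 := fun i j hij x hx y hy =>
    hD.orthogonal i j hij x hx y hy
  have hQ_sum : Q (v₁ + v₂ + v₃) = 1 := by
    rw [hQ, hQ, hQv _ _ hv₁ hv₁0, hQv _ _ hv₂ hv₂0, hQv _ _ hv₃ hv₃0, hAO _ _ h12 _ hv₁ _ hv₂,
      hf.bilinear.add_left, hAO _ _ h13 _ hv₁ _ hv₃, hAO _ _ h23 _ hv₂ _ hv₃]
    linear_combination h2
  have hQ_sum2 : Q (v₁ + v₂) = 0 := by
    rw [hQ, hQv _ _ hv₁ hv₁0, hQv _ _ hv₂ hv₂0, hAO _ _ h12 _ hv₁ _ hv₂]
    linear_combination h2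
  -- transvections
  have hT : ∀ v x, ((sympT hf v 1 : GL ι F) : Matrix ι ι F) *ᵥ x = x + f x v • v := by
    intro v x
    rw [sympT_mulVec, one_smul]
  have hTI : ∀ v, sympT hf v 1 ∈ I := by
    intro v
    rw [S.mem_iff]
    exact fun x y => sympT_preserves hf v 1 x y
  have hTQ : ∀ v, Q v = 1 → sympT hf v 1 ∈ isometryGroup F Q := by
    intro v hv
    rw [mem_isometryGroup_iff]
    intro x
    rw [hT]
    rcases eq_zero_or_one hq (f x v) with h | h
    · rw [h, zero_smul, add_zero]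
    · rw [h, one_smul, hQ, hv, h]
      linear_combination h2
  set K : Subgroup (GL ι F) := I ⊓ isometryGroup F Q with hK
  refine ⟨K, lt_of_le_of_ne ?_ ?_, lt_of_le_of_ne inf_le_left ?_⟩
  · -- `H ≤ K`
    rintro g ⟨⟨σ, hσ⟩, hgI⟩
    refine ⟨hgI, ?_⟩
    have hgf := (S.mem_iff g).mp hgI
    show g ∈ isometryGroup F Q
    rw [mem_isometryGroup_iff]
    intro x
    -- components
    obtain ⟨c, hc, rfl⟩ := exists_comps hD.decomp.iSup_eq_top x
    have hcomp : ∀ (s : Finset (Fin t)), Q ((g : Matrix ι ι F) *ᵥ ∑ i ∈ s, c i) = Q (∑ i ∈ s, c i) := by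
      intro s
      induction s using Finset.induction_on with
      | empty =>
        simp [hQ0]
      | insert a s ha ih =>
        rw [Finset.sum_insert ha, Matrix.mulVec_add, hQ, ih, hQ, hgf]
        congr 1
        congr 1
        by_cases h0 : c a = 0
        · rw [h0, Matrix.mulVec_zero]
        · rw [hQv a _ (hc a) h0]
          refine hQv (σ a) _ ?_ ?_
          · rw [← hσ a]
            exact ⟨c a, hc a, rfl⟩
          · intro h1
            apply h0
            have := inv_mulVec_mulVec g (c a)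
            rw [h1, Matrix.mulVec_zero] at this
            exact this.symm
    simpa using hcomp Finset.univ
  · -- `H ≠ K`
    intro heq
    have hmemK : sympT hf (v₁ + v₂ + v₃) 1 ∈ K := ⟨hTI _, hTQ _ hQ_sum⟩
    rw [← heq] at hmemK
    obtain ⟨⟨σ, hσ⟩, -⟩ := hmemK
    -- a vector of `D i₁` not orthogonal to `v₁`
    obtain ⟨x, hx, hxv⟩ := (hD.nondegenerate i₁ v₁ hv₁ hv₁0).1
    have hxv1 : f x v₁ = 1 := hne1 hxv
    have hxv' : f x (v₁ + v₂ + v₃) = 1 := by
      rw [hf.bilinear.add_right, hf.bilinear.add_right, hxv1, hAO _ _ h12 _ hx _ hv₂, hAO _ _ h13 _ hx _ hv₃]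
      ring
    have himg : x + (v₁ + v₂ + v₃) ∈ D (σ i₁) := by
      rw [← hσ i₁]
      refine ⟨x, hx, ?_⟩
      rw [Matrix.toLin'_apply, hT, hxv', one_smul]
    obtain ⟨y₂, hy₂, hy₂v⟩ := (hD.nondegenerate i₂ v₂ hv₂ hv₂0).2
    obtain ⟨y₃, hy₃, hy₃v⟩ := (hD.nondegenerate i₃ v₃ hv₃ hv₃0).2
    have hp2 : f (x + (v₁ + v₂ + v₃)) y₂ ≠ 0 := by
      simp only [hf.bilinear.add_left]
      rw [hAO _ _ h12 _ hx _ hy₂, hAO _ _ h12 _ hv₁ _ hy₂, hAO _ _ h23.symm _ hv₃ _ hy₂]
      simpa using hy₂v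
    have hp3 : f (x + (v₁ + v₂ + v₃)) y₃ ≠ 0 := by
      simp only [hf.bilinear.add_left]
      rw [hAO _ _ h13 _ hx _ hy₃, hAO _ _ h13 _ hv₁ _ hy₃, hAO _ _ h23 _ hv₂ _ hy₃]
      simpa using hy₃v
    by_cases h2' : σ i₁ = i₂
    · exact hp3 (hAO _ _ (by rw [h2']; exact h23) _ himg _ hy₃)
    · exact hp2 (hAO _ _ h2' _ himg _ hy₂)
  · -- `K ≠ I`
    intro heq
    have hmemK : sympT hf (v₁ + v₂) 1 ∈ K := by
      rw [heq]
      exact hTI _
    have hv120 : v₁ + v₂ ≠ 0 := by
      intro h0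
      obtain ⟨y, hy, hyv⟩ := (hD.nondegenerate i₁ v₁ hv₁ hv₁0).1
      apply hyv
      have h5 : f y (v₁ + v₂) = f y v₁ := by
        rw [hf.bilinear.add_right, hAO _ _ h12 _ hy _ hv₂, add_zero]
      rw [← h5, h0]
      have := hf.bilinear.smul_right 0 y 0
      simpa using this
    obtain ⟨x, hxv⟩ := (hf.nondegenerate _ hv120).1
    have hxv1 : f x (v₁ + v₂) = 1 := hne1 hxv
    have h6 := (mem_isometryGroup_iff Q _).mp hmemK.2 x
    rw [hT, hxv1, one_smul, hQ, hQ_sum2, hxv1] at h6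
    have h7 : (1 : F) = 0 := by linear_combination h6
    exact one_ne_zero h7

end Cfsg.Agent.Lib.NotMax.Sp2
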