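/-
`Ω`: small decompositions whose stabilisers are not maximal, by sets of vectors.
-/
import Cfsg.Agent.Lib.NotMax.SetStab
set_option autoImplicit false

namespace Cfsg.Agent.Lib.NotMax.OmegaFrame

open Cfsg Cfsg.Geo Cfsg.Agent.Lib.Geo.Basic Cfsg.Agent.Lib.Geo.QForm
open Cfsg.Agent.Lib.GeoOmega.Basic Cfsg.Agent.Lib.GeoOmega.Eichler Cfsg.Agent.Lib.GeoOmega.Levi
open Cfsg.Agent.Lib.GeoOmega.Nondeg Cfsg.Agent.Lib.NotMax.SetStab
open scoped MatrixGroups Matrix

variable {ι : Type} [Fintype ι] [DecidableEq ι] {F : Type*} [Field F]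
variable {Q : (ι → F) → F} {t k : ℕ} {D : Fin t → Submodule F (ι → F)}

set_option linter.unusedSectionVars false

section Tests
variable (hN : IsNondegenerateMDecomposition (QuadraticMap.polar Q) k D)
include hN

theorem ortho {i j : Fin t} (hij : i ≠ j) {x y : ι → F} (hx : x ∈ D i) (hy : y ∈ D j) : pol Q x y = 0 :=
  hN.orthogonal i j hij x hx y hy

/-- Tests for not lying in a member. -/
theorem test_not_mem {a b j : Fin t} (hab : a ≠ b) {y z₁ z₂ : ι → F} (hz₁ : z₁ ∈ D a) (hz₂ : z₂ ∈ D b)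
    (h₁ : pol Q y z₁ ≠ 0) (h₂ : pol Q y z₂ ≠ 0) : y ∉ D j := by
  intro hy
  by_cases hja : j = a
  · subst hja
    exact h₂ (ortho hN hab hy hz₂)
  · exact h₁ (ortho hN hja hy hz₁)

theorem two_comp_not_mem {a b j : Fin t} (hab : a ≠ b) (hQ : IsNondegenerateQuadraticForm Q) {y₁ y₂ : ι → F}
    (h₁ : y₁ ∈ D a) (h₂ : y₂ ∈ D b) (h₁0 : y₁ ≠ 0) (h₂0 : y₂ ≠ 0) : y₁ + y₂ ∉ D j := by
  obtain ⟨z₁, hz₁, h1⟩ := (hN.nondegenerate a y₁ h₁ h₁0).2
  obtain ⟨z₂, hz₂, h2⟩ := (hN.nondegenerate b y₂ h₂ h₂0).2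
  refine test_not_mem hN hab hz₁ hz₂ ?_ ?_
  · show pol Q (y₁ + y₂) z₁ ≠ 0
    rw [pol_add_left hQ, ortho hN hab.symm h₂ hz₁, add_zero]
    exact h1
  · show pol Q (y₁ + y₂) z₂ ≠ 0
    rw [pol_add_left hQ, ortho hN hab h₁ hz₂, zero_add]
    exact h2

/-- Two members meet trivially. -/
theorem eq_of_mem_mem {a b : Fin t} {x : ι → F} (ha : x ∈ D a) (hb : x ∈ D b) (hx : x ≠ 0) : a = b := by
  by_contra hab
  obtain ⟨z, hz, h1⟩ := (hN.nondegenerate a x ha hx).2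
  exact h1 (hN.orthogonal b a (Ne.symm hab) _ hb _ hz)

end Tests

section Frame
variable (hQ : IsNondegenerateQuadraticForm Q)
variable (hN : IsNondegenerateMDecomposition (QuadraticMap.polar Q) k D)
include hQ hN

/-- The reflection in the difference of two vectors swaps them. -/
theorem rf_sub_apply (h2 : (2 : F) ≠ 0) {c : F} (hc : c ≠ 0) {i j : Fin t} (hij : i ≠ j) {a b : ι → F}
    (ha : a ∈ D i) (hb : b ∈ D j) (hQa : Q a = c) (hQb : Q b = c) (x : ι → F) :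
    ((rf hQ (a - b) : GL ι F) : Matrix ι ι F) *ᵥ x =
      x - ((2 * c)⁻¹ * (pol Q x a - pol Q x b)) • (a - b) := by
  have hab : pol Q a b = 0 := ortho hN hij ha hb
  have hQd : Q (a - b) = 2 * c := by
    rw [Q_sub hQ, hQa, hQb, hab]
    ring
  rw [rf_mulVec, hQd, pol_sub_right hQ]

/-- A reflection in a difference preserves the set of vectors of norm `c` in the members. -/
theorem rf_sub_mem (h2 : (2 : F) ≠ 0) {c : F} (hc : c ≠ 0) {i j : Fin t} (hij : i ≠ j) {a b : ι → F}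
    (ha : a ∈ D i) (hb : b ∈ D j) (hQa : Q a = c) (hQb : Q b = c)
    (hfa : ∀ x ∈ D i, Q x = c → x = a ∨ x = -a ∨ pol Q x a = 0)
    (hfb : ∀ x ∈ D j, Q x = c → x = b ∨ x = -b ∨ pol Q x b = 0)
    (x : ι → F) (hx : ∃ l, x ∈ D l ∧ Q x = c) :
    ∃ l, ((rf hQ (a - b) : GL ι F) : Matrix ι ι F) *ᵥ x ∈ D l ∧
      Q (((rf hQ (a - b) : GL ι F) : Matrix ι ι F) *ᵥ x) = c := by
  obtain ⟨l, hxl, hxQ⟩ := hx
  have hisom := (mem_isometryGroup_iff Q _).mp (rf_mem hQ (a - b)) x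
  rw [hxQ] at hisom
  have hab : pol Q a b = 0 := ortho hN hij ha hb
  have hba : pol Q b a = 0 := ortho hN hij.symm hb ha
  have haa : pol Q a a = 2 * c := by rw [pol_self hQ, hQa]
  have hbb : pol Q b b = 2 * c := by rw [pol_self hQ, hQb]
  have h2c : 2 * c ≠ 0 := mul_ne_zero h2 hc
  have hR := rf_sub_apply hQ hN h2 hc hij ha hb hQa hQb
  -- fixed vectors
  have hfix : pol Q x a = 0 → pol Q x b = 0 →
      ∃ l, ((rf hQ (a - b) : GL ι F) : Matrix ι ι F) *ᵥ x ∈ D l ∧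
      Q (((rf hQ (a - b) : GL ι F) : Matrix ι ι F) *ᵥ x) = c := by
    intro h3 h4
    refine ⟨l, ?_, hisom⟩
    rw [hR, h3, h4]
    simpa using hxl
  have hNa : pol Q (-a) a = - (2 * c) := by rw [pol_neg_left hQ, haa]
  have hNab : pol Q (-a) b = 0 := by rw [pol_neg_left hQ, hab, neg_zero]
  have hNb : pol Q (-b) b = - (2 * c) := by rw [pol_neg_left hQ, hbb]
  have hNba : pol Q (-b) a = 0 := by rw [pol_neg_left hQ, hba, neg_zero]
  by_cases hli : l = i
  · subst hli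
    have hxb : pol Q x b = 0 := ortho hN hij hxl hb
    rcases hfa x hxl hxQ with rfl | rfl | h3
    · refine ⟨j, ?_, hisom⟩
      rw [hR, haa, hab]
      have : x - ((2 * c)⁻¹ * (2 * c - 0)) • (x - b) = b := by
        rw [sub_zero, inv_mul_cancel₀ h2c, one_smul]
        abel
      rw [this]
      exact hb
    · refine ⟨j, ?_, hisom⟩
      rw [hR, hNa, hNab]
      have : -a - ((2 * c)⁻¹ * (-(2 * c) - 0)) • (a - b) = -b := by
        rw [sub_zero, mul_neg, inv_mul_cancel₀ h2c, neg_smul, one_smul]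
        abel
      rw [this]
      exact (D j).neg_mem hb
    · exact hfix h3 hxb
  · by_cases hlj : l = j
    · subst hlj
      have hxa : pol Q x a = 0 := ortho hN hij.symm hxl ha
      rcases hfb x hxl hxQ with rfl | rfl | h3
      · refine ⟨i, ?_, hisom⟩
        rw [hR, hbb, hba]
        have : x - ((2 * c)⁻¹ * (0 - 2 * c)) • (a - x) = a := by
          rw [zero_sub, mul_neg, inv_mul_cancel₀ h2c, neg_smul, one_smul]
          abel
        rw [this]
        exact ha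
      · refine ⟨i, ?_, hisom⟩
        rw [hR, hNb, hNba]
        have : -b - ((2 * c)⁻¹ * (0 - -(2 * c))) • (a - b) = -a := by
          rw [zero_sub, neg_neg, inv_mul_cancel₀ h2c, one_smul]
          abel
        rw [this]
        exact (D i).neg_mem ha
      · exact hfix hxa h3
    · exact hfix (ortho hN hli hxl ha) (ortho hN hlj hxl hb)

/-- **The frame criterion.** -/
theorem frame_not_maximal [Finite F] (hn : 7 ≤ Fintype.card ι) (h2 : (2 : F) ≠ 0) {c : F} (hc : c ≠ 0)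
    {i₁ i₂ i₃ i₄ : Fin t} (h12 : i₁ ≠ i₂) (h13 : i₁ ≠ i₃) (h14 : i₁ ≠ i₄) (h23 : i₂ ≠ i₃)
    (h24 : i₂ ≠ i₄) (h34 : i₃ ≠ i₄)
    {v₁ v₂ v₃ v₄ v' : ι → F} (hv₁ : v₁ ∈ D i₁) (hv₂ : v₂ ∈ D i₂) (hv₃ : v₃ ∈ D i₃) (hv₄ : v₄ ∈ D i₄)
    (hQ₁ : Q v₁ = c) (hQ₂ : Q v₂ = c) (hQ₃ : Q v₃ = c) (hQ₄ : Q v₄ = c)
    (hv' : v' ∈ D i₁) (hv'0 : v' ≠ 0) (hv'v : pol Q v' v₁ = 0)
    (hf₁ : ∀ x ∈ D i₁, Q x = c → x = v₁ ∨ x = -v₁ ∨ pol Q x v₁ = 0)
    (hf₂ : ∀ x ∈ D i₂, Q x = c → x = v₂ ∨ x = -v₂ ∨ pol Q x v₂ = 0)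
    (hf₃ : ∀ x ∈ D i₃, Q x = c → x = v₃ ∨ x = -v₃ ∨ pol Q x v₃ = 0)
    (hf₄ : ∀ x ∈ D i₄, Q x = c → x = v₄ ∨ x = -v₄ ∨ pol Q x v₄ = 0)
    (s : GL ι F) (hs : s ∈ omegaGL Q) (hsv : ∀ j, (s : Matrix ι ι F) *ᵥ v₁ ∉ D j) :
    ∃ K : Subgroup (GL ι F), decompositionStabilizer D ⊓ omegaGL Q < K ∧ K < omegaGL Q := by
  have hne : ∀ {x : ι → F}, Q x = c → x ≠ 0 := by
    rintro x hx rfl
    rw [Q_zero hQ] at hx
    exact hc hx.symm
  have h2c : 2 * c ≠ 0 := mul_ne_zero h2 hc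
  have hQd : ∀ {a b : ι → F} {i j : Fin t}, i ≠ j → a ∈ D i → b ∈ D j → Q a = c → Q b = c →
      Q (a - b) = 2 * c := by
    intro a b i j hij ha hb hQa hQb
    have hab : pol Q a b = 0 := ortho hN hij ha hb
    rw [Q_sub hQ, hQa, hQb, hab]
    ring
  set w : GL ι F := rf hQ (v₁ - v₂) * rf hQ (v₃ - v₄) with hw
  have hwG : w ∈ omegaGL Q :=
    rf_mul_mem_omega hQ hn (hQd h34 hv₃ hv₄ hQ₃ hQ₄) (hQd h12 hv₁ hv₂ hQ₁ hQ₂) h2c
  have hwm : ∀ x, (w : Matrix ι ι F) *ᵥ x =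
      ((rf hQ (v₁ - v₂) : GL ι F) : Matrix ι ι F) *ᵥ (((rf hQ (v₃ - v₄) : GL ι F) : Matrix ι ι F) *ᵥ x) := by
    intro x
    rw [hw, Units.val_mul, Matrix.mulVec_mulVec]
  have hfix34 : ∀ x, pol Q x v₃ = 0 → pol Q x v₄ = 0 →
      ((rf hQ (v₃ - v₄) : GL ι F) : Matrix ι ι F) *ᵥ x = x := by
    intro x h3 h4
    rw [rf_sub_apply hQ hN h2 hc h34 hv₃ hv₄ hQ₃ hQ₄, h3, h4]
    simp
  have hfix12 : ∀ x, pol Q x v₁ = 0 → pol Q x v₂ = 0 →
      ((rf hQ (v₁ - v₂) : GL ι F) : Matrix ι ι F) *ᵥ x = x := by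
    intro x h3 h4
    rw [rf_sub_apply hQ hN h2 hc h12 hv₁ hv₂ hQ₁ hQ₂, h3, h4]
    simp
  refine not_maximal_of_set {x | ∃ l, x ∈ D l ∧ Q x = c} inf_le_right ?_ w hwG ?_ ?_ s hs v₁
    ⟨i₁, hv₁, hQ₁⟩ ?_
  · rintro h ⟨⟨σ, hσ⟩, hG⟩ x ⟨l, hxl, hxQ⟩
    refine ⟨σ l, ?_, ?_⟩
    · rw [← hσ l]
      exact ⟨x, hxl, rfl⟩
    · rw [(mem_isometryGroup_iff Q _).mp (omegaGL_le_isometryGroup Q hG) x, hxQ]
  · intro x hx
    rw [hwm]
    have h1 := rf_sub_mem hQ hN h2 hc h34 hv₃ hv₄ hQ₃ hQ₄ hf₃ hf₄ x hx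
    exact rf_sub_mem hQ hN h2 hc h12 hv₁ hv₂ hQ₁ hQ₂ hf₁ hf₂ _ h1
  · rintro ⟨⟨σ, hσ⟩, -⟩
    have e1 : (w : Matrix ι ι F) *ᵥ v₁ = v₂ := by
      rw [hwm, hfix34 _ (ortho hN h13 hv₁ hv₃) (ortho hN h14 hv₁ hv₄),
        rf_sub_apply hQ hN h2 hc h12 hv₁ hv₂ hQ₁ hQ₂, ortho hN h12 hv₁ hv₂, pol_self hQ, hQ₁,
        sub_zero, inv_mul_cancel₀ h2c, one_smul]
      abel
    have e2 : (w : Matrix ι ι F) *ᵥ v' = v' := by
      rw [hwm, hfix34 _ (ortho hN h13 hv' hv₃) (ortho hN h14 hv' hv₄),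
        hfix12 _ hv'v (ortho hN h12 hv' hv₂)]
    have h3 : v₂ ∈ D (σ i₁) := by
      rw [← hσ i₁, ← e1]
      exact ⟨v₁, hv₁, rfl⟩
    have h4 : v' ∈ D (σ i₁) := by
      rw [← hσ i₁, ← e2]
      exact ⟨v', hv', rfl⟩
    have h5 : i₂ = σ i₁ := eq_of_mem_mem hN hv₂ h3 (hne hQ₂)
    have h6 : i₁ = σ i₁ := eq_of_mem_mem hN hv' h4 hv'0
    exact h12 (h6.trans h5.symm)
  · rintro ⟨l, hl, -⟩
    exact hsv l hl

end Frame

section Isometric
variable (hQ : IsNondegenerateQuadraticForm Q)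
include hQ

/-- Linear isometries preserve the polar form. -/
theorem pol_isometric {W W' : Submodule F (ι → F)} (e : W ≃ₗ[F] W')
    (he : ∀ w : W, Q ((e w : W') : ι → F) = Q (w : ι → F)) (x y : W) :
    pol Q ((e x : W') : ι → F) ((e y : W') : ι → F) = pol Q (x : ι → F) (y : ι → F) := by
  have h1 := he (x + y)
  rw [map_add, Submodule.coe_add, Submodule.coe_add, Q_add hQ, Q_add hQ, he, he] at h1
  linear_combination h1

end Isometric

section Steps
variable (hQ : IsNondegenerateQuadraticForm Q)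
include hQ

/-- Non-degeneracy of the members. -/
theorem ndOn_of_nondeg {X : Submodule F (ι → F)} (hX : IsNondegenerateOn (QuadraticMap.polar Q) X) :
    NDOn Q X := fun u hu hu0 => (hX u hu hu0).2

theorem exists_nonsingular {X : Submodule F (ι → F)} (hX : NDOn Q X) (hne : X ≠ ⊥) : ∃ a ∈ X, Q a ≠ 0 := by
  obtain ⟨a₀, ha₀, ha₀0⟩ := Submodule.exists_mem_ne_zero_of_ne_bot hne
  by_cases h1 : Q a₀ = 0
  · obtain ⟨b, hb, hab⟩ := hX a₀ ha₀ ha₀0
    by_cases h3 : Q b = 0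
    · refine ⟨a₀ + b, X.add_mem ha₀ hb, ?_⟩
      rwa [Q_add hQ, h1, h3, zero_add, zero_add]
    · exact ⟨b, hb, h3⟩
  · exact ⟨a₀, ha₀, h1⟩

/-- Cutting off a non-singular vector, in odd characteristic. -/
theorem orth_step (h2 : (2 : F) ≠ 0) {X : Submodule F (ι → F)} (hX : NDOn Q X) {a : ι → F} (ha : a ∈ X)
    (hQa : Q a ≠ 0) :
    ∃ E : Submodule F (ι → F), E ≤ X ∧ NDOn Q E ∧ (∀ x ∈ E, pol Q x a = 0) ∧
      (∀ x ∈ X, ∃ r : F, x - r • a ∈ E) ∧ Module.finrank F X = Module.finrank F E + 1 := by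
  have haa : pol Q a a = 2 * Q a := pol_self hQ a
  have h2a : pol Q a a ≠ 0 := by
    rw [haa]
    exact mul_ne_zero h2 hQa
  have ha0 : a ≠ 0 := by
    rintro rfl
    exact hQa (Q_zero hQ)
  set E : Submodule F (ι → F) := X ⊓ (polB hQ).orthogonal (Submodule.span F {a}) with hE
  have hmem : ∀ x, x ∈ E ↔ x ∈ X ∧ pol Q x a = 0 := by
    intro x
    rw [hE, Submodule.mem_inf, mem_orth_single hQ]
  have hdec : ∀ x ∈ X, ∃ r : F, x - r • a ∈ E := by
    intro x hx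
    refine ⟨pol Q x a / pol Q a a, (hmem _).mpr ⟨X.sub_mem hx (X.smul_mem _ ha), ?_⟩⟩
    rw [pol_sub_left hQ, pol_smul_left hQ]
    field_simp
    ring
  refine ⟨E, inf_le_left, ?_, fun x hx => ((hmem x).mp hx).2, hdec, ?_⟩
  · intro u hu hu0
    obtain ⟨hu1, hu2⟩ := (hmem u).mp hu
    obtain ⟨u', hu', hne⟩ := hX u hu1 hu0
    obtain ⟨r, hr⟩ := hdec u' hu'
    refine ⟨_, hr, ?_⟩
    rw [pol_sub_right hQ, pol_smul_right hQ, hu2, mul_zero, sub_zero]
    exact hne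
  · have h1 := Submodule.finrank_sup_add_finrank_inf_eq (Submodule.span F {a}) E
    have h3 : Submodule.span F {a} ⊔ E = X := by
      apply le_antisymm
      · refine sup_le ?_ inf_le_left
        rw [Submodule.span_le]
        simpa using ha
      · intro x hx
        obtain ⟨r, hr⟩ := hdec x hx
        have : x = r • a + (x - r • a) := by abel
        rw [this]
        exact Submodule.add_mem_sup (Submodule.smul_mem _ _ (Submodule.mem_span_singleton_self a)) hr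
    have h4 : Submodule.span F {a} ⊓ E = ⊥ := by
      rw [eq_bot_iff]
      rintro x ⟨hx1, hx2⟩
      obtain ⟨r, rfl⟩ := Submodule.mem_span_singleton.mp hx1
      have h5 := ((hmem _).mp hx2).2
      rw [pol_smul_left hQ] at h5
      have : r = 0 := (mul_eq_zero.mp h5).resolve_right h2a
      simp [this]
    rw [h3, h4, finrank_bot, finrank_span_singleton ha0] at h1
    omega

/-- Moving a non-singular vector outside the members. -/
theorem exists_moved [Finite F] (hn : 7 ≤ Fintype.card ι)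
    (hN : IsNondegenerateMDecomposition (QuadraticMap.polar Q) k D) {a b : Fin t} (hab : a ≠ b)
    {x₀ p b' : ι → F} (hx₀ : x₀ ∈ D a) (hQx₀ : Q x₀ ≠ 0) (hp : p ∈ D a) (hQp : Q p = 0)
    (hd : pol Q x₀ p ≠ 0) (hb' : b' ∈ D b) (hb'0 : b' ≠ 0) :
    ∃ s ∈ omegaGL Q, ∀ j, (s : Matrix ι ι F) *ᵥ x₀ ∉ D j := by
  have hpb : pol Q p b' = 0 := ortho hN hab hp hb'
  obtain ⟨s, hs⟩ := exists_eich hQ hQp hpb
  refine ⟨s, Eich.mem_omega hQ hn hs hQp hpb, fun j => ?_⟩
  rw [hs x₀, ortho hN hab hx₀ hb', zero_smul, add_zero]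
  have e : x₀ - pol Q x₀ p • b' - (Q b' * pol Q x₀ p) • p =
      (x₀ - (Q b' * pol Q x₀ p) • p) + (-(pol Q x₀ p)) • b' := by
    module
  rw [e]
  refine two_comp_not_mem hN hab hQ ((D a).sub_mem hx₀ ((D a).smul_mem _ hp))
    ((D b).smul_mem _ hb') ?_ (smul_ne_zero (neg_ne_zero.mpr hd) hb'0)
  intro h0
  apply hQx₀
  have : x₀ = (Q b' * pol Q x₀ p) • p := sub_eq_zero.mp h0
  rw [this, hQ.smul, hQp, mul_zero]

/-- A hyperbolic pair in a non-degenerate subspace of plus type. -/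
theorem exists_hyp_of_plus {X : Submodule F (ι → F)} (hX : NDOn Q X) (hpos : 0 < Module.finrank F X)
    (hplus : IsPlusTypeOn Q X) : ∃ e ∈ X, ∃ f ∈ X, Q e = 0 ∧ Q f = 0 ∧ pol Q e f = 1 ∧ e ≠ 0 := by
  obtain ⟨U, hUX, hU, hfin⟩ := hplus
  have hne : U ≠ ⊥ := by
    intro h
    rw [h, finrank_bot] at hfin
    omega
  obtain ⟨e, he, he0⟩ := Submodule.exists_mem_ne_zero_of_ne_bot hne
  obtain ⟨f, hf, hfQ, hef⟩ := exists_partner hQ hX (hUX he) he0 (hU e he)
  exact ⟨e, hUX he, f, hf, hU e he, hfQ, hef, he0⟩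

/-- A plane spanned by a hyperbolic pair. -/
theorem hyp_span {X : Submodule F (ι → F)} (hfin : Module.finrank F X = 2) {e f : ι → F} (he : e ∈ X) (hf : f ∈ X)
    (hQe : Q e = 0) (hQf : Q f = 0) (hef : pol Q e f = 1) (x : ι → F) (hx : x ∈ X) :
    x = pol Q x f • e + pol Q x e • f := by
  have hee : pol Q e e = 0 := by rw [pol_self hQ, hQe, mul_zero]
  have hff : pol Q f f = 0 := by rw [pol_self hQ, hQf, mul_zero]
  have hfe : pol Q f e = 1 := by rw [pol_symm hQ, hef]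
  have hli : LinearIndependent F ![e, f] := by
    rw [LinearIndependent.pair_iff]
    intro s r hsr
    have h5 := congrArg (fun z => pol Q z e) hsr
    have h6 := congrArg (fun z => pol Q z f) hsr
    simp only [pol_add_left hQ, pol_smul_left hQ, hee, hfe, hef, hff, pol_zero_left hQ] at h5 h6
    constructor
    · linear_combination h6
    · linear_combination h5
  have h5 : Submodule.span F (Set.range ![e, f]) = X := by
    refine Submodule.eq_of_le_of_finrank_eq ?_ ?_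
    · rw [Submodule.span_le]
      rintro _ ⟨i, rfl⟩
      fin_cases i
      · exact he
      · exact hf
    · rw [finrank_span_eq_card hli, hfin]
      simp
  rw [← h5] at hx
  obtain ⟨l, rfl⟩ := (Submodule.mem_span_range_iff_exists_fun F).mp hx
  simp only [Fin.sum_univ_two, Matrix.cons_val_zero, Matrix.cons_val_one]
  simp only [pol_add_left hQ, pol_smul_left hQ, hee, hfe, hef, hff]
  simp

end Steps

/-- The data of a frame at a member. -/
structure FP (Q : (ι → F) → F) (X : Submodule F (ι → F)) (c : F) (v v' : ι → F) : Prop where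
  mem : v ∈ X
  mem' : v' ∈ X
  Qv : Q v = c
  Qv' : Q v' ≠ 0
  orth : pol Q v' v = 0
  fr : ∀ x ∈ X, Q x = c → x = v ∨ x = -v ∨ pol Q x v = 0

/-- Transport of a frame along an isometry. -/
theorem FP.transport (hQ : IsNondegenerateQuadraticForm Q) {X X' : Submodule F (ι → F)} {c : F} {v v' : ι → F}
    (h : FP Q X c v v') (e : X ≃ₗ[F] X') (he : ∀ w : X, Q ((e w : X') : ι → F) = Q (w : ι → F)) :
    FP Q X' c ((e ⟨v, h.mem⟩ : X') : ι → F) ((e ⟨v', h.mem'⟩ : X') : ι → F) where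
  mem := (e ⟨v, h.mem⟩).2
  mem' := (e ⟨v', h.mem'⟩).2
  Qv := by rw [he]; exact h.Qv
  Qv' := by rw [he]; exact h.Qv'
  orth := by rw [pol_isometric hQ e he]; exact h.orth
  fr := by
    intro x hx hxQ
    have h1 : Q ((e.symm ⟨x, hx⟩ : X) : ι → F) = c := by
      rw [← he, LinearEquiv.apply_symm_apply]
      exact hxQ
    have h2 : x = ((e (e.symm ⟨x, hx⟩) : X') : ι → F) := by
      rw [LinearEquiv.apply_symm_apply]
    rcases h.fr _ (e.symm ⟨x, hx⟩ : X).2 h1 with h3 | h3 | h3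
    · left
      rw [h2]
      congr 2
      exact Subtype.ext h3
    · right; left
      rw [h2]
      have h4 : e.symm ⟨x, hx⟩ = -(⟨v, h.mem⟩ : X) := Subtype.ext h3
      rw [h4, map_neg]
      rfl
    · right; right
      rw [h2, pol_isometric hQ e he]
      exact h3

section Q3
variable [Fintype F] (hq : Fintype.card F = 3)
include hq

omit [Fintype ι] [DecidableEq ι] in
theorem q3_sq {r : F} (hr : r ≠ 0) : r ^ 2 = 1 := by
  have := FiniteField.pow_card r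
  rw [hq] at this
  apply mul_left_cancel₀ hr
  linear_combination this

omit [Fintype ι] [DecidableEq ι] in
theorem q3_three : (3 : F) = 0 := by
  have h5 : ((Fintype.card F : ℕ) : F) = 0 := by
    simpa using (CharP.cast_card_eq_zero F)
  rw [hq] at h5
  exact_mod_cast h5

omit [Fintype ι] [DecidableEq ι] in
theorem q3_two : (2 : F) ≠ 0 := by
  intro h
  have h3 := q3_three hq
  have : (1 : F) = 0 := by linear_combination h3 - h
  exact one_ne_zero this

omit [Fintype ι] [DecidableEq ι] in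
theorem q3_pm {r : F} (hr : r ≠ 0) : r = 1 ∨ r = -1 := by
  have h1 := q3_sq hq hr
  have : (r - 1) * (r + 1) = 0 := by linear_combination h1
  rcases mul_eq_zero.mp this with h | h
  · left
    linear_combination h
  · right
    linear_combination h

omit [Fintype ι] [DecidableEq ι] in
theorem q3_sum_sq {s u : F} (h : s ^ 2 + u ^ 2 = 0) : s = 0 ∧ u = 0 := by
  have h2 := q3_two hq
  by_cases hs : s = 0
  · subst hs
    refine ⟨rfl, ?_⟩
    simpa using h
  · exfalso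
    by_cases hu : u = 0
    · subst hu
      apply hs
      simpa using h
    · rw [q3_sq hq hs, q3_sq hq hu] at h
      exact h2 (by linear_combination h)

variable (hQ : IsNondegenerateQuadraticForm Q)
include hQ

/-- Frames in dimension two. -/
theorem q3_frame2 {X : Submodule F (ι → F)} (hX : NDOn Q X) (hfin : Module.finrank F X = 2) :
    ∃ c v v', c ≠ 0 ∧ FP Q X c v v' := by
  have h2 := q3_two hq
  have hne : X ≠ ⊥ := by
    intro h
    rw [h, finrank_bot] at hfin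
    omega
  obtain ⟨a, ha, hQa⟩ := exists_nonsingular hQ hX hne
  obtain ⟨E, hEX, hEnd, hEa, hdec, hfinE⟩ := orth_step hQ h2 hX ha hQa
  have hE1 : Module.finrank F E = 1 := by omega
  have hEne : E ≠ ⊥ := by
    intro h
    rw [h, finrank_bot] at hE1
    omega
  obtain ⟨a', ha', ha'0⟩ := Submodule.exists_mem_ne_zero_of_ne_bot hEne
  have hspan : ∀ z ∈ E, ∃ r : F, r • a' = z := fun z hz => by
    obtain ⟨r, hr⟩ := (finrank_eq_one_iff_of_nonzero' (⟨a', ha'⟩ : E) (by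
      intro h
      exact ha'0 (congrArg Subtype.val h))).mp hE1 ⟨z, hz⟩
    exact ⟨r, congrArg Subtype.val hr⟩
  have hQa' : Q a' ≠ 0 := by
    intro h0
    obtain ⟨u, hu, hne⟩ := hEnd a' ha' ha'0
    obtain ⟨r, rfl⟩ := hspan u hu
    apply hne
    rw [pol_smul_right hQ, pol_self hQ, h0]
    ring
  refine ⟨Q a, a, a', hQa, ?_⟩
  exact {
    mem := ha
    mem' := hEX ha'
    Qv := rfl
    Qv' := hQa'
    orth := hEa _ ha'
    fr := by
      intro x hx hxQ
      obtain ⟨r, hr⟩ := hdec x hx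
      obtain ⟨s, hs⟩ := hspan _ hr
      have hxe : x = r • a + s • a' := by
        rw [hs]
        abel
      by_cases hr0 : r = 0
      · right; right
        have := hEa _ hr
        rwa [hr0, zero_smul, sub_zero] at this
      · have hr1 := q3_sq hq hr0
        have hpa : pol Q a a' = 0 := by rw [pol_symm hQ]; exact hEa _ ha'
        rw [hxe, Q_smul_add hQ, hr1, hpa, mul_zero, add_zero, one_mul] at hxQ
        have h3 : s ^ 2 * Q a' = 0 := by linear_combination hxQ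
        have hs0 : s = 0 := by
          have := (mul_eq_zero.mp h3).resolve_right hQa'
          simpa using this
        rw [hs0, zero_smul, add_zero] at hxe
        rcases q3_pm hq hr0 with rfl | rfl
        · left
          rw [hxe, one_smul]
        · right; left
          rw [hxe, neg_one_smul] }

/-- Frames in dimension three, from an orthogonal basis. -/
theorem q3_frame_core {X : Submodule F (ι → F)} {v v' v'' : ι → F} (hv : v ∈ X) (hv' : v' ∈ X)
    (hQv : Q v ≠ 0) (hQv' : Q v' ≠ 0) (he : Q v'' = Q v') (h1 : pol Q v' v = 0) (h3 : pol Q v'' v = 0)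
    (h4 : pol Q v' v'' = 0) (hspan : ∀ x ∈ X, ∃ r s u : F, x = r • v + s • v' + u • v'') :
    FP Q X (Q v) v v' := by
  refine { mem := hv, mem' := hv', Qv := rfl, Qv' := hQv', orth := h1, fr := ?_ }
  intro x hx hxQ
  obtain ⟨r, s, u, rfl⟩ := hspan x hx
  have hvv' : pol Q v v' = 0 := by rw [pol_symm hQ]; exact h1
  have hvv'' : pol Q v v'' = 0 := by rw [pol_symm hQ]; exact h3
  by_cases hr0 : r = 0
  · right; right
    simp only [pol_add_left hQ, pol_smul_left hQ, h1, h3, hr0]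
    ring
  · have hr1 := q3_sq hq hr0
    have e : Q (r • v + s • v' + u • v'') = r ^ 2 * Q v + (s ^ 2 + u ^ 2) * Q v' := by
      rw [Q_add hQ, Q_smul_add hQ, hQ.smul, he, pol_add_left hQ, pol_smul_left hQ, pol_smul_left hQ,
        pol_smul_right hQ, pol_smul_right hQ, hvv', hvv'', h4]
      ring
    rw [e, hr1, one_mul] at hxQ
    have h5 : (s ^ 2 + u ^ 2) * Q v' = 0 := by linear_combination hxQ
    obtain ⟨hs, hu⟩ := q3_sum_sq hq ((mul_eq_zero.mp h5).resolve_right hQv')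
    rw [hs, hu, zero_smul, zero_smul, add_zero, add_zero]
    rcases q3_pm hq hr0 with rfl | rfl
    · left
      rw [one_smul]
    · right; left
      rw [neg_one_smul]

theorem q3_frame3 {X : Submodule F (ι → F)} (hX : NDOn Q X) (hfin : Module.finrank F X = 3) :
    ∃ c v v', c ≠ 0 ∧ FP Q X c v v' := by
  have h2 := q3_two hq
  have hne : X ≠ ⊥ := by
    intro h
    rw [h, finrank_bot] at hfin
    omega
  obtain ⟨a, ha, hQa⟩ := exists_nonsingular hQ hX hne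
  obtain ⟨E, hEX, hEnd, hEa, hdec, hfinE⟩ := orth_step hQ h2 hX ha hQa
  have hE2 : Module.finrank F E = 2 := by omega
  have hEne : E ≠ ⊥ := by
    intro h
    rw [h, finrank_bot] at hE2
    omega
  obtain ⟨a', ha', hQa'⟩ := exists_nonsingular hQ hEnd hEne
  obtain ⟨E', hEX', hEnd', hEa', hdec', hfinE'⟩ := orth_step hQ h2 hEnd ha' hQa'
  have hE1 : Module.finrank F E' = 1 := by omega
  have hEne' : E' ≠ ⊥ := by
    intro h
    rw [h, finrank_bot] at hE1
    omega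
  obtain ⟨a'', ha'', ha''0⟩ := Submodule.exists_mem_ne_zero_of_ne_bot hEne'
  have hspan' : ∀ z ∈ E', ∃ r : F, r • a'' = z := fun z hz => by
    obtain ⟨r, hr⟩ := (finrank_eq_one_iff_of_nonzero' (⟨a'', ha''⟩ : E') (by
      intro h
      exact ha''0 (congrArg Subtype.val h))).mp hE1 ⟨z, hz⟩
    exact ⟨r, congrArg Subtype.val hr⟩
  have hQa'' : Q a'' ≠ 0 := by
    intro h0
    obtain ⟨u, hu, hne⟩ := hEnd' a'' ha'' ha''0
    obtain ⟨r, rfl⟩ := hspan' u hu
    apply hne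
    rw [pol_smul_right hQ, pol_self hQ, h0]
    ring
  have h12 : pol Q a' a = 0 := hEa _ ha'
  have h13 : pol Q a'' a = 0 := hEa _ (hEX' ha'')
  have h23 : pol Q a'' a' = 0 := hEa' _ ha''
  have hspan : ∀ x ∈ X, ∃ r s u : F, x = r • a + s • a' + u • a'' := by
    intro x hx
    obtain ⟨r, hr⟩ := hdec x hx
    obtain ⟨s, hs⟩ := hdec' _ hr
    obtain ⟨u, hu⟩ := hspan' _ hs
    refine ⟨r, s, u, ?_⟩
    rw [hu]
    abel
  have hvals : ∀ {y : F}, y ≠ 0 → y = 1 ∨ y = -1 := fun h => q3_pm hq h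
  have hpig : Q a' = Q a'' ∨ Q a = Q a' ∨ Q a = Q a'' := by
    rcases hvals hQa with e1 | e1 <;> rcases hvals hQa' with e2 | e2 <;> rcases hvals hQa'' with e3 | e3 <;>
      simp [e1, e2, e3]
  rcases hpig with h | h | h
  · refine ⟨Q a, a, a', hQa, q3_frame_core hq hQ ha (hEX ha') hQa hQa' h.symm h12 h13 ?_ hspan⟩
    rw [pol_symm hQ]
    exact h23
  · -- `a''` is the special one
    refine ⟨Q a'', a'', a, hQa'', q3_frame_core hq hQ (hEX (hEX' ha'')) ha hQa'' hQa h.symm ?_ ?_ ?_ ?_⟩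
    · rw [pol_symm hQ]
      exact h13
    · rw [pol_symm hQ]
      exact h23
    · rw [pol_symm hQ]
      exact h12
    · intro x hx
      obtain ⟨r, s, u, rfl⟩ := hspan x hx
      exact ⟨u, r, s, by abel⟩
  · -- `a'` is the special one
    refine ⟨Q a', a', a, hQa', q3_frame_core hq hQ (hEX ha') ha hQa' hQa h.symm ?_ ?_ ?_ ?_⟩
    · rw [pol_symm hQ]
      exact h12
    · exact h23
    · rw [pol_symm hQ]
      exact h13
    · intro x hx
      obtain ⟨r, s, u, rfl⟩ := hspan x hx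
      exact ⟨s, r, u, by abel⟩

/-- **`q = 3`**: decompositions into members of dimension two or three. -/
theorem q3_not_maximal (hn : 7 ≤ Fintype.card ι) (hk : k = 2 ∨ k = 3) (hD : IsOrthogonalMDecomposition Q k D)
    (ht : 4 ≤ t) :
    ∃ K : Subgroup (GL ι F), decompositionStabilizer D ⊓ omegaGL Q < K ∧ K < omegaGL Q := by
  have h2 := q3_two hq
  have h3 := q3_three hq
  have hN := hD.decomp
  let i₁ : Fin t := ⟨0, by omega⟩
  let i₂ : Fin t := ⟨1, by omega⟩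
  let i₃ : Fin t := ⟨2, by omega⟩
  let i₄ : Fin t := ⟨3, by omega⟩
  have h12 : i₁ ≠ i₂ := by simp [i₁, i₂, Fin.ext_iff]
  have h13 : i₁ ≠ i₃ := by simp [i₁, i₃, Fin.ext_iff]
  have h14 : i₁ ≠ i₄ := by simp [i₁, i₄, Fin.ext_iff]
  have h23 : i₂ ≠ i₃ := by simp [i₂, i₃, Fin.ext_iff]
  have h24 : i₂ ≠ i₄ := by simp [i₂, i₄, Fin.ext_iff]
  have h34 : i₃ ≠ i₄ := by simp [i₃, i₄, Fin.ext_iff]
  have hnd := fun i => ndOn_of_nondeg hQ (hN.nondegenerate i)
  obtain ⟨c, v₀, v₀', hc, hF₀⟩ : ∃ c v v', c ≠ 0 ∧ FP Q (D i₁) c v v' := by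
    rcases hk with rfl | rfl
    · exact q3_frame2 hq hQ (hnd _) (hN.decomp.finrank_eq _)
    · exact q3_frame3 hq hQ (hnd _) (hN.decomp.finrank_eq _)
  have hF : ∀ i, ∃ v v', FP Q (D i) c v v' := by
    intro i
    obtain ⟨e, he⟩ := hD.isometric i₁ i
    exact ⟨_, _, hF₀.transport hQ e he⟩
  choose v v' hFP using hF
  have hv0 : ∀ {x : ι → F}, Q x ≠ 0 → x ≠ 0 := by
    rintro x hx rfl
    exact hx (Q_zero hQ)
  have hQ₁ := (hFP i₁).Qv
  have hQ₂ := (hFP i₂).Qv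
  have hQ₃ := (hFP i₃).Qv
  have hm₁ := (hFP i₁).mem
  have hm₂ := (hFP i₂).mem
  have hm₃ := (hFP i₃).mem
  have hb := (hFP i₁).mem'
  have hQb := (hFP i₁).Qv'
  set b := v' i₁ with hbdef
  have hb12 : pol Q b (v i₂) = 0 := ortho hN h12 hb hm₂
  have hb13 : pol Q b (v i₃) = 0 := ortho hN h13 hb hm₃
  have hb11 : pol Q b (v i₁) = 0 := (hFP i₁).orth
  have h121 : pol Q (v i₁) (v i₂) = 0 := ortho hN h12 hm₁ hm₂
  have h131 : pol Q (v i₁) (v i₃) = 0 := ortho hN h13 hm₁ hm₃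
  have h231 : pol Q (v i₂) (v i₃) = 0 := ortho hN h23 hm₂ hm₃
  have h211 : pol Q (v i₂) (v i₁) = 0 := ortho hN h12.symm hm₂ hm₁
  have h311 : pol Q (v i₃) (v i₁) = 0 := ortho hN h13.symm hm₃ hm₁
  have h321 : pol Q (v i₃) (v i₂) = 0 := ortho hN h23.symm hm₃ hm₂
  set p := v i₁ + v i₂ + v i₃ with hp
  have hQp : Q p = 0 := by
    rw [hp, Q_add hQ, Q_add hQ, hQ₁, hQ₂, hQ₃, pol_add_left hQ, h121, h131, h231]
    linear_combination c * h3
  have hpb : pol Q p b = 0 := by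
    rw [hp, pol_add_left hQ, pol_add_left hQ, pol_symm hQ, hb11, pol_symm hQ, hb12, pol_symm hQ, hb13]
    ring
  obtain ⟨s, hs⟩ := exists_eich hQ hQp hpb
  have hsO := Eich.mem_omega hQ hn hs hQp hpb
  have h11 : pol Q (v i₁) (v i₁) = 2 * c := by rw [pol_self hQ, hQ₁]
  have h22 : pol Q (v i₂) (v i₂) = 2 * c := by rw [pol_self hQ, hQ₂]
  have h33 : pol Q (v i₃) (v i₃) = 2 * c := by rw [pol_self hQ, hQ₃]
  have hv1b : pol Q (v i₁) b = 0 := by rw [pol_symm hQ]; exact hb11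
  have hv1p : pol Q (v i₁) p = 2 * c := by
    rw [hp, pol_add_right hQ, pol_add_right hQ, h11, h121, h131]
    ring
  refine frame_not_maximal hQ hN hn h2 hc h12 h13 h14 h23 h24 h34 hm₁ hm₂ hm₃ (hFP i₄).mem hQ₁ hQ₂ hQ₃
    (hFP i₄).Qv hb (hv0 hQb) hb11 (hFP i₁).fr (hFP i₂).fr (hFP i₃).fr (hFP i₄).fr s hsO ?_
  intro j
  rw [hs, hv1b, zero_smul, add_zero, hv1p]
  refine test_not_mem hN h23 hm₂ hm₃ ?_ ?_
  · rw [pol_sub_left hQ, pol_sub_left hQ, pol_smul_left hQ, pol_smul_left hQ, h121, hb12, hp,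
      pol_add_left hQ, pol_add_left hQ, h121, h22, h321]
    have : - (Q b * (2 * c) * (2 * c)) ≠ 0 :=
      neg_ne_zero.mpr (mul_ne_zero (mul_ne_zero hQb (mul_ne_zero h2 hc)) (mul_ne_zero h2 hc))
    convert this using 1
    ring
  · rw [pol_sub_left hQ, pol_sub_left hQ, pol_smul_left hQ, pol_smul_left hQ, h131, hb13, hp,
      pol_add_left hQ, pol_add_left hQ, h131, h231, h33]
    have : - (Q b * (2 * c) * (2 * c)) ≠ 0 :=
      neg_ne_zero.mpr (mul_ne_zero (mul_ne_zero hQb (mul_ne_zero h2 hc)) (mul_ne_zero h2 hc))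
    convert this using 1
    ring

end Q3

end Cfsg.Agent.Lib.NotMax.OmegaFrame
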