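/-
`SU_n(2)`: the stabiliser of a decomposition into non-degenerate planes is not maximal.
-/
import Cfsg.Agent.Lib.NotMax.SetStab
set_option autoImplicit false

namespace Cfsg.Agent.Lib.NotMax.SU2

open Cfsg Cfsg.Geo Cfsg.Agent.Lib.Geo.Basic Cfsg.Agent.Lib.Geo.Centres Cfsg.Agent.Lib.NotMax.SetStab
open scoped MatrixGroups Matrix

variable {F : Type*} [Field F] [Fintype F] {n : ℕ}

set_option linter.unusedSectionVars false

local notation "f" => hermForm n F 2

section Forms
variable (hF : Fintype.card F = 4)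
include hF

theorem pow_four (x : F) : x ^ 4 = x := by
  have := FiniteField.pow_card x
  rwa [hF] at this

theorem two_zero : (2 : F) = 0 := by
  have h5 : ((Fintype.card F : ℕ) : F) = 0 := by
    simpa using (CharP.cast_card_eq_zero F)
  rw [hF] at h5
  have : (2 : F) * 2 = 0 := by
    have h6 : ((4 : ℕ) : F) = 4 := by norm_num
    rw [h6] at h5
    linear_combination h5
  simpa using this

theorem add_sq (x y : F) : (x + y) ^ 2 = x ^ 2 + y ^ 2 := by
  linear_combination (x * y) * two_zero hF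

theorem cube_eq_one {x : F} (hx : x ≠ 0) : x ^ 3 = 1 := by
  apply mul_left_cancel₀ hx
  linear_combination pow_four hF x

omit hF in
theorem f_add_left (x y z : Fin n → F) : f (x + y) z = f x z + f y z := by
  simp only [hermForm, Pi.add_apply, add_mul, Finset.sum_add_distrib]

theorem f_add_right (x y z : Fin n → F) : f x (y + z) = f x y + f x z := by
  simp only [hermForm, Pi.add_apply, add_sq hF, mul_add, Finset.sum_add_distrib]

omit hF in
theorem f_smul_left (c : F) (x z : Fin n → F) : f (c • x) z = c * f x z := by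
  simp only [hermForm, Pi.smul_apply, smul_eq_mul, Finset.mul_sum, mul_assoc]

omit hF in
theorem f_smul_right (c : F) (x z : Fin n → F) : f x (c • z) = c ^ 2 * f x z := by
  simp only [hermForm, Pi.smul_apply, smul_eq_mul, Finset.mul_sum]
  exact Finset.sum_congr rfl fun i _ => by ring

theorem sum_sq (s : Finset (Fin n)) (g : Fin n → F) : (∑ i ∈ s, g i) ^ 2 = ∑ i ∈ s, g i ^ 2 := by
  classical
  induction s using Finset.induction_on with
  | empty => simp
  | insert a s ha ih => rw [Finset.sum_insert ha, Finset.sum_insert ha, add_sq hF, ih]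

theorem f_symm (x y : Fin n → F) : f y x = (f x y) ^ 2 := by
  simp only [hermForm]
  rw [sum_sq hF]
  refine Finset.sum_congr rfl fun i _ => ?_
  have := pow_four hF (y i)
  calc y i * x i ^ 2 = (y i ^ 4) * x i ^ 2 := by rw [this]
    _ = _ := by ring

theorem f_self (x : Fin n → F) : f x x = 0 ∨ f x x = 1 := by
  have h1 : (f x x) ^ 2 = f x x := (f_symm hF x x).symm
  by_cases h : f x x = 0
  · exact Or.inl h
  · right
    apply mul_left_cancel₀ h
    linear_combination h1

/-- A frame of a non-degenerate plane. -/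
theorem plane_frame (W : Submodule F (Fin n → F)) (hW : Module.finrank F W = 2)
    (hN : IsNondegenerateOn f W) :
    ∃ v ∈ W, ∃ v' ∈ W, f v v = 1 ∧ f v' v' = 1 ∧ f v v' = 0 ∧ f v' v = 0 ∧
      ∀ x ∈ W, f x x ≠ 0 → ∃ c : F, c ≠ 0 ∧ (x = c • v ∨ x = c • v') := by
  classical
  have h2 : (2 : F) = 0 := two_zero hF
  have hne : W ≠ ⊥ := by
    intro h
    rw [h] at hW
    simp at hW
  obtain ⟨a, ha, ha0⟩ := Submodule.exists_mem_ne_zero_of_ne_bot hne
  obtain ⟨b, hb, hab⟩ := (hN a ha ha0).2
  -- an anisotropic vector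
  have hex : ∃ v ∈ W, f v v = 1 := by
    by_cases h1 : f a a = 0
    · by_cases h3 : f b b = 0
      · -- a hyperbolic pair
        obtain ⟨ω, hω⟩ : ∃ ω : F, ω ≠ 0 ∧ ω ≠ 1 := by
          by_contra hcon
          push Not at hcon
          have : Fintype.card F ≤ ({0, 1} : Finset F).card := by
            rw [← Finset.card_univ]
            refine Finset.card_le_card fun x _ => ?_
            by_cases hx : x = 0
            · simp [hx]
            · simp [hcon x hx]
          have h5 : ({0, 1} : Finset F).card ≤ 2 := Finset.card_le_two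
          omega
        set c := f a b with hc
        set β := (ω * c⁻¹) ^ 2 with hβ
        have hβ2 : β ^ 2 * c = ω := by
          rw [hβ]
          have h5 := pow_four hF (ω * c⁻¹)
          calc ((ω * c⁻¹) ^ 2) ^ 2 * c = (ω * c⁻¹) ^ 4 * c := by ring
            _ = ω * c⁻¹ * c := by rw [h5]
            _ = ω := by field_simp
        have h5 : f (a + β • b) (a + β • b) = ω + ω ^ 2 := by
          rw [f_add_left, f_add_right hF, f_add_right hF, f_smul_left, f_smul_left, f_smul_right,
            f_smul_right, h1, h3, f_symm hF a b, ← hc, mul_zero, mul_zero, add_zero, zero_add, hβ2]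
          rw [← hβ2]
          linear_combination (-(c ^ 2)) * (pow_four hF β)
        refine ⟨a + β • b, W.add_mem ha (W.smul_mem _ hb), ?_⟩
        rcases f_self hF (a + β • b) with h6 | h6
        · exfalso
          rw [h5] at h6
          have h7 : ω * (ω + 1) = 0 := by linear_combination h6
          rcases mul_eq_zero.mp h7 with h8 | h8
          · exact hω.1 h8
          · apply hω.2
            linear_combination h8 - h2
        · exact h6
      · exact ⟨b, hb, (f_self hF b).resolve_left h3⟩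
    · exact ⟨a, ha, (f_self hF a).resolve_left h1⟩
  obtain ⟨v, hv, hvv⟩ := hex
  have hv0 : v ≠ 0 := by
    rintro rfl
    have := f_smul_left (0 : F) (0 : Fin n → F) (0 : Fin n → F)
    simp only [zero_smul, zero_mul] at this
    rw [this] at hvv
    exact zero_ne_one hvv
  -- a second vector
  obtain ⟨y, hy, hyv⟩ : ∃ y ∈ W, y ∉ Submodule.span F {v} := by
    by_contra hcon
    push Not at hcon
    have h3 : W ≤ Submodule.span F {v} := fun y hy => hcon y hy
    have h4 := Submodule.finrank_mono h3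
    rw [hW, finrank_span_singleton hv0] at h4
    omega
  set v' := y + (f y v) • v with hv'
  have hv'W : v' ∈ W := W.add_mem hy (W.smul_mem _ hv)
  have hv'0 : v' ≠ 0 := by
    intro h0
    apply hyv
    have : y = (-(f y v)) • v := by
      rw [neg_smul]
      exact eq_neg_of_add_eq_zero_left h0
    rw [this]
    exact Submodule.smul_mem _ _ (Submodule.mem_span_singleton_self v)
  have h31 : f v' v = 0 := by
    rw [hv', f_add_left, f_smul_left, hvv]
    linear_combination (f y v) * h2
  have h32 : f v v' = 0 := by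
    have := f_symm hF v' v
    rw [h31] at this
    simpa using this
  have hli : LinearIndependent F ![v, v'] := by
    rw [LinearIndependent.pair_iff]
    intro s r hsr
    have h5 := congrArg (fun z => f z v) hsr
    simp only [f_add_left, f_smul_left, hvv, h31] at h5
    have hzero : f 0 v = 0 := by
      have := f_smul_left (0 : F) (0 : Fin n → F) v
      simpa using this
    rw [hzero] at h5
    have hs : s = 0 := by linear_combination h5
    refine ⟨hs, ?_⟩
    rw [hs, zero_smul, zero_add] at hsr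
    exact (smul_eq_zero.mp hsr).resolve_right hv'0
  have hspan : ∀ x ∈ W, ∃ r s : F, x = r • v + s • v' := by
    intro x hx
    have h5 : Submodule.span F (Set.range ![v, v']) = W := by
      refine Submodule.eq_of_le_of_finrank_eq ?_ ?_
      · rw [Submodule.span_le]
        rintro _ ⟨i, rfl⟩
        fin_cases i
        · exact hv
        · exact hv'W
      · rw [finrank_span_eq_card hli, hW]
        simp
    rw [← h5] at hx
    obtain ⟨l, rfl⟩ := (Submodule.mem_span_range_iff_exists_fun F).mp hx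
    refine ⟨l 0, l 1, ?_⟩
    simp [Fin.sum_univ_two]
  have hv'v' : f v' v' = 1 := by
    rcases f_self hF v' with h5 | h5
    · exfalso
      obtain ⟨x, hx, hxv⟩ := (hN v' hv'W hv'0).1
      apply hxv
      obtain ⟨r, s, rfl⟩ := hspan x hx
      rw [f_add_left, f_smul_left, f_smul_left, h32, h5]
      ring
    · exact h5
  refine ⟨v, hv, v', hv'W, hvv, hv'v', h32, h31, ?_⟩
  intro x hx hxx
  obtain ⟨r, s, rfl⟩ := hspan x hx
  rw [f_add_left, f_add_right hF, f_add_right hF] at hxx
  simp only [f_smul_left, f_smul_right, hvv, hv'v', h31, h32] at hxx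
  by_cases hr : r = 0
  · refine ⟨s, ?_, Or.inr (by rw [hr, zero_smul, zero_add])⟩
    rintro rfl
    simp [hr] at hxx
  · by_cases hs : s = 0
    · exact ⟨r, hr, Or.inl (by rw [hs, zero_smul, add_zero])⟩
    · exfalso
      apply hxx
      have h6 := cube_eq_one hF hr
      have h7 := cube_eq_one hF hs
      linear_combination h6 + h7 + h2

end Forms

/-- **The stabiliser of a decomposition into non-degenerate planes is not maximal in `SU_n(2)`.** -/
theorem decomp_not_maximal (hF : Fintype.card F = 4) (hn : 7 ≤ n) {t : ℕ}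
    {D : Fin t → Submodule F (Fin n → F)} (hD : IsNondegenerateMDecomposition f 2 D) :
    ∃ K : Subgroup (GL (Fin n) F), decompositionStabilizer D ⊓ (GU n F 2 ⊓ specialLinear (Fin n) F) < K ∧
      K < (GU n F 2 ⊓ specialLinear (Fin n) F) := by
  classical
  have h2 : (2 : F) = 0 := two_zero hF
  have hcard := Cfsg.Agent.Lib.NotMax.Basic.card_le_mul D hD.decomp.iSup_eq_top hD.decomp.finrank_eq
  rw [Fintype.card_fin] at hcard
  have ht : 4 ≤ t := by omega
  have hfr := fun i => plane_frame hF (D i) (hD.decomp.finrank_eq i) (hD.nondegenerate i)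
  choose v hv v' hv' hvv hv'v' hvv' hv'v hfr using hfr
  let i₁ : Fin t := ⟨0, by omega⟩
  let i₂ : Fin t := ⟨1, by omega⟩
  let i₃ : Fin t := ⟨2, by omega⟩
  let i₄ : Fin t := ⟨3, by omega⟩
  have h12 : i₁ ≠ i₂ := by simp [i₁, i₂, Fin.ext_iff]
  have h13 : i₁ ≠ i₃ := by simp [i₁, i₃, Fin.ext_iff]
  have h14 : i₁ ≠ i₄ := by simp [i₁, i₄, Fin.ext_iff]
  have h23 : i₂ ≠ i₃ := by simp [i₂, i₃, Fin.ext_iff]
  have h24 : i₂ ≠ i₄ := by simp [i₂, i₄, Fin.ext_iff]
  have h34 : i₃ ≠ i₄ := by simp [i₃, i₄, Fin.ext_iff]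
  have ho := hD.orthogonal
  have hD0 : ∀ i j, i ≠ j → ∀ x ∈ D i, ∀ y ∈ D j, f x y = 0 := fun i j hij x hx y hy => ho i j hij x hx y hy
  have hfd : ∀ x y, formVec f y ⬝ᵥ x = f x y :=
    fun x y => formVec_dotProduct (fun x y v => f_add_left x y v) (fun r x v => f_smul_left r x v) x y
  -- unitary transvections
  have hT : ∀ (u : Fin n → F) (hu : f u u = 0), ∃ T : GL (Fin n) F,
      T ∈ GU n F 2 ⊓ specialLinear (Fin n) F ∧ ∀ x, (T : Matrix (Fin n) (Fin n) F) *ᵥ x = x + f x u • u := by
    intro u hu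
    have h3 : formVec f u ⬝ᵥ u = 0 := by rw [hfd]; exact hu
    refine ⟨transv u (formVec f u) h3, ⟨?_, transv_mem_specialLinear _ _ _⟩, fun x => ?_⟩
    · intro x y
      show f (((transv u (formVec f u) h3 : GL (Fin n) F) : Matrix (Fin n) (Fin n) F) *ᵥ x)
        (((transv u (formVec f u) h3 : GL (Fin n) F) : Matrix (Fin n) (Fin n) F) *ᵥ y) = f x y
      rw [transv_mulVec, transv_mulVec, hfd, hfd, f_add_left, f_add_right hF, f_add_right hF, f_smul_left,
        f_smul_left, f_smul_right, f_smul_right, hu, f_symm hF y u]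
      linear_combination (f x u * f y u ^ 2) * h2
    · rw [transv_mulVec, hfd]
  have hS0 : ∀ i, ∀ x ∈ D i, f x x ≠ 0 → x ≠ 0 := by
    rintro i x - hx rfl
    apply hx
    have := f_smul_left (0 : F) (0 : Fin n → F) (0 : Fin n → F)
    simpa using this
  set S : Set (Fin n → F) := {x | ∃ i, x ∈ D i ∧ f x x ≠ 0} with hS
  -- the first transvection
  have hw0 : f (v i₁ + v i₂) (v i₁ + v i₂) = 0 := by
    rw [f_add_left, f_add_right hF, f_add_right hF, hvv, hvv, hD0 _ _ h12 _ (hv _) _ (hv _),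
      hD0 _ _ h12.symm _ (hv _) _ (hv _)]
    linear_combination h2
  obtain ⟨w, hwG, hw⟩ := hT _ hw0
  have hw1 : ∀ c : F, (w : Matrix (Fin n) (Fin n) F) *ᵥ (c • v i₁) = c • v i₂ := by
    intro c
    rw [hw, f_smul_left, f_add_right hF, hvv, hD0 _ _ h12 _ (hv _) _ (hv _), add_zero, mul_one]
    ext j
    simp only [Pi.add_apply, Pi.smul_apply, smul_eq_mul]
    linear_combination (c * v i₁ j) * h2
  have hw2 : ∀ c : F, (w : Matrix (Fin n) (Fin n) F) *ᵥ (c • v i₂) = c • v i₁ := by
    intro c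
    rw [hw, f_smul_left, f_add_right hF, hvv, hD0 _ _ h12.symm _ (hv _) _ (hv _), zero_add, mul_one]
    ext j
    simp only [Pi.add_apply, Pi.smul_apply, smul_eq_mul]
    linear_combination (c * v i₂ j) * h2
  have hw3 : ∀ x, f x (v i₁) = 0 → f x (v i₂) = 0 → (w : Matrix (Fin n) (Fin n) F) *ᵥ x = x := by
    intro x h3 h4
    rw [hw, f_add_right hF, h3, h4, add_zero, zero_smul, add_zero]
  have hoD : ∀ i j, i ≠ j → ∀ x ∈ D i, ∀ y ∈ D j, f x x ≠ 0 → x ∉ D j := by
    intro i j hij x hx y hy hxx h3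
    exact hxx (hD0 i j hij x hx x h3)
  have hfix : ∀ i, i ≠ i₁ → i ≠ i₂ → ∀ x ∈ D i, (w : Matrix (Fin n) (Fin n) F) *ᵥ x = x := by
    intro i hi1 hi2 x hx
    exact hw3 x (hD0 _ _ hi1 _ hx _ (hv _)) (hD0 _ _ hi2 _ hx _ (hv _))
  have hu0 : f (v i₁ + v i₂ + v i₃ + v i₄) (v i₁ + v i₂ + v i₃ + v i₄) = 0 := by
    simp only [f_add_left, f_add_right hF, hvv]
    rw [hD0 _ _ h12 _ (hv _) _ (hv _), hD0 _ _ h13 _ (hv _) _ (hv _), hD0 _ _ h14 _ (hv _) _ (hv _),
      hD0 _ _ h12.symm _ (hv _) _ (hv _), hD0 _ _ h23 _ (hv _) _ (hv _), hD0 _ _ h24 _ (hv _) _ (hv _),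
      hD0 _ _ h13.symm _ (hv _) _ (hv _), hD0 _ _ h23.symm _ (hv _) _ (hv _),
      hD0 _ _ h34 _ (hv _) _ (hv _), hD0 _ _ h14.symm _ (hv _) _ (hv _),
      hD0 _ _ h24.symm _ (hv _) _ (hv _), hD0 _ _ h34.symm _ (hv _) _ (hv _)]
    linear_combination 2 * h2
  obtain ⟨s, hsG, hs⟩ := hT _ hu0
  refine not_maximal_of_set S inf_le_right ?_ w hwG ?_ ?_ s ?_ (v i₁) ⟨i₁, hv _, ?_⟩ ?_
  · rintro h ⟨⟨σ, hσ⟩, hG⟩ x ⟨i, hx, hxx⟩
    refine ⟨σ i, ?_, ?_⟩
    · rw [← hσ i]
      exact ⟨x, hx, rfl⟩
    · have := hG.1 x x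
      rw [show ((Units.coeHom (Matrix (Fin n) (Fin n) F)) h) = (h : Matrix (Fin n) (Fin n) F) from rfl] at this
      rwa [this]
  · -- the transvection preserves the set
    rintro x ⟨i, hx, hxx⟩
    have hwp : f ((w : Matrix (Fin n) (Fin n) F) *ᵥ x) ((w : Matrix (Fin n) (Fin n) F) *ᵥ x) = f x x := hwG.1 x x
    by_cases hi1 : i = i₁
    · subst hi1
      obtain ⟨c, hc, rfl | rfl⟩ := hfr _ x hx hxx
      · refine ⟨i₂, ?_, ?_⟩
        · rw [hw1]
          exact (D _).smul_mem _ (hv _)
        · rw [hwp]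
          exact hxx
      · refine ⟨i₁, ?_, ?_⟩
        · rw [hw3 _ ?_ ?_]
          · exact hx
          · rw [f_smul_left, hv'v, mul_zero]
          · rw [hD0 _ _ h12 _ hx _ (hv _)]
        · rw [hwp]
          exact hxx
    · by_cases hi2 : i = i₂
      · subst hi2
        obtain ⟨c, hc, rfl | rfl⟩ := hfr _ x hx hxx
        · refine ⟨i₁, ?_, ?_⟩
          · rw [hw2]
            exact (D _).smul_mem _ (hv _)
          · rw [hwp]
            exact hxx
        · refine ⟨i₂, ?_, ?_⟩
          · rw [hw3 _ ?_ ?_]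
            · exact hx
            · rw [hD0 _ _ h12.symm _ hx _ (hv _)]
            · rw [f_smul_left, hv'v, mul_zero]
          · rw [hwp]
            exact hxx
      · refine ⟨i, ?_, ?_⟩
        · rw [hfix i hi1 hi2 x hx]
          exact hx
        · rw [hwp]
          exact hxx
  · -- not in `H`
    rintro ⟨⟨σ, hσ⟩, -⟩
    have h3 : (w : Matrix (Fin n) (Fin n) F) *ᵥ ((1 : F) • v i₁) ∈ D (σ i₁) := by
      rw [← hσ i₁]
      exact ⟨(1 : F) • v i₁, (D _).smul_mem _ (hv _), rfl⟩
    rw [hw1, one_smul] at h3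
    have h4 : (w : Matrix (Fin n) (Fin n) F) *ᵥ (v' i₁) ∈ D (σ i₁) := by
      rw [← hσ i₁]
      exact ⟨_, hv' _, rfl⟩
    rw [hw3 _ (hv'v _) (hD0 _ _ h12 _ (hv' _) _ (hv _))] at h4
    by_cases h5 : σ i₁ = i₁
    · rw [h5] at h3
      have := hD0 _ _ h12 _ h3 _ (hv i₂)
      rw [hvv] at this
      exact one_ne_zero this
    · have := hD0 _ _ (Ne.symm h5) _ (hv' i₁) _ h4
      rw [hv'v'] at this
      exact one_ne_zero this
  · exact hsG
  · rw [hvv]
    exact one_ne_zero
  · -- moved out of the set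
    rintro ⟨j, hj, -⟩
    rw [hs] at hj
    set u := v i₁ + v i₂ + v i₃ + v i₄ with hu
    have e1 : f (v i₁) u = 1 := by
      rw [hu, f_add_right hF, f_add_right hF, f_add_right hF, hvv, hD0 _ _ h12 _ (hv _) _ (hv _),
        hD0 _ _ h13 _ (hv _) _ (hv _), hD0 _ _ h14 _ (hv _) _ (hv _)]
      ring
    rw [e1, one_smul] at hj
    have e2 : f (v i₁ + u) (v i₂) = 1 := by
      rw [hu]
      simp only [f_add_left]
      rw [hvv, hD0 _ _ h12 _ (hv _) _ (hv _), hD0 _ _ h23.symm _ (hv _) _ (hv _),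
        hD0 _ _ h24.symm _ (hv _) _ (hv _)]
      ring
    have e3 : f (v i₁ + u) (v i₃) = 1 := by
      rw [hu]
      simp only [f_add_left]
      rw [hvv, hD0 _ _ h13 _ (hv _) _ (hv _), hD0 _ _ h23 _ (hv _) _ (hv _),
        hD0 _ _ h34.symm _ (hv _) _ (hv _)]
      ring
    by_cases hj2 : j = i₂
    · have := hD0 j i₃ (by rw [hj2]; exact h23) _ hj _ (hv _)
      rw [e3] at this
      exact one_ne_zero this
    · have := hD0 j i₂ hj2 _ hj _ (hv _)
      rw [e2] at this
      exact one_ne_zero this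

end Cfsg.Agent.Lib.NotMax.SU2
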