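/-
Tensor decompositions with a small factor carrying a frame: `Ω` and transvection groups.
-/
import Cfsg.Agent.Lib.NotMax.Tensor
import Cfsg.Agent.Lib.NotMax.OmegaFrame
import Cfsg.Agent.Lib.NotMax.SU2
import Cfsg.Agent.Lib.Geo.SpBase
set_option autoImplicit false

namespace Cfsg.Agent.Lib.NotMax.Tensor

open Cfsg Cfsg.Geo Cfsg.Agent.Lib.Geo.Basic Cfsg.Agent.Lib.NotMax.SetStab
open Cfsg.Agent.Lib.Geo.QForm Cfsg.Agent.Lib.GeoOmega.Basic Cfsg.Agent.Lib.GeoOmega.Eichler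
open Cfsg.Agent.Lib.GeoOmega.Nondeg Cfsg.Agent.Lib.NotMax.OmegaFrame
open scoped MatrixGroups Matrix Kronecker

variable {ι : Type} [Fintype ι] [DecidableEq ι] {F : Type*} [Field F] {k l : ℕ}

set_option linter.unusedSectionVars false

section Sym
variable {κ : Type} [Fintype κ] [DecidableEq κ] {A : (κ → F) → (κ → F) → F}

/-- The quadratic form of a symmetric bilinear form, in odd characteristic. -/
theorem polar_self_form (hA : IsSymmetricForm A) (x y : κ → F) :
    QuadraticMap.polar (fun v => A v v) x y = 2 * A x y := by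
  simp only [QuadraticMap.polar, hA.bilinear.add_left, hA.bilinear.add_right]
  rw [hA.symm y x]
  ring

theorem quad_of_symm (h2 : (2 : F) ≠ 0) (hA : IsSymmetricForm A) :
    IsNondegenerateQuadraticForm (fun v : κ → F => A v v) where
  smul c v := by
    show A (c • v) (c • v) = c ^ 2 * A v v
    rw [hA.bilinear.smul_left, hA.bilinear.smul_right]
    ring
  polar_bilinear :=
    { add_left := fun x y v => by
        simp only [polar_self_form hA, hA.bilinear.add_left]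
        ring
      smul_left := fun c x v => by
        simp only [polar_self_form hA, hA.bilinear.smul_left]
        ring
      add_right := fun v x y => by
        simp only [polar_self_form hA, hA.bilinear.add_right]
        ring
      smul_right := fun c v x => by
        simp only [polar_self_form hA, hA.bilinear.smul_right]
        ring }
  nondegenerate v hv := by
    obtain ⟨⟨x, hx⟩, ⟨y, hy⟩⟩ := hA.nondegenerate v hv
    refine ⟨⟨x, ?_⟩, ⟨y, ?_⟩⟩
    · rw [polar_self_form hA]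
      exact mul_ne_zero h2 hx
    · rw [polar_self_form hA]
      exact mul_ne_zero h2 hy

end Sym

section Q3
variable [Fintype F] (hq : Fintype.card F = 3)
include hq

variable {A : (Fin 3 → F) → (Fin 3 → F) → F}

/-- An orthogonal basis of a three dimensional space. -/
theorem q3_orth_basis (hA : IsSymmetricForm A) :
    ∃ a a' a'' : Fin 3 → F, A a a ≠ 0 ∧ A a' a' ≠ 0 ∧ A a'' a'' ≠ 0 ∧ A a a' = 0 ∧ A a a'' = 0 ∧
      A a' a'' = 0 ∧ ∀ x, ∃ r s u : F, x = r • a + s • a' + u • a'' := by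
  have h2 := q3_two hq
  have hQ := quad_of_symm h2 hA
  set Q : (Fin 3 → F) → F := fun v => A v v with hQdef
  have hpol : ∀ x y, pol Q x y = 2 * A x y := polar_self_form hA
  have hX : NDOn Q (⊤ : Submodule F (Fin 3 → F)) := by
    intro u _ hu
    obtain ⟨y, hy⟩ := (hQ.nondegenerate u hu).2
    exact ⟨y, Submodule.mem_top, hy⟩
  have hne : (⊤ : Submodule F (Fin 3 → F)) ≠ ⊥ := by
    intro h
    have := congrArg (fun S : Submodule F (Fin 3 → F) => Module.finrank F S) h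
    simp at this
  have hfin : Module.finrank F (⊤ : Submodule F (Fin 3 → F)) = 3 := by simp
  obtain ⟨a, ha, hQa⟩ := exists_nonsingular hQ hX hne
  obtain ⟨E, hEX, hEnd, hEa, hdec, hfinE⟩ := orth_step hQ h2 hX ha hQa
  have hE2 : Module.finrank F E = 2 := by omega
  have hEne : E ≠ ⊥ := by
    intro h
    rw [h, finrank_bot] at hE2
    omega
  obtain ⟨a', ha', hQa'⟩ := exists_nonsingular hQ hEnd hEne
  obtain ⟨E', hEX', hEnd', hEa', hdec', hfinE'⟩ := orth_step hQ h2 hEnd ha' hQa'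
  have hE1 : Module.finrank F E' = 1 := by omega
  have hEne' : E' ≠ ⊥ := by
    intro h
    rw [h, finrank_bot] at hE1
    omega
  obtain ⟨a'', ha'', ha''0⟩ := Submodule.exists_mem_ne_zero_of_ne_bot hEne'
  have hspan' : ∀ z ∈ E', ∃ r : F, r • a'' = z := fun z hz => by
    obtain ⟨r, hr⟩ := (finrank_eq_one_iff_of_nonzero' (⟨a'', ha''⟩ : E') (by
      intro h
      exact ha''0 (congrArg Subtype.val h))).mp hE1 ⟨z, hz⟩
    exact ⟨r, congrArg Subtype.val hr⟩
  have hQa'' : Q a'' ≠ 0 := by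
    intro h0
    obtain ⟨u, hu, hne⟩ := hEnd' a'' ha'' ha''0
    obtain ⟨r, rfl⟩ := hspan' u hu
    apply hne
    rw [pol_smul_right hQ, pol_self hQ, h0]
    ring
  have h12 : A a' a = 0 := by
    have := hEa _ ha'
    rw [hpol] at this
    exact (mul_eq_zero.mp this).resolve_left h2
  have h13 : A a'' a = 0 := by
    have := hEa _ (hEX' ha'')
    rw [hpol] at this
    exact (mul_eq_zero.mp this).resolve_left h2
  have h23 : A a'' a' = 0 := by
    have := hEa' _ ha''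
    rw [hpol] at this
    exact (mul_eq_zero.mp this).resolve_left h2
  refine ⟨a, a', a'', hQa, hQa', hQa'', by rw [hA.symm]; exact h12, by rw [hA.symm]; exact h13,
    by rw [hA.symm]; exact h23, fun x => ?_⟩
  obtain ⟨r, hr⟩ := hdec x Submodule.mem_top
  obtain ⟨s, hs⟩ := hdec' _ hr
  obtain ⟨u, hu⟩ := hspan' _ hs
  refine ⟨r, s, u, ?_⟩
  rw [hu]
  abel

/-- An orthogonal basis of constant norm. -/
theorem q3_const_basis (hA : IsSymmetricForm A) :
    ∃ (v₁ v₂ v₃ : Fin 3 → F) (d : F), d ≠ 0 ∧ A v₁ v₁ = d ∧ A v₂ v₂ = d ∧ A v₃ v₃ = d ∧ A v₁ v₂ = 0 ∧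
      A v₁ v₃ = 0 ∧ A v₂ v₃ = 0 ∧ ∀ x, ∃ r s u : F, x = r • v₁ + s • v₂ + u • v₃ := by
  have h3 := q3_three hq
  have h2 := q3_two hq
  obtain ⟨a, a', a'', h1, h1', h1'', h12, h13, h23, hspan⟩ := q3_orth_basis hq hA
  have hb := hA.bilinear
  -- from `(d, d, -d)` to a constant basis
  have key : ∀ (u u' u'' : Fin 3 → F), A u u ≠ 0 → A u' u' = A u u → A u'' u'' = - A u u → A u u' = 0 →
      A u u'' = 0 → A u' u'' = 0 → (∀ x, ∃ r s t : F, x = r • u + s • u' + t • u'') →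
      ∃ (v₁ v₂ v₃ : Fin 3 → F) (d : F), d ≠ 0 ∧ A v₁ v₁ = d ∧ A v₂ v₂ = d ∧ A v₃ v₃ = d ∧ A v₁ v₂ = 0 ∧
        A v₁ v₃ = 0 ∧ A v₂ v₃ = 0 ∧ ∀ x, ∃ r s u : F, x = r • v₁ + s • v₂ + u • v₃ := by
    intro u u' u'' hu hu' hu'' huu' huu'' hu'u'' hs
    have hu'u : A u' u = 0 := by rw [hA.symm]; exact huu'
    refine ⟨u + u', u + (-1 : F) • u', u'', - A u u, neg_ne_zero.mpr hu, ?_, ?_, hu'', ?_, ?_, ?_, ?_⟩
    · simp only [hb.add_left, hb.add_right, hu', huu', hu'u]
      linear_combination (A u u) * h3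
    · simp only [hb.add_left, hb.add_right, hb.smul_left, hb.smul_right, hu', huu', hu'u]
      linear_combination (A u u) * h3
    · simp only [hb.add_left, hb.add_right, hb.smul_right, hu', huu', hu'u]
      ring
    · simp only [hb.add_left, huu'', hu'u'']
      ring
    · simp only [hb.add_left, hb.smul_left, huu'', hu'u'']
      ring
    · intro x
      obtain ⟨r, s, t, rfl⟩ := hs x
      refine ⟨-(r + s), -r + s, t, ?_⟩
      have e3 : (3 : F) = 0 := h3
      ext i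
      simp only [Pi.add_apply, Pi.smul_apply, smul_eq_mul]
      linear_combination (r * u i + s * u' i) * e3
  rcases q3_pm hq h1 with e1 | e1 <;> rcases q3_pm hq h1' with e2 | e2 <;>
    rcases q3_pm hq h1'' with e3 | e3
  · exact ⟨a, a', a'', 1, one_ne_zero, e1, e2, e3, h12, h13, h23, hspan⟩
  · exact key a a' a'' h1 (by rw [e1, e2]; try ring) (by rw [e1, e3]; try ring) h12 h13 h23 hspan
  · refine key a a'' a' h1 (by rw [e1, e3]; try ring) (by rw [e1, e2]; try ring) h13 h12 (by rw [hA.symm]; exact h23) ?_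
    intro x
    obtain ⟨r, s, t, rfl⟩ := hspan x
    exact ⟨r, t, s, by abel⟩
  · refine key a' a'' a h1' (by rw [e2, e3]) (by rw [e1, e2]; try ring) h23 (by rw [hA.symm]; exact h12)
      (by rw [hA.symm]; exact h13) ?_
    intro x
    obtain ⟨r, s, t, rfl⟩ := hspan x
    exact ⟨s, t, r, by abel⟩
  · refine key a' a'' a h1' (by rw [e2, e3]) (by rw [e1, e2]; try ring) h23 (by rw [hA.symm]; exact h12)
      (by rw [hA.symm]; exact h13) ?_
    intro x
    obtain ⟨r, s, t, rfl⟩ := hspan x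
    exact ⟨s, t, r, by abel⟩
  · refine key a a'' a' h1 (by rw [e1, e3]; try ring) (by rw [e1, e2]; try ring) h13 h12 (by rw [hA.symm]; exact h23) ?_
    intro x
    obtain ⟨r, s, t, rfl⟩ := hspan x
    exact ⟨r, t, s, by abel⟩
  · exact key a a' a'' h1 (by rw [e1, e2]; try ring) (by rw [e1, e3]; try ring) h12 h13 h23 hspan
  · exact ⟨a, a', a'', -1, neg_ne_zero.mpr one_ne_zero, e1, e2, e3, h12, h13, h23, hspan⟩

/-- The frame facts. -/
theorem q3_frame (hA : IsSymmetricForm A) :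
    ∃ v₁ v₂ : Fin 3 → F, v₁ ∈ FrO A ∧ v₁ ≠ 0 ∧ v₂ ≠ 0 ∧ A v₁ v₂ = 0 ∧ A v₂ v₁ = 0 ∧ A v₁ v₁ ≠ 0 ∧ A v₂ v₂ ≠ 0 ∧
      ∀ x ∈ FrO A, A x v₁ = 0 ∨ ∃ r : F, r ≠ 0 ∧ x = r • v₁ := by
  have h3 := q3_three hq
  have hb := hA.bilinear
  obtain ⟨v₁, v₂, v₃, d, hd, h11, h22, h33, h12, h13, h23, hspan⟩ := q3_const_basis hq hA
  have h21 : A v₂ v₁ = 0 := by rw [hA.symm]; exact h12
  have h31 : A v₃ v₁ = 0 := by rw [hA.symm]; exact h13
  have h32 : A v₃ v₂ = 0 := by rw [hA.symm]; exact h23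
  have hzero : ∀ y, A 0 y = 0 := fun y => by simpa using hb.smul_left 0 0 y
  have hne : ∀ {v}, A v v = d → v ≠ 0 := by
    rintro v hv rfl
    rw [hzero] at hv
    exact hd hv.symm
  have hform : ∀ r s u r' s' u' : F, A (r • v₁ + s • v₂ + u • v₃) (r' • v₁ + s' • v₂ + u' • v₃) =
      d * (r * r' + s * s' + u * u') := by
    intro r s u r' s' u'
    simp only [hb.add_left, hb.add_right, hb.smul_left, hb.smul_right, h11, h22, h33, h12, h13, h23,
      h21, h31, h32]
    ring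
  have e1 : ∀ x : Fin 3 → F, x = (1 : F) • v₁ + (0 : F) • v₂ + (0 : F) • v₃ → x = v₁ := by
    intro x hx
    rw [hx]
    simp
  refine ⟨v₁, v₂, ⟨hne h11, ?_⟩, hne h11, hne h22, h12, h21, by rw [h11]; exact hd, by rw [h22]; exact hd, ?_⟩
  · intro y hy1 hy2
    obtain ⟨r, s, u, rfl⟩ := hspan y
    have h4 : A v₁ (r • v₁ + s • v₂ + u • v₃) = d * r := by
      simp only [hb.add_right, hb.smul_right, h11, h12, h13]
      ring
    rw [h4] at hy1
    have hr : r = 0 := (mul_eq_zero.mp hy1).resolve_left hd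
    rw [hform] at hy2
    have h5 : s ^ 2 + u ^ 2 = 0 := by
      have := (mul_eq_zero.mp hy2).resolve_left hd
      rw [hr] at this
      linear_combination this
    obtain ⟨hs, hu⟩ := q3_sum_sq hq h5
    rw [hr, hs, hu]
    simp
  · rintro x ⟨hx0, hx⟩
    obtain ⟨r, s, u, rfl⟩ := hspan x
    have h4 : A (r • v₁ + s • v₂ + u • v₃) v₁ = d * r := by
      simp only [hb.add_left, hb.smul_left, h11, h21, h31]
      ring
    by_cases hr : r = 0
    · left
      rw [h4, hr, mul_zero]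
    · right
      refine ⟨r, hr, ?_⟩
      have hr2 := q3_sq hq hr
      by_cases hs : s = 0
      · by_cases hu : u = 0
        · rw [hs, hu]
          simp
        · exfalso
          -- a singular vector `t v₁ + v₂ - r v₃` perpendicular to `x`
          have hu2 := q3_sq hq hu
          have h5 := hx (u • v₁ + (1 : F) • v₂ + (-r) • v₃) ?_ ?_
          · have h6 := hform u 1 (-r) 0 1 0
            rw [h5, hzero] at h6
            have e2 : (0 : F) • v₁ + (1 : F) • v₂ + (0 : F) • v₃ = v₂ := by simp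
            apply hd
            linear_combination -h6
          · rw [hform, hs]
            ring
          · rw [hform]
            linear_combination d * hu2 + d * hr2 + d * h3
      · by_cases hu : u = 0
        · exfalso
          have hs2 := q3_sq hq hs
          have h5 := hx (s • v₁ + (-r) • v₂ + (1 : F) • v₃) ?_ ?_
          · have h6 := hform s (-r) 1 0 0 1
            rw [h5, hzero] at h6
            apply hd
            linear_combination -h6
          · rw [hform, hu]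
            ring
          · rw [hform]
            linear_combination d * hs2 + d * hr2 + d * h3
        · exfalso
          have hs2 := q3_sq hq hs
          have hu2 := q3_sq hq hu
          have h5 := hx (r • v₁ + s • v₂ + u • v₃) ?_ ?_
          · exact hx0 h5
          · rw [hform]
            linear_combination d * hr2 + d * hs2 + d * hu2 + d * h3
          · rw [hform]
            linear_combination d * hr2 + d * hs2 + d * hu2 + d * h3

end Q3

section Gen
variable {T : (Fin k → F) → (Fin l → F) → ι → F}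

/-- Vectors perpendicular to two given ones. -/
theorem exists_perp_two {κ : Type} [Fintype κ] [DecidableEq κ] {f : (κ → F) → (κ → F) → F}
    (hadd : ∀ x y v, f (x + y) v = f x v + f y v) (hsmul : ∀ (c : F) x v, f (c • x) v = c * f x v)
    (hκ : 2 < Fintype.card κ) (u u' : κ → F) : ∃ v, v ≠ 0 ∧ f v u = 0 ∧ f v u' = 0 := by
  let φ : (κ → F) →ₗ[F] (Fin 2 → F) :=
    { toFun := fun v => ![f v u, f v u']
      map_add' := fun x y => by
        ext i
        fin_cases i <;> simp [hadd]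
      map_smul' := fun c x => by
        ext i
        fin_cases i <;> simp [hsmul] }
  have h1 : LinearMap.ker φ ≠ ⊥ := by
    apply LinearMap.ker_ne_bot_of_finrank_lt
    simpa using hκ
  obtain ⟨v, hv, hv0⟩ := Submodule.exists_mem_ne_zero_of_ne_bot h1
  have h2 : φ v = 0 := hv
  refine ⟨v, hv0, ?_, ?_⟩
  · simpa [φ] using congrFun h2 0
  · simpa [φ] using congrFun h2 1

/-- The elements of a stabiliser preserve the frame. -/
theorem hH_of_tensor {H : Subgroup (GL ι F)} {f : (ι → F) → (ι → F) → F}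
    {A : (Fin k → F) → (Fin k → F) → F} {B : (Fin l → F) → (Fin l → F) → F} {c : F} (hc : c ≠ 0)
    (hlaw : ∀ x y x' y', f (T x y) (T x' y') = c * A x x' * B y y') (hB : ∃ y y', B y y' ≠ 0)
    (hH : ∀ h ∈ H, ∃ (a : GL (Fin k) F) (b : GL (Fin l) F),
      ∀ x y, (h : Matrix ι ι F) *ᵥ T x y = T ((a : Matrix _ _ F) *ᵥ x) ((b : Matrix _ _ F) *ᵥ y))
    (hiso : ∀ h ∈ H, ∀ u v, f ((h : Matrix ι ι F) *ᵥ u) ((h : Matrix ι ι F) *ᵥ v) = f u v)
    (Fr : Set (Fin k → F))
    (hFr : ∀ a : GL (Fin k) F,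
      (∀ x x', A ((a : Matrix _ _ F) *ᵥ x) ((a : Matrix _ _ F) *ᵥ x') = 0 → A x x' = 0) →
      ∀ x ∈ Fr, (a : Matrix _ _ F) *ᵥ x ∈ Fr) :
    ∀ h ∈ H, ∃ (a : GL (Fin k) F) (b : GL (Fin l) F),
      (∀ x y, (h : Matrix ι ι F) *ᵥ T x y = T ((a : Matrix _ _ F) *ᵥ x) ((b : Matrix _ _ F) *ᵥ y)) ∧
        ∀ x ∈ Fr, (a : Matrix _ _ F) *ᵥ x ∈ Fr := by
  intro h hh
  obtain ⟨a, b, hab⟩ := hH h hh
  exact ⟨a, b, hab, hFr a fun x x' h0 => rigid_zero hc hlaw hB (hiso h hh) hab h0⟩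

/-- Transvection groups. -/
theorem tv_frame_tensor [Finite F] (hT : IsTensorMap T) {G H : Subgroup (GL ι F)}
    {f : (ι → F) → (ι → F) → F} (hfadd : ∀ u u' z, f (u + u') z = f u z + f u' z)
    (hfadd' : ∀ z u u', f z (u + u') = f z u + f z u')
    {A : (Fin k → F) → (Fin k → F) → F} {B : (Fin l → F) → (Fin l → F) → F} {c : F} (hc : c ≠ 0)
    (hlaw : ∀ x y x' y', f (T x y) (T x' y') = c * A x x' * B y y')
    (hBl : ∀ y y' t, B (y + y') t = B y t + B y' t) (hBs : ∀ (r : F) y t, B (r • y) t = r * B y t)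
    (hBnd : ∀ y : Fin l → F, y ≠ 0 → ∃ t, B y t ≠ 0)
    (Fr : Set (Fin k → F)) (hHG : H ≤ G)
    (hH : ∀ h ∈ H, ∃ (a : GL (Fin k) F) (b : GL (Fin l) F),
      (∀ x y, (h : Matrix ι ι F) *ᵥ T x y = T ((a : Matrix _ _ F) *ᵥ x) ((b : Matrix _ _ F) *ᵥ y)) ∧
        ∀ x ∈ Fr, (a : Matrix _ _ F) *ᵥ x ∈ Fr)
    {v₁ v₂ : Fin k → F} (hv₁ : v₁ ∈ Fr) (hv₁0 : v₁ ≠ 0) (hv₂0 : v₂ ≠ 0)
    (h12 : A v₁ v₂ = 0) (h21 : A v₂ v₁ = 0) (h11 : A v₁ v₁ ≠ 0) (h22 : A v₂ v₂ ≠ 0)
    (hd : ∀ x ∈ Fr, A x v₁ = 0 ∨ ∃ r : F, r ≠ 0 ∧ x = r • v₁)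
    (hTv : ∀ p, f p p = 0 → ∃ g ∈ G, ∀ u, (g : Matrix ι ι F) *ᵥ u = u + f u p • p)
    {z y₀ : Fin l → F} (hz : z ≠ 0) (hzz : B z z = 0) (hy₀ : B y₀ z ≠ 0) :
    ∃ K : Subgroup (GL ι F), H < K ∧ K < G := by
  have hB0 : ∀ t, B 0 t = 0 := fun t => by simpa using hBs 0 0 t
  have hy₀0 : y₀ ≠ 0 := by
    rintro rfl
    exact hy₀ (hB0 z)
  have hpp : f (T v₁ z) (T v₁ z) = 0 := by rw [hlaw, hzz, mul_zero]
  obtain ⟨w, hwG, hw⟩ := hTv _ hpp
  have hpp' : f (T v₁ z + T v₂ z) (T v₁ z + T v₂ z) = 0 := by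
    simp only [hfadd, hfadd', hlaw, hzz, mul_zero, add_zero]
  obtain ⟨s, hsG, hs⟩ := hTv _ hpp'
  have hγ : c * A v₁ v₁ * B y₀ z ≠ 0 := mul_ne_zero (mul_ne_zero hc h11) hy₀
  refine frame_not_maximal_law hT hfadd hc hlaw hBnd Fr hHG hH hv₁ hv₁0 hv₂0 h12 h21 h11 h22 hd w hwG
    (y₀ := y₀) (y' := y₀ + (c * A v₁ v₁ * B y₀ z) • z) (y₁ := y₀ + (c * A v₁ v₁ * B y₀ z) • z)
    (y₂ := (c * A v₁ v₁ * B y₀ z) • z) ?_ ?_ hy₀0 ?_ ?_ s hsG ?_ (smul_ne_zero hγ hz) ?_
  · intro x y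
    refine ⟨f (T x y) (T v₁ z) • z, ?_⟩
    rw [hw, hT.smul_right]
  · intro x y h0
    rw [hw, hlaw, h0]
    simp
  · rw [hw, hlaw, hT.add_right, hT.smul_right]
  · intro r he
    have h1 := congrArg (fun t => B t z) he
    simp only [hBl, hBs, hzz, mul_zero, add_zero] at h1
    have hr : r = 1 := by
      apply mul_right_cancel₀ hy₀
      rw [one_mul]
      exact h1.symm
    rw [hr, one_smul] at he
    have h2 : (c * A v₁ v₁ * B y₀ z) • z = 0 := left_eq_add.mp he.symm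
    exact (smul_ne_zero hγ hz) h2
  · intro h0
    have h1 : B (y₀ + (c * A v₁ v₁ * B y₀ z) • z) z = B y₀ z := by
      rw [hBl, hBs, hzz, mul_zero, add_zero]
    rw [h0, hB0] at h1
    exact hy₀ h1.symm
  · rw [hs, hfadd', hlaw, hlaw, h12, hT.add_right, hT.smul_right, hT.smul_right]
    simp only [mul_zero, zero_mul, add_zero, smul_add]
    abel

end Gen

section OmegaT
variable {Q : (ι → F) → F} {T : (Fin k → F) → (Fin l → F) → ι → F}

/-- `Ω`, with Eichler transformations on a member. -/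
theorem omega_frame_tensor [Finite F] (hQ : IsNondegenerateQuadraticForm Q) (hn : 7 ≤ Fintype.card ι)
    (h2 : (2 : F) ≠ 0) (hT : IsTensorMap T)
    {A : (Fin k → F) → (Fin k → F) → F} {B : (Fin l → F) → (Fin l → F) → F} {c : F} (hc : c ≠ 0)
    (hlaw : ∀ x y x' y', pol Q (T x y) (T x' y') = c * A x x' * B y y')
    (hB : IsBilinearForm B) (hBnd : ∀ y : Fin l → F, y ≠ 0 → ∃ t, B y t ≠ 0)
    {H : Subgroup (GL ι F)} (Fr : Set (Fin k → F)) (hHG : H ≤ omegaGL Q)
    (hH : ∀ h ∈ H, ∃ (a : GL (Fin k) F) (b : GL (Fin l) F),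
      (∀ x y, (h : Matrix ι ι F) *ᵥ T x y = T ((a : Matrix _ _ F) *ᵥ x) ((b : Matrix _ _ F) *ᵥ y)) ∧
        ∀ x ∈ Fr, (a : Matrix _ _ F) *ᵥ x ∈ Fr)
    {v₁ v₂ : Fin k → F} (hv₁ : v₁ ∈ Fr) (hv₁0 : v₁ ≠ 0) (hv₂0 : v₂ ≠ 0)
    (h12 : A v₁ v₂ = 0) (h21 : A v₂ v₁ = 0) (h11 : A v₁ v₁ ≠ 0) (h22 : A v₂ v₂ ≠ 0)
    (hd : ∀ x ∈ Fr, A x v₁ = 0 ∨ ∃ r : F, r ≠ 0 ∧ x = r • v₁)
    {p' b' y₀ : Fin l → F} (hp'0 : p' ≠ 0) (hpp : B p' p' = 0) (hpb : B p' b' = 0) (hbp : B b' p' = 0)
    (hyp : B y₀ p' ≠ 0) (hind : ∀ r : F, b' ≠ r • p') :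
    ∃ K : Subgroup (GL ι F), H < K ∧ K < omegaGL Q := by
  have hB0 : ∀ t, B 0 t = 0 := fun t => by simpa using hB.smul_left 0 0 t
  have hy₀0 : y₀ ≠ 0 := by
    rintro rfl
    exact hyp (hB0 p')
  set p := T v₁ p' with hp
  set β := T v₁ b' with hβ
  have hQp : Q p = 0 := by
    have h1 := pol_self hQ p
    rw [hp, hlaw, hpp, mul_zero] at h1
    exact (mul_eq_zero.mp h1.symm).resolve_left h2
  have hpβ : pol Q p β = 0 := by rw [hp, hβ, hlaw, hpb, mul_zero]
  obtain ⟨w, hw⟩ := exists_eich hQ hQp hpβ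
  have hwG := Eich.mem_omega hQ hn hw hQp hpβ
  set b₂ := T v₂ p' with hb₂
  have hpb₂ : pol Q p b₂ = 0 := by rw [hp, hb₂, hlaw, hpp, mul_zero]
  have hQb₂ : Q b₂ = 0 := by
    have h1 := pol_self hQ b₂
    rw [hb₂, hlaw, hpp, mul_zero] at h1
    exact (mul_eq_zero.mp h1.symm).resolve_left h2
  obtain ⟨s, hs⟩ := exists_eich hQ hQp hpb₂
  have hsG := Eich.mem_omega hQ hn hs hQp hpb₂
  have hγ : c * A v₁ v₁ * B y₀ p' ≠ 0 := mul_ne_zero (mul_ne_zero hc h11) hyp
  -- the formula for `w`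
  have hwf : ∀ x y, (w : Matrix ι ι F) *ᵥ T x y = T x y + T v₁ (pol Q (T x y) β • p' +
      (-pol Q (T x y) p) • b' + (-(Q β * pol Q (T x y) p)) • p') := by
    intro x y
    rw [hw (T x y), hT.add_right, hT.add_right, hT.smul_right, hT.smul_right, hT.smul_right, ← hp, ← hβ]
    module
  refine frame_not_maximal_law hT (pol_add_left hQ) hc hlaw hBnd Fr hHG hH hv₁ hv₁0 hv₂0 h12 h21 h11 h22 hd
    w hwG (y₀ := y₀) (y' := y₀ + (pol Q (T v₁ y₀) β • p' + (-pol Q (T v₁ y₀) p) • b' +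
      (-(Q β * pol Q (T v₁ y₀) p)) • p')) (y₁ := y₀) (y₂ := (-pol Q (T v₁ y₀) p) • p')
      ?_ ?_ hy₀0 ?_ ?_ s hsG hy₀0 ?_ ?_
  · intro x y
    exact ⟨_, hwf x y⟩
  · intro x y h0
    rw [hw, hβ, hp, hlaw, hlaw, h0]
    simp
  · rw [hwf]
    exact (hT.add_right _ _ _).symm
  · intro r he
    have hv : pol Q (T v₁ y₀) p = c * A v₁ v₁ * B y₀ p' := by rw [hp, hlaw]
    rw [hv] at he
    have h1 := congrArg (fun t => B t p') he
    simp only [hB.add_left, hB.smul_left, hpp, hbp, mul_zero, add_zero] at h1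
    have hr : r = 1 := by
      apply mul_right_cancel₀ hyp
      rw [one_mul]
      exact h1.symm
    rw [hr, one_smul] at he
    have h3 := left_eq_add.mp he.symm
    set γ := c * A v₁ v₁ * B y₀ p' with hγd
    apply hind ((pol Q (T v₁ y₀) β - Q β * γ) / γ)
    have h4 : γ • b' = (pol Q (T v₁ y₀) β - Q β * γ) • p' := by
      have : (pol Q (T v₁ y₀) β - Q β * γ) • p' - γ • b' = pol Q (T v₁ y₀) β • p' + (-γ) • b' + (-(Q β * γ)) • p' := by
        module
      rw [eq_comm, ← sub_eq_zero, this, h3]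
    have h5 : b' = γ⁻¹ • (γ • b') := by rw [smul_smul, inv_mul_cancel₀ hγ, one_smul]
    rw [h5, h4, smul_smul]
    congr 1
    field_simp
  · have hv : pol Q (T v₁ y₀) p = c * A v₁ v₁ * B y₀ p' := by rw [hp, hlaw]
    rw [hv]
    exact smul_ne_zero (neg_ne_zero.mpr hγ) hp'0
  · rw [hs (T v₁ y₀), hb₂, hQb₂, hlaw, h12, hT.smul_right, ← hb₂]
    module

end OmegaT

section Q3T
variable [Fintype F] (hq : Fintype.card F = 3) {Q : (ι → F) → F}
include hq

/-- **`q = 3`, `Ω`, a tensor factor of dimension three.** -/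
theorem q3_tensor_omega (hQ : IsNondegenerateQuadraticForm Q) (hn : 7 ≤ Fintype.card ι) (hl : 3 ≤ l)
    (e : ι ≃ Fin 3 × Fin l) (P : GL ι F) {f₁ : (Fin 3 → F) → (Fin 3 → F) → F}
    {f₂ : (Fin l → F) → (Fin l → F) → F} (hf₁ : IsSymmetricForm f₁) (hf₂ : IsSymmetricForm f₂)
    (hT : IsTensorFormStructure id (QuadraticMap.polar Q) f₁ f₂ e P) :
    ∃ K : Subgroup (GL ι F), tensorProductSubgroup 3 l e P ⊓ omegaGL Q < K ∧ K < omegaGL Q := by
  have h2 := q3_two hq
  obtain ⟨c, hc, hT⟩ := hT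
  have hlaw : ∀ x y x' y', pol Q (TT e P x y) (TT e P x' y') = c * f₁ x x' * f₂ y y' :=
    fun x y x' y' => form_T id (fun _ _ => rfl) hT (formOfGram_bilinear hf₁.bilinear)
      (formOfGram_bilinear hf₂.bilinear) x x' y y'
  have hQ₂ := quad_of_symm h2 hf₂
  obtain ⟨p', -, hp'0, hpp⟩ := exists_singular_odd hQ₂ (by rw [hq]) (⊤ : Submodule F (Fin l → F))
    (by simpa using hl)
  obtain ⟨y₀, hy₀⟩ := (hf₂.nondegenerate p' hp'0).1
  obtain ⟨b', hb'0, h1, h3⟩ := exists_perp_two hf₂.bilinear.add_left hf₂.bilinear.smul_left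
    (by simp only [Fintype.card_fin]; omega) p' y₀
  have hBex : ∃ y y', f₂ y y' ≠ 0 := ⟨y₀, p', hy₀⟩
  obtain ⟨v₁, v₂, hv₁, hv₁0, hv₂0, h12, h21, h11, h22, hd⟩ := q3_frame hq hf₁
  refine omega_frame_tensor hQ hn h2 (isTensorMap_TT e P) hc hlaw hf₂.bilinear
    (fun y hy => (hf₂.nondegenerate y hy).2) (FrO f₁) inf_le_right ?_ hv₁ hv₁0 hv₂0 h12 h21 h11 h22 hd
    hp'0 hpp (by rw [hf₂.symm]; exact h1) h1 hy₀ ?_
  · refine hH_of_tensor (H := tensorProductSubgroup 3 l e P ⊓ omegaGL Q) hc hlaw hBex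
      (fun h hh => mem_tensor e P hh.1) ?_ _ ?_
    · intro h hh u v
      exact pol_isometry h (omegaGL_le_isometryGroup Q hh.2) u v
    · intro a ha x hx
      exact FrO_map a ha hx
  · rintro r rfl
    have hr : r ≠ 0 := by
      rintro rfl
      exact hb'0 (zero_smul _ _)
    rw [hf₂.bilinear.smul_left] at h3
    rw [hf₂.symm] at hy₀
    exact (mul_ne_zero hr hy₀) h3

end Q3T

section SpT
open Cfsg.Agent.Lib.Geo.SpBase Cfsg.Agent.Lib.Geo.SympInSL
variable [Fintype F] (hq : Fintype.card F = 3)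
include hq

/-- **`q = 3`, `Sp`, a symmetric tensor factor of dimension three.** -/
theorem q3_tensor_sp {m n₁ : ℕ} (hn₁ : 0 < n₁) (e : (Fin m ⊕ Fin m) ≃ Fin n₁ × Fin 3)
    (P : GL (Fin m ⊕ Fin m) F) {f₁ : (Fin n₁ → F) → (Fin n₁ → F) → F}
    {f₂ : (Fin 3 → F) → (Fin 3 → F) → F} (hf₁ : IsSymplecticForm f₁) (hf₂ : IsSymmetricForm f₂)
    (hT : IsTensorFormStructure id (sympForm m F) f₁ f₂ e P) :
    ∃ K : Subgroup (GL (Fin m ⊕ Fin m) F), tensorProductSubgroup n₁ 3 e P ⊓ spGL m F < K ∧ K < spGL m F := by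
  obtain ⟨c, hc, hT⟩ := hT
  have hf := isSymplecticForm_sympForm (F := F) m
  have hSp := isSpGroup_spGL (F := F) m
  have hlaw0 : ∀ x x' y y', sympForm m F (TT e P x y) (TT e P x' y') = c * f₁ x x' * f₂ y y' :=
    fun x x' y y' => form_T id (fun _ _ => rfl) hT (formOfGram_bilinear hf₁.bilinear)
      (formOfGram_bilinear hf₂.bilinear) x x' y y'
  have hTm := (isTensorMap_TT e P).swap
  have hlaw : ∀ y x y' x', sympForm m F ((fun y x => TT e P x y) y x) ((fun y x => TT e P x y) y' x') =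
      c * f₂ y y' * f₁ x x' := by
    intro y x y' x'
    show sympForm m F (TT e P x y) (TT e P x' y') = _
    rw [hlaw0]
    ring
  let z : Fin n₁ → F := Pi.single ⟨0, hn₁⟩ 1
  have hz : z ≠ 0 := by
    intro h
    have := congrFun h ⟨0, hn₁⟩
    simp [z] at this
  obtain ⟨y₀, hy₀⟩ := (hf₁.nondegenerate z hz).1
  obtain ⟨v₁, v₂, hv₁, hv₁0, hv₂0, h12, h21, h11, h22, hd⟩ := q3_frame hq hf₂
  refine tv_frame_tensor hTm hf.bilinear.add_left hf.bilinear.add_right hc hlaw hf₁.bilinear.add_left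
    hf₁.bilinear.smul_left (fun y hy => (hf₁.nondegenerate y hy).2) (FrO f₂) inf_le_right ?_ hv₁ hv₁0 hv₂0
    h12 h21 h11 h22 hd ?_ hz (hf₁.alternating z) hy₀
  · refine hH_of_tensor (H := tensorProductSubgroup n₁ 3 e P ⊓ spGL m F) hc hlaw ⟨y₀, z, hy₀⟩ ?_ ?_ _ ?_
    · intro h hh
      obtain ⟨a, b, hab⟩ := mem_tensor e P hh.1
      exact ⟨b, a, fun x y => hab y x⟩
    · intro h hh u v
      exact (hSp.mem_iff h).mp hh.2 u v
    · intro a ha x hx
      exact FrO_map a ha hx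
  · intro p _
    refine ⟨sympT hf p 1, (hSp.mem_iff _).mpr (sympT_preserves hf p 1), fun u => ?_⟩
    rw [sympT_mulVec, one_smul]

end SpT

section UnitaryForms
open Cfsg.Agent.Lib.NotMax.SU2
variable [Fintype F] (hF : Fintype.card F = 4) {κ : Type} [Fintype κ] [DecidableEq κ]
  {A : (κ → F) → (κ → F) → F} (hA : IsUnitaryFormPow 2 A)
include hF hA

theorem u_add_right (v x y : κ → F) : A v (x + y) = A v x + A v y := by
  rw [hA.herm, hA.add_left, add_sq hF, ← hA.herm, ← hA.herm]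

theorem u_smul_right (c : F) (v x : κ → F) : A v (c • x) = c ^ 2 * A v x := by
  rw [hA.herm, hA.smul_left, mul_pow, ← hA.herm]

theorem u_gram (x y : κ → F) : formOfGram (fun x : F => x ^ 2) (gramMatrix A) x y = A x y :=
  formOfGram_eq _ A hA.add_left hA.smul_left (u_add_right hF hA) (u_smul_right hF hA) x y

theorem u_self (x : κ → F) : A x x = 0 ∨ A x x = 1 := by
  have h1 : (A x x) ^ 2 = A x x := (hA.herm x x).symm
  by_cases h : A x x = 0
  · exact Or.inl h
  · right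
    apply mul_left_cancel₀ h
    linear_combination h1

omit hF in
theorem u_zero_left (v : κ → F) : A 0 v = 0 := by
  simpa using hA.smul_left 0 0 v

/-- Non-isotropic vectors. -/
theorem u_exists_aniso [Nonempty κ] : ∃ v : κ → F, A v v = 1 := by
  classical
  have h2 : (2 : F) = 0 := two_zero hF
  obtain ⟨i⟩ := (inferInstance : Nonempty κ)
  have ha0 : (Pi.single i 1 : κ → F) ≠ 0 := by
    intro h
    have := congrFun h i
    simp at this
  set a : κ → F := Pi.single i 1 with ha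
  obtain ⟨b, hab⟩ := (hA.nondegenerate a ha0).2
  by_cases h1 : A a a = 0
  · by_cases h3 : A b b = 0
    · obtain ⟨ω, hω⟩ : ∃ ω : F, ω ≠ 0 ∧ ω ≠ 1 := by
        by_contra hcon
        push Not at hcon
        have : Fintype.card F ≤ ({0, 1} : Finset F).card := by
          rw [← Finset.card_univ]
          refine Finset.card_le_card fun x _ => ?_
          by_cases hx : x = 0
          · simp [hx]
          · simp [hcon x hx]
        have h5 : ({0, 1} : Finset F).card ≤ 2 := Finset.card_le_two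
        omega
      set c := A a b with hc
      set β := (ω * c⁻¹) ^ 2 with hβ
      have hβ2 : β ^ 2 * c = ω := by
        rw [hβ]
        have h5 := pow_four hF (ω * c⁻¹)
        calc ((ω * c⁻¹) ^ 2) ^ 2 * c = (ω * c⁻¹) ^ 4 * c := by ring
          _ = ω * c⁻¹ * c := by rw [h5]
          _ = ω := by field_simp
      have h5 : A (a + β • b) (a + β • b) = ω + ω ^ 2 := by
        rw [hA.add_left, u_add_right hF hA, u_add_right hF hA, hA.smul_left, hA.smul_left, u_smul_right hF hA,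
          u_smul_right hF hA, h1, h3, hA.herm b a, ← hc, mul_zero, mul_zero, add_zero, zero_add, hβ2]
        rw [← hβ2]
        linear_combination (-(c ^ 2)) * (pow_four hF β)
      refine ⟨a + β • b, ?_⟩
      rcases u_self hF hA (a + β • b) with h6 | h6
      · exfalso
        rw [h5] at h6
        have h7 : ω * (ω + 1) = 0 := by linear_combination h6
        rcases mul_eq_zero.mp h7 with h8 | h8
        · exact hω.1 h8
        · apply hω.2
          linear_combination h8 - h2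
      · exact h6
    · exact ⟨b, (u_self hF hA b).resolve_left h3⟩
  · exact ⟨a, (u_self hF hA a).resolve_left h1⟩

/-- Vectors perpendicular to a given one. -/
theorem u_exists_perp (hκ : 1 < Fintype.card κ) (u : κ → F) : ∃ v, v ≠ 0 ∧ A v u = 0 := by
  let φ : (κ → F) →ₗ[F] F :=
    { toFun := fun v => A v u
      map_add' := fun x y => hA.add_left x y u
      map_smul' := fun c x => hA.smul_left c x u }
  have h1 : LinearMap.ker φ ≠ ⊥ := by
    apply LinearMap.ker_ne_bot_of_finrank_lt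
    simpa using hκ
  obtain ⟨v, hv, hv0⟩ := Submodule.exists_mem_ne_zero_of_ne_bot h1
  exact ⟨v, hv0, hv⟩

/-- Isotropic vectors. -/
theorem u_exists_isotropic (hκ : 1 < Fintype.card κ) : ∃ z : κ → F, z ≠ 0 ∧ A z z = 0 := by
  have h2 : (2 : F) = 0 := two_zero hF
  have : Nonempty κ := Fintype.card_pos_iff.mp (by omega)
  obtain ⟨a, ha⟩ := u_exists_aniso hF hA
  obtain ⟨b, hb0, hba⟩ := u_exists_perp hF hA hκ a
  have hab : A a b = 0 := by
    rw [hA.herm, hba]
    simp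
  rcases u_self hF hA b with h | h
  · exact ⟨b, hb0, h⟩
  · refine ⟨a + b, ?_, ?_⟩
    · intro h0
      have h1 : b = -a := eq_neg_of_add_eq_zero_right h0
      have h3 : A a b = 1 := by
        rw [h1]
        have : -a = (-1 : F) • a := by simp
        rw [this, u_smul_right hF hA, ha]
        ring
      rw [hab] at h3
      exact zero_ne_one h3
    · rw [hA.add_left, u_add_right hF hA, u_add_right hF hA, ha, h, hab, hba]
      linear_combination h2

end UnitaryForms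

section U2
open Cfsg.Agent.Lib.NotMax.SU2
variable [Fintype F] (hF : Fintype.card F = 4) {A : (Fin 2 → F) → (Fin 2 → F) → F} (hA : IsUnitaryFormPow 2 A)
include hF hA

/-- The frame of a unitary plane over the field with four elements. -/
theorem u2_frame : ∃ v₁ v₂ : Fin 2 → F, v₁ ∈ FrU A ∧ v₁ ≠ 0 ∧ v₂ ≠ 0 ∧ A v₁ v₂ = 0 ∧ A v₂ v₁ = 0 ∧
    A v₁ v₁ ≠ 0 ∧ A v₂ v₂ ≠ 0 ∧ ∀ x ∈ FrU A, A x v₁ = 0 ∨ ∃ r : F, r ≠ 0 ∧ x = r • v₁ := by
  have h2 : (2 : F) = 0 := two_zero hF
  obtain ⟨v, hvv⟩ := u_exists_aniso hF hA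
  have hne : ∀ {u : Fin 2 → F}, A u u ≠ 0 → u ≠ 0 := by
    rintro u hu rfl
    exact hu (u_zero_left hA _)
  have h1' : A v v ≠ 0 := by rw [hvv]; exact one_ne_zero
  obtain ⟨v', hv'0, h21⟩ := u_exists_perp hF hA (by simp) v
  have h12 : A v v' = 0 := by
    rw [hA.herm, h21]
    simp
  have hli : LinearIndependent F ![v, v'] := by
    rw [LinearIndependent.pair_iff]
    intro s r hsr
    have h5 := congrArg (fun z => A z v) hsr
    simp only [hA.add_left, hA.smul_left, hvv, h21, u_zero_left hA] at h5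
    have hs : s = 0 := by linear_combination h5
    refine ⟨hs, ?_⟩
    rw [hs, zero_smul, zero_add] at hsr
    exact (smul_eq_zero.mp hsr).resolve_right hv'0
  have hspan : ∀ x : Fin 2 → F, ∃ r s : F, x = r • v + s • v' := by
    intro x
    have h5 : Submodule.span F (Set.range ![v, v']) = ⊤ := by
      refine Submodule.eq_of_le_of_finrank_eq le_top ?_
      rw [finrank_span_eq_card hli]
      simp
    have hx : x ∈ Submodule.span F (Set.range ![v, v']) := by
      rw [h5]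
      exact Submodule.mem_top
    obtain ⟨l, rfl⟩ := (Submodule.mem_span_range_iff_exists_fun F).mp hx
    refine ⟨l 0, l 1, ?_⟩
    simp [Fin.sum_univ_two]
  have h22 : A v' v' = 1 := by
    rcases u_self hF hA v' with h5 | h5
    · exfalso
      obtain ⟨x, hx⟩ := (hA.nondegenerate v' hv'0).1
      apply hx
      obtain ⟨r, s, rfl⟩ := hspan x
      rw [hA.add_left, hA.smul_left, hA.smul_left, h12, h5]
      ring
    · exact h5
  refine ⟨v, v', h1', hne h1', hv'0, h12, h21, h1', by rw [h22]; exact one_ne_zero, ?_⟩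
  intro x hx
  obtain ⟨r, s, rfl⟩ := hspan x
  have hxx : A (r • v + s • v') (r • v + s • v') ≠ 0 := hx
  rw [hA.add_left, u_add_right hF hA, u_add_right hF hA] at hxx
  simp only [hA.smul_left, u_smul_right hF hA, hvv, h22, h12, h21] at hxx
  by_cases hr : r = 0
  · left
    rw [hr, hA.add_left, hA.smul_left, hA.smul_left, h21]
    ring
  · by_cases hs : s = 0
    · right
      exact ⟨r, hr, by rw [hs, zero_smul, add_zero]⟩
    · exfalso
      apply hxx
      have h6 := cube_eq_one hF hr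
      have h7 := cube_eq_one hF hs
      linear_combination h6 + h7 + h2

end U2

section SUT
open Cfsg.Agent.Lib.NotMax.SU2 Cfsg.Agent.Lib.Geo.Centres
variable [Fintype F] {n : ℕ}

/-- Unitary transvections. -/
theorem exists_utrans (hF : Fintype.card F = 4) (u : Fin n → F) (hu : hermForm n F 2 u u = 0) :
    ∃ T : GL (Fin n) F, T ∈ GU n F 2 ⊓ specialLinear (Fin n) F ∧
      ∀ x, (T : Matrix (Fin n) (Fin n) F) *ᵥ x = x + hermForm n F 2 x u • u := by
  have h2 : (2 : F) = 0 := two_zero hF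
  have hfd : ∀ x y, formVec (hermForm n F 2) y ⬝ᵥ x = hermForm n F 2 x y :=
    fun x y => formVec_dotProduct (fun x y v => f_add_left x y v) (fun r x v => f_smul_left r x v) x y
  have h3 : formVec (hermForm n F 2) u ⬝ᵥ u = 0 := by rw [hfd]; exact hu
  refine ⟨transv u (formVec (hermForm n F 2) u) h3, ⟨?_, transv_mem_specialLinear _ _ _⟩, fun x => ?_⟩
  · intro x y
    show hermForm n F 2 (((transv u (formVec (hermForm n F 2) u) h3 : GL (Fin n) F) : Matrix (Fin n) (Fin n) F) *ᵥ x)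
      (((transv u (formVec (hermForm n F 2) u) h3 : GL (Fin n) F) : Matrix (Fin n) (Fin n) F) *ᵥ y) = hermForm n F 2 x y
    rw [transv_mulVec, transv_mulVec, hfd, hfd, f_add_left, f_add_right hF, f_add_right hF, f_smul_left,
      f_smul_left, f_smul_right, f_smul_right, hu, f_symm hF y u]
    linear_combination (hermForm n F 2 x u * hermForm n F 2 y u ^ 2) * h2
  · rw [transv_mulVec, hfd]

/-- **`q = 2`, `SU`, a tensor factor of dimension two.** -/
theorem q2_tensor_su (hF : Fintype.card F = 4) {n₂ : ℕ} (hn₂ : 1 < n₂) (e : Fin n ≃ Fin 2 × Fin n₂)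
    (P : GL (Fin n) F) {f₁ : (Fin 2 → F) → (Fin 2 → F) → F} {f₂ : (Fin n₂ → F) → (Fin n₂ → F) → F}
    (hf₁ : IsUnitaryFormPow 2 f₁) (hf₂ : IsUnitaryFormPow 2 f₂)
    (hT : IsTensorFormStructure (fun x : F => x ^ 2) (hermForm n F 2) f₁ f₂ e P) :
    ∃ K : Subgroup (GL (Fin n) F), tensorProductSubgroup 2 n₂ e P ⊓ (GU n F 2 ⊓ specialLinear (Fin n) F) < K ∧
      K < (GU n F 2 ⊓ specialLinear (Fin n) F) := by
  obtain ⟨c, hc, hT⟩ := hT
  have hlaw : ∀ x y x' y', hermForm n F 2 (TT e P x y) (TT e P x' y') = c * f₁ x x' * f₂ y y' :=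
    fun x y x' y' => form_T _ (fun a b => mul_pow a b 2) hT (u_gram hF hf₁) (u_gram hF hf₂) x x' y y'
  obtain ⟨z, hz, hzz⟩ := u_exists_isotropic hF hf₂ (by simpa using hn₂)
  obtain ⟨y₀, hy₀⟩ := (hf₂.nondegenerate z hz).1
  obtain ⟨v₁, v₂, hv₁, hv₁0, hv₂0, h12, h21, h11, h22, hd⟩ := u2_frame hF hf₁
  refine tv_frame_tensor (isTensorMap_TT e P) (fun u u' z => f_add_left u u' z) (fun z u u' => f_add_right hF z u u') hc hlaw
    hf₂.add_left hf₂.smul_left (fun y hy => (hf₂.nondegenerate y hy).2) (FrU f₁) inf_le_right ?_ hv₁ hv₁0 hv₂0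
    h12 h21 h11 h22 hd ?_ hz hzz hy₀
  · refine hH_of_tensor (H := tensorProductSubgroup 2 n₂ e P ⊓ (GU n F 2 ⊓ specialLinear (Fin n) F)) hc hlaw
      ⟨y₀, z, hy₀⟩ (fun h hh => mem_tensor e P hh.1) ?_ _ ?_
    · intro h hh u v
      exact hh.2.1 u v
    · intro a ha x hx
      exact FrU_map a ha hx
  · intro p hp
    obtain ⟨g, hg, hgf⟩ := exists_utrans hF p hp
    exact ⟨g, hg, hgf⟩

end SUT

end Cfsg.Agent.Lib.NotMax.Tensor
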