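/-
Tensor decompositions with a factor of dimension two over the field with two elements: the normaliser of an element
of order three.
-/
import Cfsg.Agent.Lib.NotMax.TensorFrame
import Cfsg.Agent.Lib.NotMax.Sp2
set_option autoImplicit false

namespace Cfsg.Agent.Lib.NotMax.Tensor

open Cfsg Cfsg.Geo Cfsg.Agent.Lib.Geo.Basic Cfsg.Agent.Lib.NotMax.SetStab
open Cfsg.Agent.Lib.Geo.QForm Cfsg.Agent.Lib.GeoOmega.Basic Cfsg.Agent.Lib.GeoOmega.Eichler
open scoped MatrixGroups Matrix Kronecker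

variable {ι : Type} [Fintype ι] [DecidableEq ι] {F : Type*} [Field F] {k l : ℕ}

set_option linter.unusedSectionVars false

/-- Kronecker products of invertible matrices. -/
def kron (a : GL (Fin k) F) (b : GL (Fin l) F) : GL (Fin k × Fin l) F where
  val := (a : Matrix (Fin k) (Fin k) F) ⊗ₖ (b : Matrix (Fin l) (Fin l) F)
  inv := ((a⁻¹ : GL (Fin k) F) : Matrix (Fin k) (Fin k) F) ⊗ₖ ((b⁻¹ : GL (Fin l) F) : Matrix (Fin l) (Fin l) F)
  val_inv := by
    rw [← Matrix.mul_kronecker_mul, ← Units.val_mul, ← Units.val_mul, mul_inv_cancel, mul_inv_cancel,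
      Units.val_one, Units.val_one, Matrix.one_kronecker_one]
  inv_val := by
    rw [← Matrix.mul_kronecker_mul, ← Units.val_mul, ← Units.val_mul, inv_mul_cancel, inv_mul_cancel,
      Units.val_one, Units.val_one, Matrix.one_kronecker_one]

theorem kron_mul (a a' : GL (Fin k) F) (b b' : GL (Fin l) F) : kron (a * a') (b * b') = kron a b * kron a' b' := by
  apply Units.ext
  rw [Units.val_mul]
  show ((a * a' : GL (Fin k) F) : Matrix (Fin k) (Fin k) F) ⊗ₖ ((b * b' : GL (Fin l) F) : Matrix (Fin l) (Fin l) F) = _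
  rw [Units.val_mul, Units.val_mul, Matrix.mul_kronecker_mul]
  rfl

theorem kron_inv (a : GL (Fin k) F) (b : GL (Fin l) F) : kron a⁻¹ b⁻¹ = (kron a b)⁻¹ := by
  apply Units.ext
  rfl

/-- The normaliser of a cyclic group generated by an element of order three. -/
def invNorm (J : GL ι F) : Subgroup (GL ι F) where
  carrier := {g | g * J * g⁻¹ = J ∨ g * J * g⁻¹ = J⁻¹}
  mul_mem' := by
    intro a b ha hb
    show a * b * J * (a * b)⁻¹ = J ∨ a * b * J * (a * b)⁻¹ = J⁻¹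
    have e : a * b * J * (a * b)⁻¹ = a * (b * J * b⁻¹) * a⁻¹ := by group
    rw [e]
    rcases hb with hb | hb
    · rw [hb]
      exact ha
    · rw [hb]
      have : a * J⁻¹ * a⁻¹ = (a * J * a⁻¹)⁻¹ := by group
      rw [this]
      rcases ha with ha | ha
      · right
        rw [ha]
      · left
        rw [ha, inv_inv]
  one_mem' := by
    left
    simp
  inv_mem' := by
    intro g hg
    show g⁻¹ * J * g⁻¹⁻¹ = J ∨ g⁻¹ * J * g⁻¹⁻¹ = J⁻¹
    rcases hg with hg | hg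
    · left
      calc g⁻¹ * J * g⁻¹⁻¹ = g⁻¹ * (g * J * g⁻¹) * g := by rw [hg, inv_inv]
        _ = J := by group
    · right
      calc g⁻¹ * J * g⁻¹⁻¹ = g⁻¹ * (g * J * g⁻¹)⁻¹ * g := by rw [hg, inv_inv, inv_inv]
        _ = J⁻¹ := by group

theorem mem_invNorm {J g : GL ι F} : g ∈ invNorm J ↔ g * J * g⁻¹ = J ∨ g * J * g⁻¹ = J⁻¹ := Iff.rfl

theorem mem_invNorm_of_comm {J g : GL ι F} (h : g * J = J * g) : g ∈ invNorm J := by
  left
  rw [h, mul_inv_cancel_right]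

theorem mem_invNorm' {J g : GL ι F} (h : g ∈ invNorm J) : g * J = J * g ∨ g * J = J⁻¹ * g := by
  have e : g * J = (g * J * g⁻¹) * g := by group
  rcases h with h | h
  · left
    rw [e, h]
  · right
    rw [e, h]

theorem mem_invNorm_Psi (e : ι ≃ Fin k × Fin l) (P : GL ι F) {M J : GL (Fin k × Fin l) F} :
    Psi e P M ∈ invNorm (Psi e P J) ↔ M ∈ invNorm J := by
  have hinj := (Psi e P).injective
  rw [mem_invNorm, mem_invNorm, ← map_inv, ← map_inv, ← map_mul, ← map_mul, hinj.eq_iff, hinj.eq_iff]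

section Two
variable [Fintype F]

/-- The matrix of order three. -/
def ww (h2 : (2 : F) = 0) : GL (Fin 2) F where
  val := !![0, 1; 1, 1]
  inv := !![1, 1; 1, 0]
  val_inv := by
    ext i j
    fin_cases i <;> fin_cases j <;> simp [Matrix.mul_apply, Fin.sum_univ_two]
    linear_combination h2
  inv_val := by
    ext i j
    fin_cases i <;> fin_cases j <;> simp [Matrix.mul_apply, Fin.sum_univ_two]
    linear_combination h2

theorem ww_val (h2 : (2 : F) = 0) : ((ww h2 : GL (Fin 2) F) : Matrix (Fin 2) (Fin 2) F) = !![0, 1; 1, 1] := rfl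

theorem ww_inv_val (h2 : (2 : F) = 0) : (((ww h2)⁻¹ : GL (Fin 2) F) : Matrix (Fin 2) (Fin 2) F) = !![1, 1; 1, 0] := rfl

omit [Fintype F] in
theorem ww_entries (h2 : (2 : F) = 0) {p q r s : F} (hp : p = 0 ∨ p = 1) (hq : q = 0 ∨ q = 1)
    (hr : r = 0 ∨ r = 1) (hs : s = 0 ∨ s = 1) (hd : p * s - q * r ≠ 0) :
    (q = r ∧ p + q = s ∧ s = p + r) ∨ (q = p + r ∧ p + q = q + s ∧ s = p ∧ r + s = q) := by
  have h11 : (1 : F) + 1 = 0 := by linear_combination h2
  rcases hp with rfl | rfl <;> rcases hq with rfl | rfl <;> rcases hr with rfl | rfl <;>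
    rcases hs with rfl | rfl <;> simp [h11] at hd ⊢

theorem ww_normal (hq : Fintype.card F = 2) (a : GL (Fin 2) F) :
    a * ww (Cfsg.Agent.Lib.NotMax.Sp2.two_eq_zero hq) * a⁻¹ = ww (Cfsg.Agent.Lib.NotMax.Sp2.two_eq_zero hq) ∨
      a * ww (Cfsg.Agent.Lib.NotMax.Sp2.two_eq_zero hq) * a⁻¹ = (ww (Cfsg.Agent.Lib.NotMax.Sp2.two_eq_zero hq))⁻¹ := by
  have h2 := Cfsg.Agent.Lib.NotMax.Sp2.two_eq_zero hq
  have h01 := Cfsg.Agent.Lib.NotMax.Sp2.eq_zero_or_one hq
  have hdet : (a : Matrix (Fin 2) (Fin 2) F).det ≠ 0 := by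
    have := (Matrix.isUnit_iff_isUnit_det _).mp a.isUnit
    exact this.ne_zero
  rw [Matrix.det_fin_two] at hdet
  rcases ww_entries h2 (h01 _) (h01 _) (h01 _) (h01 _) hdet with ⟨h1, h3, h4⟩ | ⟨h1, h3, h4, h5⟩
  · left
    have : a * ww h2 = ww h2 * a := by
      apply Units.ext
      rw [Units.val_mul, Units.val_mul, ww_val]
      ext i j
      fin_cases i <;> fin_cases j <;> simp [Matrix.mul_apply, Fin.sum_univ_two]
      · exact h1
      · exact h3.symm ▸ rfl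
      · exact h4
      · rw [h1]
    rw [this, mul_inv_cancel_right]
  · right
    have : a * ww h2 = (ww h2)⁻¹ * a := by
      apply Units.ext
      rw [Units.val_mul, Units.val_mul, ww_val, ww_inv_val]
      ext i j
      fin_cases i <;> fin_cases j <;> simp [Matrix.mul_apply, Fin.sum_univ_two]
      · exact h1
      · exact h3
      · exact h4
      · exact h5
    rw [this, mul_inv_cancel_right]

/-- The element of order three on the tensor product. -/
def J0 (h2 : (2 : F) = 0) : GL (Fin 2 × Fin l) F := kron (ww h2) 1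

theorem kron_mem_invNorm (hq : Fintype.card F = 2) (a : GL (Fin 2) F) (b : GL (Fin l) F) :
    kron a b ∈ invNorm (J0 (l := l) (Cfsg.Agent.Lib.NotMax.Sp2.two_eq_zero hq)) := by
  have e : kron a b * J0 (Cfsg.Agent.Lib.NotMax.Sp2.two_eq_zero hq) * (kron a b)⁻¹ =
      kron (a * ww (Cfsg.Agent.Lib.NotMax.Sp2.two_eq_zero hq) * a⁻¹) 1 := by
    rw [J0, ← kron_inv, ← kron_mul, ← kron_mul]
    congr 1
    group
  rw [mem_invNorm, e]
  rcases ww_normal hq a with h | h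
  · left
    rw [h]
    rfl
  · right
    rw [h, J0, ← inv_one, kron_inv, inv_one]

theorem kronecker_le_invNorm (hq : Fintype.card F = 2) :
    kroneckerSubgroup 2 l F ≤ invNorm (J0 (l := l) (Cfsg.Agent.Lib.NotMax.Sp2.two_eq_zero hq)) := by
  rintro M ⟨a, b, hM⟩
  have : M = kron a b := Units.ext hM
  rw [this]
  exact kron_mem_invNorm hq a b

theorem tensor_le_invNorm (hq : Fintype.card F = 2) (e : ι ≃ Fin 2 × Fin l) (P : GL ι F) :
    tensorProductSubgroup 2 l e P ≤ invNorm (Psi e P (J0 (Cfsg.Agent.Lib.NotMax.Sp2.two_eq_zero hq))) := by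
  intro g hg
  obtain ⟨M, hM, rfl⟩ := (mem_tensor_iff e P).mp hg
  exact (mem_invNorm_Psi e P).mpr (kronecker_le_invNorm hq hM)

/-! The chain for the special linear group. -/

theorem J0_apply (h2 : (2 : F) = 0) (c d : Fin 2 × Fin l) :
    ((J0 h2 : GL (Fin 2 × Fin l) F) : Matrix _ _ F) c d =
      (!![0, 1; 1, 1] : Matrix (Fin 2) (Fin 2) F) c.1 d.1 * (1 : Matrix (Fin l) (Fin l) F) c.2 d.2 := rfl

theorem J0_inv_apply (h2 : (2 : F) = 0) (c d : Fin 2 × Fin l) :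
    (((J0 h2)⁻¹ : GL (Fin 2 × Fin l) F) : Matrix _ _ F) c d =
      (!![1, 1; 1, 0] : Matrix (Fin 2) (Fin 2) F) c.1 d.1 * (1 : Matrix (Fin l) (Fin l) F) c.2 d.2 := by
  have : (J0 h2 : GL (Fin 2 × Fin l) F)⁻¹ = kron (ww h2)⁻¹ 1 := by
    rw [J0, ← inv_one, kron_inv, inv_one]
  rw [this]
  rfl

/-- The transvection not normalising the element of order three. -/
theorem exists_not_invNorm (h2 : (2 : F) = 0) {i₀ i₁ : Fin l} (hne : i₀ ≠ i₁) :
    ∃ s : GL (Fin 2 × Fin l) F, s ∉ invNorm (J0 (l := l) h2) := by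
  classical
  have h3 : (Pi.single ((0 : Fin 2), i₁) 1 : Fin 2 × Fin l → F) ⬝ᵥ Pi.single ((0 : Fin 2), i₀) 1 = 0 := by
    simp [hne]
  refine ⟨transv (Pi.single ((0 : Fin 2), i₀) 1) (Pi.single ((0 : Fin 2), i₁) 1) h3, fun hs => ?_⟩
  set T₀ := transv (Pi.single ((0 : Fin 2), i₀) 1 : Fin 2 × Fin l → F) (Pi.single ((0 : Fin 2), i₁) 1) h3 with hT₀
  have hz : ((T₀ : GL (Fin 2 × Fin l) F) : Matrix _ _ F) *ᵥ (Pi.single ((1 : Fin 2), i₁) 1) = Pi.single ((1 : Fin 2), i₁) 1 := by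
    rw [hT₀, transv_mulVec]
    simp
  have hJ : ((T₀ * J0 h2 : GL (Fin 2 × Fin l) F) : Matrix _ _ F) *ᵥ (Pi.single ((1 : Fin 2), i₁) 1) =
      fun c => ((J0 h2 : GL (Fin 2 × Fin l) F) : Matrix _ _ F) c ((1 : Fin 2), i₁) +
        ((J0 h2 : GL (Fin 2 × Fin l) F) : Matrix _ _ F) ((0 : Fin 2), i₁) ((1 : Fin 2), i₁) *
          (Pi.single ((0 : Fin 2), i₀) 1 : Fin 2 × Fin l → F) c := by
    rw [Units.val_mul, ← Matrix.mulVec_mulVec, hT₀, transv_mulVec]
    funext c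
    simp
  rcases mem_invNorm' hs with h | h
  · have h4 := congrArg (fun A : GL (Fin 2 × Fin l) F => A.val *ᵥ (Pi.single ((1 : Fin 2), i₁) 1)) h
    beta_reduce at h4
    rw [hJ, Units.val_mul, ← Matrix.mulVec_mulVec, hz] at h4
    have h5 := congrFun h4 ((0 : Fin 2), i₀)
    simp [J0_apply, hne] at h5
  · have h4 := congrArg (fun A : GL (Fin 2 × Fin l) F => A.val *ᵥ (Pi.single ((1 : Fin 2), i₁) 1)) h
    beta_reduce at h4
    rw [hJ, Units.val_mul, ← Matrix.mulVec_mulVec, hz] at h4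
    have h5 := congrFun h4 ((1 : Fin 2), i₁)
    have h6 : (((J0 h2)⁻¹ : GL (Fin 2 × Fin l) F) : Matrix _ _ F) ((1 : Fin 2), i₁) ((1 : Fin 2), i₁) = 0 := by
      rw [J0_inv_apply]
      simp
    rw [Matrix.mulVec_single_one, Matrix.col_apply, h6] at h5
    simp [J0_apply] at h5

/-- The witness in the Kronecker coordinates. -/
theorem exists_comm_not_kronecker (h2 : (2 : F) = 0) {i₀ i₁ : Fin l} (hne : i₀ ≠ i₁) :
    ∃ M : GL (Fin 2 × Fin l) F, M * J0 h2 = J0 h2 * M ∧ M ∉ kroneckerSubgroup 2 l F := by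
  classical
  set ω : Matrix (Fin 2) (Fin 2) F := !![0, 1; 1, 1] with hω
  set E : Matrix (Fin l) (Fin l) F := Matrix.single i₀ i₁ 1 with hE
  have hEE : E * E = 0 := by
    rw [hE]
    exact Matrix.single_mul_single_of_ne _ _ _ _ (Ne.symm hne) _
  set N : Matrix (Fin 2 × Fin l) (Fin 2 × Fin l) F := ω ⊗ₖ E with hN
  have hNN : N * N = 0 := by
    rw [hN, ← Matrix.mul_kronecker_mul, hEE]
    simp
  let M : GL (Fin 2 × Fin l) F :=
    { val := 1 + N
      inv := 1 - N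
      val_inv := by
        rw [add_mul, mul_sub, mul_sub, hNN]
        simp
      inv_val := by
        rw [sub_mul, mul_add, mul_add, hNN]
        simp }
  have hM : (M : Matrix _ _ F) = 1 + N := rfl
  refine ⟨M, ?_, ?_⟩
  · apply Units.ext
    rw [Units.val_mul, Units.val_mul, hM]
    have hJ : ((J0 h2 : GL (Fin 2 × Fin l) F) : Matrix _ _ F) = ω ⊗ₖ (1 : Matrix (Fin l) (Fin l) F) := rfl
    rw [hJ, add_mul, mul_add, one_mul, mul_one, hN, ← Matrix.mul_kronecker_mul, ← Matrix.mul_kronecker_mul,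
      one_mul, mul_one]
  · rintro ⟨a, b, hab⟩
    have hv : ∀ c d, (a : Matrix _ _ F) c.1 d.1 * (b : Matrix _ _ F) c.2 d.2 = (1 + N) c d := by
      intro c d
      have := congrFun (congrFun hab c) d
      rw [hM] at this
      exact this.symm
    have h1 := hv ((0 : Fin 2), i₀) ((0 : Fin 2), i₀)
    have h3 := hv ((0 : Fin 2), i₀) ((1 : Fin 2), i₀)
    have h4 := hv ((0 : Fin 2), i₀) ((1 : Fin 2), i₁)
    simp [hN, hE, hω, hne, Ne.symm hne] at h1 h3 h4
    rcases h3 with h3 | h3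
    · rw [h3, zero_mul] at h4
      exact zero_ne_one h4
    · rw [h3, mul_zero] at h1
      exact zero_ne_one h1

/-- **`SL` over the field with two elements, a tensor factor of dimension two.** -/
theorem q2_tensor_sl (hq : Fintype.card F = 2) {i₀ i₁ : Fin l} (hne : i₀ ≠ i₁) (e : ι ≃ Fin 2 × Fin l)
    (P : GL ι F) :
    ∃ K : Subgroup (GL ι F), tensorProductSubgroup 2 l e P ⊓ specialLinear ι F < K ∧ K < specialLinear ι F := by
  have h2 := Cfsg.Agent.Lib.NotMax.Sp2.two_eq_zero hq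
  have h01 := Cfsg.Agent.Lib.NotMax.Sp2.eq_zero_or_one hq
  have hSL : ∀ g : GL ι F, g ∈ specialLinear ι F := by
    intro g
    rw [mem_specialLinear_iff]
    have := (Matrix.isUnit_iff_isUnit_det _).mp g.isUnit
    exact (h01 _).resolve_left this.ne_zero
  obtain ⟨M, hMc, hMk⟩ := exists_comm_not_kronecker (F := F) h2 hne
  obtain ⟨s, hs⟩ := exists_not_invNorm (F := F) h2 hne
  refine ⟨invNorm (Psi e P (J0 h2)), lt_of_le_of_ne ?_ ?_, lt_of_le_of_ne (fun g _ => hSL g) ?_⟩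
  · exact inf_le_left.trans (tensor_le_invNorm hq e P)
  · intro h
    have h3 : Psi e P M ∈ invNorm (Psi e P (J0 h2)) :=
      (mem_invNorm_Psi e P).mpr (mem_invNorm_of_comm hMc)
    rw [← h] at h3
    obtain ⟨M', hM', h4⟩ := (mem_tensor_iff e P).mp h3.1
    rw [(Psi e P).injective h4] at hM'
    exact hMk hM'
  · intro h
    have h3 : Psi e P s ∈ invNorm (Psi e P (J0 h2)) := by
      rw [h]
      exact hSL _
    exact hs ((mem_invNorm_Psi e P).mp h3)

/-! The chain for `Ω`. -/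

/-- The data of the element of order three and a symplectic form on the plane. -/
theorem ww_data (hq : Fintype.card F = 2) {f₁ : (Fin 2 → F) → (Fin 2 → F) → F} (hf₁ : IsSymplecticForm f₁) :
    ∃ e₀ e₁ : Fin 2 → F, e₀ ≠ 0 ∧ f₁ e₀ e₀ = 0 ∧ f₁ e₁ e₁ = 0 ∧ f₁ e₀ e₁ = 1 ∧ f₁ e₁ e₀ = 1 ∧
      ((ww (Cfsg.Agent.Lib.NotMax.Sp2.two_eq_zero hq) : GL (Fin 2) F) : Matrix (Fin 2) (Fin 2) F) *ᵥ e₀ = e₁ ∧
      ((ww (Cfsg.Agent.Lib.NotMax.Sp2.two_eq_zero hq) : GL (Fin 2) F) : Matrix (Fin 2) (Fin 2) F) *ᵥ e₁ = e₀ + e₁ ∧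
      (((ww (Cfsg.Agent.Lib.NotMax.Sp2.two_eq_zero hq))⁻¹ : GL (Fin 2) F) : Matrix (Fin 2) (Fin 2) F) *ᵥ e₀ = e₀ + e₁ ∧
      (∀ x x', f₁ (((ww (Cfsg.Agent.Lib.NotMax.Sp2.two_eq_zero hq) : GL (Fin 2) F) : Matrix (Fin 2) (Fin 2) F) *ᵥ x)
        (((ww (Cfsg.Agent.Lib.NotMax.Sp2.two_eq_zero hq) : GL (Fin 2) F) : Matrix (Fin 2) (Fin 2) F) *ᵥ x') = f₁ x x') ∧
      (∀ x, ((ww (Cfsg.Agent.Lib.NotMax.Sp2.two_eq_zero hq) : GL (Fin 2) F) : Matrix (Fin 2) (Fin 2) F) *ᵥ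
        (((ww (Cfsg.Agent.Lib.NotMax.Sp2.two_eq_zero hq) : GL (Fin 2) F) : Matrix (Fin 2) (Fin 2) F) *ᵥ x) =
          x + ((ww (Cfsg.Agent.Lib.NotMax.Sp2.two_eq_zero hq) : GL (Fin 2) F) : Matrix (Fin 2) (Fin 2) F) *ᵥ x) := by
  have h2 := Cfsg.Agent.Lib.NotMax.Sp2.two_eq_zero hq
  have h01 := Cfsg.Agent.Lib.NotMax.Sp2.eq_zero_or_one hq
  have hb := hf₁.bilinear
  set W : Matrix (Fin 2) (Fin 2) F := ((ww h2 : GL (Fin 2) F) : Matrix (Fin 2) (Fin 2) F) with hW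
  have hWv : ∀ x : Fin 2 → F, W *ᵥ x = ![x 1, x 0 + x 1] := by
    intro x
    funext i
    fin_cases i <;> simp [hW, ww_val, Matrix.mulVec, dotProduct, Fin.sum_univ_two]
  have hWi : ∀ x : Fin 2 → F, (((ww h2)⁻¹ : GL (Fin 2) F) : Matrix (Fin 2) (Fin 2) F) *ᵥ x = ![x 0 + x 1, x 0] := by
    intro x
    rw [ww_inv_val]
    funext i
    fin_cases i <;> simp [Matrix.mulVec, dotProduct, Fin.sum_univ_two]
  set e₀ : Fin 2 → F := ![1, 0] with he₀
  set e₁ : Fin 2 → F := ![0, 1] with he₁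
  have hdec : ∀ x : Fin 2 → F, x = x 0 • e₀ + x 1 • e₁ := by
    intro x
    funext i
    fin_cases i <;> simp [he₀, he₁]
  have he₀0 : e₀ ≠ 0 := by
    intro h
    have := congrFun h 0
    simp [he₀] at this
  have h00 : f₁ e₀ e₀ = 0 := hf₁.alternating _
  have h11 : f₁ e₁ e₁ = 0 := hf₁.alternating _
  have hne1 : ∀ {x : F}, x ≠ 0 → x = 1 := fun {x} hx => (h01 x).resolve_left hx
  have hκ : f₁ e₀ e₁ = 1 := by
    apply hne1
    intro h0
    obtain ⟨x, hx⟩ := (hf₁.nondegenerate e₀ he₀0).2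
    apply hx
    rw [hdec x, hb.add_right, hb.smul_right, hb.smul_right, h00, h0]
    ring
  have hκ' : f₁ e₁ e₀ = 1 := by
    rw [hf₁.skew, hκ]
    linear_combination -h2
  have hform : ∀ x x' : Fin 2 → F, f₁ x x' = x 0 * x' 1 + x 1 * x' 0 := by
    intro x x'
    conv_lhs => rw [hdec x, hdec x']
    simp only [hb.add_left, hb.add_right, hb.smul_left, hb.smul_right, h00, h11, hκ, hκ']
    ring
  refine ⟨e₀, e₁, he₀0, h00, h11, hκ, hκ', ?_, ?_, ?_, ?_, ?_⟩
  · rw [hWv]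
    funext i
    fin_cases i <;> simp [he₀, he₁]
  · rw [hWv]
    funext i
    fin_cases i <;> simp [he₀, he₁]
  · rw [hWi]
    funext i
    fin_cases i <;> simp [he₀, he₁]
  · intro x x'
    rw [hWv, hWv, hform, hform]
    simp
    linear_combination (x 1 * x' 1) * h2
  · intro x
    rw [hWv, hWv]
    funext i
    fin_cases i
    · simp
    · simp

/-- **`Ω` over the field with two elements, a tensor factor of dimension two.** -/
theorem q2_tensor_omega (hq : Fintype.card F = 2) {Q : (ι → F) → F} (hQ : IsNondegenerateQuadraticForm Q)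
    (hn : 7 ≤ Fintype.card ι) (hl : 2 < l) (e : ι ≃ Fin 2 × Fin l) (P : GL ι F)
    {f₁ : (Fin 2 → F) → (Fin 2 → F) → F} {f₂ : (Fin l → F) → (Fin l → F) → F}
    (hf₁ : IsSymplecticForm f₁) (hf₂ : IsSymplecticForm f₂)
    (hT : IsTensorFormStructure id (QuadraticMap.polar Q) f₁ f₂ e P)
    (hpure : ∀ x y, Q (TT e P x y) = 0) :
    ∃ K : Subgroup (GL ι F), tensorProductSubgroup 2 l e P ⊓ omegaGL Q < K ∧ K < omegaGL Q := by
  have h2 := Cfsg.Agent.Lib.NotMax.Sp2.two_eq_zero hq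
  have h01 := Cfsg.Agent.Lib.NotMax.Sp2.eq_zero_or_one hq
  have hne1 : ∀ {x : F}, x ≠ 0 → x = 1 := fun {x} hx => (h01 x).resolve_left hx
  obtain ⟨c, hc, hT⟩ := hT
  have hc1 : c = 1 := hne1 hc
  have hTm := isTensorMap_TT e P
  set T := TT e P with hTdef
  have hlaw : ∀ x y x' y', pol Q (T x y) (T x' y') = f₁ x x' * f₂ y y' := by
    intro x y x' y'
    have e2 : pol Q (T x y) (T x' y') = _ :=
      form_T id (fun _ _ => rfl) hT (formOfGram_bilinear hf₁.bilinear) (formOfGram_bilinear hf₂.bilinear) x x' y y'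
    rw [e2, hc1, one_mul]
  obtain ⟨e₀, e₁, he₀0, h00, h11, h0₁, h1₀, hwe₀, hwe₁, hie₀, hwiso, hwsq⟩ := ww_data hq hf₁
  set J := Psi e P (J0 h2) with hJ
  set W : Matrix (Fin 2) (Fin 2) F := ((ww h2 : GL (Fin 2) F) : Matrix (Fin 2) (Fin 2) F) with hW
  have hJT : ∀ x y, (J : Matrix ι ι F) *ᵥ T x y = T (W *ᵥ x) y := by
    intro x y
    have := Psi_T e P (ww h2) 1 (J0 h2) rfl x y
    simpa using this
  have hJiT : ∀ x y, ((J⁻¹ : GL ι F) : Matrix ι ι F) *ᵥ T x y =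
      T ((((ww h2)⁻¹ : GL (Fin 2) F) : Matrix (Fin 2) (Fin 2) F) *ᵥ x) y := by
    intro x y
    have h3 : (J⁻¹ : GL ι F) = Psi e P (kron (ww h2)⁻¹ 1) := by
      rw [hJ, ← map_inv, J0, ← inv_one, kron_inv, inv_one]
    rw [h3]
    have := Psi_T e P (ww h2)⁻¹ 1 (kron (ww h2)⁻¹ 1) rfl x y
    simpa using this
  -- the isometry
  have hJiso : ∀ z z', pol Q ((J : Matrix ι ι F) *ᵥ z) ((J : Matrix ι ι F) *ᵥ z') = pol Q z z' := by
    intro z z'
    revert z'
    refine span_TT e P (fun z => ∀ z', pol Q ((J : Matrix ι ι F) *ᵥ z) ((J : Matrix ι ι F) *ᵥ z') = pol Q z z')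
      ?_ ?_ ?_ z
    · intro z'
      rw [Matrix.mulVec_zero, pol_zero_left hQ, pol_zero_left hQ]
    · intro u v hu hv z'
      rw [Matrix.mulVec_add, pol_add_left hQ, pol_add_left hQ, hu, hv]
    · intro x y z'
      refine span_TT e P (fun z' => pol Q ((J : Matrix ι ι F) *ᵥ T x y) ((J : Matrix ι ι F) *ᵥ z') = pol Q (T x y) z')
        ?_ ?_ ?_ z'
      · rw [Matrix.mulVec_zero, pol_zero_right hQ, pol_zero_right hQ]
      · intro u v hu hv
        rw [Matrix.mulVec_add, pol_add_right hQ, pol_add_right hQ, hu, hv]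
      · intro x' y'
        rw [hJT, hJT, hlaw, hlaw, hwiso]
  have hJsq : ∀ z, (J : Matrix ι ι F) *ᵥ ((J : Matrix ι ι F) *ᵥ z) = z + (J : Matrix ι ι F) *ᵥ z := by
    refine span_TT e P _ ?_ ?_ ?_
    · simp
    · intro u v hu hv
      rw [Matrix.mulVec_add, Matrix.mulVec_add, hu, hv]
      abel
    · intro x y
      rw [hJT, hJT, hwsq, hTm.add_left]
  -- the vectors
  have hl0 : 0 < l := by omega
  obtain ⟨w₁, hw₁⟩ : ∃ w₁ : Fin l → F, w₁ ≠ 0 := by
    refine ⟨Pi.single ⟨0, hl0⟩ 1, fun h => ?_⟩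
    have := congrFun h ⟨0, hl0⟩
    simp at this
  obtain ⟨y₂, hy₂⟩ := (hf₂.nondegenerate w₁ hw₁).1
  have hy₂1 : f₂ y₂ w₁ = 1 := hne1 hy₂
  obtain ⟨w₂, hw₂, h21, h2y⟩ := exists_perp_two hf₂.bilinear.add_left hf₂.bilinear.smul_left
    (by simpa using hl) w₁ y₂
  have h12 : f₂ w₁ w₂ = 0 := by rw [hf₂.skew, h21, neg_zero]
  have hy2 : f₂ y₂ w₂ = 0 := by rw [hf₂.skew, h2y, neg_zero]
  have hw11 := hf₂.alternating w₁
  have hw22 := hf₂.alternating w₂
  -- the first Eichler transformation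
  set u := T e₀ w₁ + T e₁ w₂ with hu
  set Ju := T e₁ w₁ + T (e₀ + e₁) w₂ with hJu
  have hJu' : (J : Matrix ι ι F) *ᵥ u = Ju := by
    rw [hu, Matrix.mulVec_add, hJT, hJT, hwe₀, hwe₁]
  have hQu : Q u = 0 := by
    rw [hu, Q_add hQ, hpure, hpure, hlaw, h12, mul_zero, add_zero, add_zero]
  have hQJu : Q Ju = 0 := by
    rw [hJu, Q_add hQ, hpure, hpure, hlaw, h12, mul_zero, add_zero, add_zero]
  have huJu : pol Q u Ju = 0 := by
    rw [hu, hJu]
    simp only [pol_add_left hQ, pol_add_right hQ, hlaw, h12, hw11, hw22, h11]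
    ring
  obtain ⟨w, hw⟩ := exists_eich hQ hQu huJu
  have hwG := Eich.mem_omega hQ hn hw hQu huJu
  have hwf : ∀ z, (w : Matrix ι ι F) *ᵥ z = z + pol Q z Ju • u - pol Q z u • Ju := by
    intro z
    rw [hw z, hQJu]
    simp
  have hwJ : w * J = J * w := by
    apply gl_ext_mulVec
    intro z
    have h3 : pol Q ((J : Matrix ι ι F) *ᵥ z) Ju = pol Q z u := by
      rw [← hJu', hJiso]
    have h4 : pol Q ((J : Matrix ι ι F) *ᵥ z) u = pol Q z Ju + pol Q z u := by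
      have := hJiso ((J : Matrix ι ι F) *ᵥ z) u
      rw [hJsq, hJu', pol_add_left hQ, h3] at this
      exact this.symm
    have h5 : (J : Matrix ι ι F) *ᵥ Ju = u + Ju := by
      rw [← hJu', hJsq]
    rw [Units.val_mul, Units.val_mul, ← Matrix.mulVec_mulVec, ← Matrix.mulVec_mulVec, hwf, hwf, h3, h4,
      Matrix.mulVec_sub, Matrix.mulVec_add, Matrix.mulVec_smul, Matrix.mulVec_smul, hJu', h5]
    funext i
    simp only [Pi.add_apply, Pi.sub_apply, Pi.smul_apply, smul_eq_mul]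
    linear_combination (pol Q z u * u i - pol Q z Ju * Ju i) * h2
  -- the second Eichler transformation
  have hQp : Q (T e₀ w₁) = 0 := hpure _ _
  have hpβ : pol Q (T e₀ w₁) (T e₀ w₂) = 0 := by rw [hlaw, h00, zero_mul]
  obtain ⟨s, hs⟩ := exists_eich hQ hQp hpβ
  have hsG := Eich.mem_omega hQ hn hs hQp hpβ
  have hsf : ∀ z, (s : Matrix ι ι F) *ᵥ z = z + pol Q z (T e₀ w₂) • T e₀ w₁ - pol Q z (T e₀ w₁) • T e₀ w₂ := by
    intro z
    rw [hs z, hpure]
    simp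
  have hs0 : (s : Matrix ι ι F) *ᵥ T e₀ y₂ = T e₀ y₂ := by
    rw [hsf, hlaw, hlaw, h00]
    simp
  have hs1 : (s : Matrix ι ι F) *ᵥ T e₁ y₂ = T e₁ y₂ - T e₀ w₂ := by
    rw [hsf, hlaw, hlaw, h1₀, hy2, hy₂1]
    simp
  refine ⟨invNorm J ⊓ omegaGL Q, lt_of_le_of_ne ?_ ?_, lt_of_le_of_ne inf_le_right ?_⟩
  · exact fun g hg => ⟨tensor_le_invNorm hq e P hg.1, hg.2⟩
  · intro h
    have hwK : w ∈ invNorm J ⊓ omegaGL Q := ⟨mem_invNorm_of_comm hwJ, hwG⟩
    rw [← h] at hwK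
    obtain ⟨a, b, hab⟩ := mem_tensor e P hwK.1
    have h3 : (w : Matrix ι ι F) *ᵥ T e₀ y₂ = T ((a : Matrix (Fin 2) (Fin 2) F) *ᵥ e₀) ((b : Matrix (Fin l) (Fin l) F) *ᵥ y₂) :=
      hab e₀ y₂
    rw [hwf, hu, hJu] at h3
    simp only [pol_add_right hQ, hlaw, h00, h0₁, hy2, hy₂1] at h3
    set x' := (a : Matrix (Fin 2) (Fin 2) F) *ᵥ e₀ with hx'
    set y' := (b : Matrix (Fin l) (Fin l) F) *ᵥ y₂ with hy'
    have hE : T e₀ y₂ + T e₀ w₁ + T e₁ w₂ = T x' y' := by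
      rw [← h3]
      simp only [zero_mul, one_mul, mul_zero, add_zero, one_smul, zero_smul, sub_zero]
      abel
    obtain ⟨t₀, ht₀⟩ := (hf₂.nondegenerate w₂ hw₂).2
    have hB : ∀ t, f₂ w₂ t = f₁ x' e₀ * f₂ y' t := by
      intro t
      have h4 := congrArg (fun z => pol Q z (T e₀ t)) hE
      simp only [pol_add_left hQ, hlaw, h00, h1₀] at h4
      linear_combination h4
    have hr : f₁ x' e₀ = 1 := by
      apply hne1
      intro h0
      rw [hB, h0, zero_mul] at ht₀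
      exact ht₀ rfl
    have hB' : ∀ t, f₂ y' t = f₂ w₂ t := by
      intro t
      rw [hB, hr, one_mul]
    have h5 := congrArg (fun z => pol Q z (T e₁ w₁)) hE
    simp only [pol_add_left hQ, hlaw, h0₁, h11, hy₂1, hw11, hB', h21] at h5
    have : (1 : F) = 0 := by linear_combination h5
    exact one_ne_zero this
  · intro h
    have hsK : s ∈ invNorm J ⊓ omegaGL Q := by
      rw [h]
      exact hsG
    have hβ0 : T e₀ w₂ ≠ 0 := hTm.ne_zero he₀0 hw₂
    have hsJ : (s : Matrix ι ι F) *ᵥ ((J : Matrix ι ι F) *ᵥ T e₀ y₂) = T e₁ y₂ - T e₀ w₂ := by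
      rw [hJT, hwe₀, hs1]
    rcases mem_invNorm' hsK.1 with h3 | h3
    · have h4 := congrArg (fun A : GL ι F => A.val *ᵥ T e₀ y₂) h3
      beta_reduce at h4
      rw [Units.val_mul, Units.val_mul, ← Matrix.mulVec_mulVec, ← Matrix.mulVec_mulVec, hsJ, hs0, hJT, hwe₀] at h4
      apply hβ0
      have : T e₁ y₂ - T e₀ w₂ = T e₁ y₂ - 0 := by rw [sub_zero]; exact h4
      exact sub_right_injective this
    · have h4 := congrArg (fun A : GL ι F => A.val *ᵥ T e₀ y₂) h3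
      beta_reduce at h4
      rw [Units.val_mul, Units.val_mul, ← Matrix.mulVec_mulVec, ← Matrix.mulVec_mulVec, hsJ, hs0, hJiT, hie₀,
        hTm.add_left] at h4
      have h5 : T e₀ y₂ = - T e₀ w₂ := by
        rw [sub_eq_add_neg, add_comm (T e₀ y₂)] at h4
        exact (add_left_cancel h4).symm
      have h6 := congrArg (fun z => pol Q z (T e₁ w₁)) h5
      simp only [pol_neg_left hQ, hlaw, h0₁, hy₂1, h21] at h6
      have : (1 : F) = 0 := by linear_combination h6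
      exact one_ne_zero this

end Two

end Cfsg.Agent.Lib.NotMax.Tensor
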