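/-
`Ω` of plus type: decompositions into small plus type subspaces whose stabilisers are not maximal.
-/
import Cfsg.Agent.Lib.NotMax.OmegaFrame
import Cfsg.Agent.Lib.NotMax.Sp2
set_option autoImplicit false

namespace Cfsg.Agent.Lib.NotMax.OmegaFrame

open Cfsg Cfsg.Geo Cfsg.Agent.Lib.Geo.Basic Cfsg.Agent.Lib.Geo.QForm
open Cfsg.Agent.Lib.GeoOmega.Basic Cfsg.Agent.Lib.GeoOmega.Eichler Cfsg.Agent.Lib.GeoOmega.Levi
open Cfsg.Agent.Lib.GeoOmega.Nondeg Cfsg.Agent.Lib.GeoOmega.Singular Cfsg.Agent.Lib.NotMax.SetStab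
open scoped MatrixGroups Matrix

variable {ι : Type} [Fintype ι] [DecidableEq ι] {F : Type*} [Field F]
variable {Q : (ι → F) → F} {t k : ℕ} {D : Fin t → Submodule F (ι → F)}

set_option linter.unusedSectionVars false
set_option linter.unusedVariables false

section Char
variable [Fintype F]

theorem card_cast_zero : ((Fintype.card F : ℕ) : F) = 0 := by
  simp

end Char

section Q5
variable [Fintype F] (hq : Fintype.card F = 5) (hQ : IsNondegenerateQuadraticForm Q)
include hq hQ

/-- **`q = 5`**: planes of plus type. -/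
theorem q5_not_maximal (hn : 7 ≤ Fintype.card ι)
    (hN : IsNondegenerateMDecomposition (QuadraticMap.polar Q) 2 D)
    (hplus : ∀ i, IsPlusTypeOn Q (D i)) (ht : 4 ≤ t) :
    ∃ K : Subgroup (GL ι F), decompositionStabilizer D ⊓ omegaGL Q < K ∧ K < omegaGL Q := by
  have h5 : (5 : F) = 0 := by
    have := card_cast_zero (F := F)
    rw [hq] at this
    exact_mod_cast this
  have h2 : (2 : F) ≠ 0 := by
    intro h
    have : (1 : F) = 0 := by linear_combination h5 - 2 * h
    exact one_ne_zero this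
  have hnd := fun i => ndOn_of_nondeg hQ (hN.nondegenerate i)
  have hfin := hN.decomp.finrank_eq
  have hhyp := fun i => exists_hyp_of_plus hQ (hnd i) (by rw [hfin]; omega) (hplus i)
  choose e he f hf hQe hQf hef he0 using hhyp
  have hfe : ∀ i, pol Q (f i) (e i) = 1 := fun i => by rw [pol_symm hQ, hef]
  have hee : ∀ i, pol Q (e i) (e i) = 0 := fun i => by rw [pol_self hQ, hQe, mul_zero]
  have hff : ∀ i, pol Q (f i) (f i) = 0 := fun i => by rw [pol_self hQ, hQf, mul_zero]
  have hFP : ∀ i, FP Q (D i) 1 (e i + f i) ((2 : F) • e i + (3 : F) • f i) := by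
    intro i
    refine {
      mem := (D i).add_mem (he i) (hf i)
      mem' := (D i).add_mem ((D i).smul_mem _ (he i)) ((D i).smul_mem _ (hf i))
      Qv := ?_
      Qv' := ?_
      orth := ?_
      fr := ?_ }
    · rw [Q_add hQ, hQe, hQf, hef]
      ring
    · rw [Q_smul_add hQ, hQe, hQf, hef]
      intro h0
      have : (1 : F) = 0 := by linear_combination h0 - h5
      exact one_ne_zero this
    · simp only [pol_add_left hQ, pol_add_right hQ, pol_smul_left hQ, hee, hff, hef, hfe]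
      linear_combination h5
    · intro x hx hxQ
      have hxe := hyp_span hQ (hfin i) (he i) (hf i) (hQe i) (hQf i) (hef i) x hx
      set α := pol Q x (f i) with hα
      set β := pol Q x (e i) with hβ
      have hab : α * β = 1 := by
        rw [hxe, Q_smul_add hQ, hQe, hQf, hef] at hxQ
        linear_combination hxQ
      have hα0 : α ≠ 0 := by
        rintro h
        rw [h, zero_mul] at hab
        exact zero_ne_one hab
      have h4 : α ^ 4 = 1 := by
        have := FiniteField.pow_card_sub_one_eq_one α hα0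
        rwa [hq] at this
      have h6 : (α ^ 2 - 1) * (α ^ 2 + 1) = 0 := by linear_combination h4
      rcases mul_eq_zero.mp h6 with h7 | h7
      · have hβα : β = α := by
          apply mul_left_cancel₀ hα0
          linear_combination hab - h7
        have h8 : (α - 1) * (α + 1) = 0 := by linear_combination h7
        rcases mul_eq_zero.mp h8 with h9 | h9
        · left
          have : α = 1 := by linear_combination h9
          rw [hxe, hβα, this]
          simp
        · right; left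
          have : α = -1 := by linear_combination h9
          rw [hxe, hβα, this]
          simp only [neg_smul, one_smul, neg_add_rev]
          abel
      · right; right
        have hβα : β = -α := by
          apply mul_left_cancel₀ hα0
          linear_combination hab + h7
        rw [pol_add_right hQ, ← hα, ← hβ, hβα]
        ring
  let i₁ : Fin t := ⟨0, by omega⟩
  let i₂ : Fin t := ⟨1, by omega⟩
  let i₃ : Fin t := ⟨2, by omega⟩
  let i₄ : Fin t := ⟨3, by omega⟩
  have h12 : i₁ ≠ i₂ := by simp [i₁, i₂, Fin.ext_iff]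
  have h13 : i₁ ≠ i₃ := by simp [i₁, i₃, Fin.ext_iff]
  have h14 : i₁ ≠ i₄ := by simp [i₁, i₄, Fin.ext_iff]
  have h23 : i₂ ≠ i₃ := by simp [i₂, i₃, Fin.ext_iff]
  have h24 : i₂ ≠ i₄ := by simp [i₂, i₄, Fin.ext_iff]
  have h34 : i₃ ≠ i₄ := by simp [i₃, i₄, Fin.ext_iff]
  have hv0 : ∀ {x : ι → F}, Q x ≠ 0 → x ≠ 0 := by
    rintro x hx rfl
    exact hx (Q_zero hQ)
  have hQ1 : ∀ {x : ι → F}, Q x = 1 → Q x ≠ 0 := fun h => by rw [h]; exact one_ne_zero
  obtain ⟨s, hs, hsm⟩ := exists_moved hQ hn hN h12 (x₀ := e i₁ + f i₁) (p := e i₁) (b' := e i₂ + f i₂)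
    (hFP _).mem (hQ1 (hFP _).Qv) (he _) (hQe _)
    (by rw [pol_add_left hQ, hee, hfe, zero_add]; exact one_ne_zero) (hFP _).mem
    (hv0 (hQ1 (hFP _).Qv))
  exact frame_not_maximal hQ hN hn h2 one_ne_zero h12 h13 h14 h23 h24 h34 (hFP _).mem (hFP _).mem (hFP _).mem
    (hFP _).mem (hFP _).Qv (hFP _).Qv (hFP _).Qv (hFP _).Qv (hFP _).mem' (hv0 (hFP _).Qv') (hFP _).orth
    (hFP _).fr (hFP _).fr (hFP _).fr (hFP _).fr s hs hsm

end Q5

section Q2
variable [Fintype F] (hq : Fintype.card F = 2) (hQ : IsNondegenerateQuadraticForm Q)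
include hq hQ

omit [Fintype ι] [DecidableEq ι] hQ in
theorem q2_cases (x : F) : x = 0 ∨ x = 1 := Cfsg.Agent.Lib.NotMax.Sp2.eq_zero_or_one hq x

omit [Fintype ι] [DecidableEq ι] hQ in
theorem q2_two : (2 : F) = 0 := Cfsg.Agent.Lib.NotMax.Sp2.two_eq_zero hq

/-- **`q = 2`**: planes of plus type. -/
theorem q2_plane_not_maximal (hn : 7 ≤ Fintype.card ι)
    (hN : IsNondegenerateMDecomposition (QuadraticMap.polar Q) 2 D)
    (hplus : ∀ i, IsPlusTypeOn Q (D i)) (ht : 3 ≤ t) :
    ∃ K : Subgroup (GL ι F), decompositionStabilizer D ⊓ omegaGL Q < K ∧ K < omegaGL Q := by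
  have h2 := q2_two (F := F) hq
  have h01 := q2_cases (F := F) hq
  have hnd := fun i => ndOn_of_nondeg hQ (hN.nondegenerate i)
  have hfin := hN.decomp.finrank_eq
  have hhyp := fun i => exists_hyp_of_plus hQ (hnd i) (by rw [hfin]; omega) (hplus i)
  choose e he f hf hQe hQf hef he0 using hhyp
  have hfe : ∀ i, pol Q (f i) (e i) = 1 := fun i => by rw [pol_symm hQ, hef]
  have hee : ∀ i, pol Q (e i) (e i) = 0 := fun i => by rw [pol_self hQ, hQe, mul_zero]
  have hff : ∀ i, pol Q (f i) (f i) = 0 := fun i => by rw [pol_self hQ, hQf, mul_zero]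
  let a : Fin t → ι → F := fun i => e i + f i
  have ham : ∀ i, a i ∈ D i := fun i => (D i).add_mem (he i) (hf i)
  have hQa : ∀ i, Q (a i) = 1 := fun i => by
    simp only [a]
    rw [Q_add hQ, hQe, hQf, hef]
    ring
  have hsel : ∀ i, ∀ x ∈ D i, Q x = 1 → x = a i := by
    intro i x hx hxQ
    have hxe := hyp_span hQ (hfin i) (he i) (hf i) (hQe i) (hQf i) (hef i) x hx
    set α := pol Q x (f i) with hα
    set β := pol Q x (e i) with hβ
    have hab : α * β = 1 := by
      rw [hxe, Q_smul_add hQ, hQe, hQf, hef] at hxQ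
      linear_combination hxQ
    have hα1 : α = 1 := by
      rcases h01 α with h | h
      · rw [h, zero_mul] at hab
        exact absurd hab zero_ne_one
      · exact h
    have hβ1 : β = 1 := by
      rcases h01 β with h | h
      · rw [h, mul_zero] at hab
        exact absurd hab zero_ne_one
      · exact h
    rw [hxe, hα1, hβ1, one_smul, one_smul]
  let i₁ : Fin t := ⟨0, by omega⟩
  let i₂ : Fin t := ⟨1, by omega⟩
  let i₃ : Fin t := ⟨2, by omega⟩
  have h12 : i₁ ≠ i₂ := by simp [i₁, i₂, Fin.ext_iff]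
  have h13 : i₁ ≠ i₃ := by simp [i₁, i₃, Fin.ext_iff]
  have h23 : i₂ ≠ i₃ := by simp [i₂, i₃, Fin.ext_iff]
  have hv0 : ∀ {x : ι → F}, Q x ≠ 0 → x ≠ 0 := by
    rintro x hx rfl
    exact hx (Q_zero hQ)
  have haa : ∀ i j, pol Q (a i) (a j) = 0 := by
    intro i j
    by_cases hij : i = j
    · subst hij
      rw [pol_self hQ, h2, zero_mul]
    · exact ortho hN hij (ham i) (ham j)
  have hae : ∀ i, pol Q (a i) (e i) = 1 := fun i => by
    simp only [a]
    rw [pol_add_left hQ, hee, hfe, zero_add]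
  have hef' : ∀ i, pol Q (e i) (a i) = 1 := fun i => by rw [pol_symm hQ, hae]
  have hfa : ∀ i, pol Q (f i) (a i) = 1 := fun i => by
    simp only [a]
    rw [pol_add_right hQ, hfe, hff, add_zero]
  -- the element
  set p := a i₁ + a i₂ with hp
  set b := e i₁ + e i₂ + a i₃ with hb
  have hQp : Q p = 0 := by
    rw [hp, Q_add hQ, hQa, hQa, haa]
    linear_combination h2
  have hpb : pol Q p b = 0 := by
    rw [hp, hb]
    simp only [pol_add_left hQ, pol_add_right hQ]
    rw [hae, hae, haa, haa, ortho hN h12 (ham i₁) (he i₂), ortho hN h12.symm (ham i₂) (he i₁)]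
    linear_combination h2
  obtain ⟨w, hw⟩ := exists_eich hQ hQp hpb
  have hwG := Eich.mem_omega hQ hn hw hQp hpb
  have hwa : ∀ l, (w : Matrix ι ι F) *ᵥ a l = a l + pol Q (a l) b • p := by
    intro l
    have h3 : pol Q (a l) p = 0 := by
      rw [hp, pol_add_right hQ, haa, haa, add_zero]
    rw [hw, h3, zero_smul, sub_zero, mul_zero, zero_smul, sub_zero]
  have hab : ∀ l, pol Q (a l) b = (if l = i₁ then 1 else 0) + (if l = i₂ then 1 else 0) := by
    intro l
    rw [hb, pol_add_right hQ, pol_add_right hQ, haa, add_zero]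
    congr 1
    · by_cases h3 : l = i₁
      · rw [h3, hae, if_pos rfl]
      · rw [if_neg h3]
        exact ortho hN h3 (ham l) (he i₁)
    · by_cases h3 : l = i₂
      · rw [h3, hae, if_pos rfl]
      · rw [if_neg h3]
        exact ortho hN h3 (ham l) (he i₂)
  obtain ⟨s, hs, hsm⟩ := exists_moved hQ hn hN h12 (x₀ := a i₁) (p := e i₁) (b' := e i₂)
    (ham _) (by rw [hQa]; exact one_ne_zero) (he _) (hQe _) (by rw [hae]; exact one_ne_zero) (he _) (he0 _)
  refine not_maximal_of_set {x | ∃ l, x ∈ D l ∧ Q x = 1} inf_le_right ?_ w hwG ?_ ?_ s hs (a i₁)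
    ⟨i₁, ham _, hQa _⟩ ?_
  · rintro h ⟨⟨σ, hσ⟩, hG⟩ x ⟨l, hxl, hxQ⟩
    refine ⟨σ l, ?_, ?_⟩
    · rw [← hσ l]
      exact ⟨x, hxl, rfl⟩
    · rw [(mem_isometryGroup_iff Q _).mp (omegaGL_le_isometryGroup Q hG) x, hxQ]
  · rintro x ⟨l, hxl, hxQ⟩
    have hxa := hsel l x hxl hxQ
    rw [hxa, hwa, hab]
    by_cases h3 : l = i₁
    · refine ⟨i₂, ?_, ?_⟩
      · rw [h3, if_pos rfl, if_neg h12, add_zero, one_smul, hp]
        have : a i₁ + (a i₁ + a i₂) = a i₂ := by
          ext j
          simp only [Pi.add_apply]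
          linear_combination (a i₁ j) * h2
        rw [this]
        exact ham _
      · rw [h3, if_pos rfl, if_neg h12, add_zero, one_smul, hp]
        have : a i₁ + (a i₁ + a i₂) = a i₂ := by
          ext j
          simp only [Pi.add_apply]
          linear_combination (a i₁ j) * h2
        rw [this]
        exact hQa _
    · by_cases h4 : l = i₂
      · have hthis : a i₂ + (a i₁ + a i₂) = a i₁ := by
          ext j
          simp only [Pi.add_apply]
          linear_combination (a i₂ j) * h2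
        refine ⟨i₁, ?_, ?_⟩
        · rw [h4, if_neg h12.symm, if_pos rfl, zero_add, one_smul, hp, hthis]
          exact ham _
        · rw [h4, if_neg h12.symm, if_pos rfl, zero_add, one_smul, hp, hthis]
          exact hQa _
      · rw [if_neg h3, if_neg h4, add_zero, zero_smul, add_zero]
        exact ⟨l, ham _, hQa _⟩
  · rintro ⟨⟨σ, hσ⟩, -⟩
    have h3 : (w : Matrix ι ι F) *ᵥ e i₃ ∈ D (σ i₃) := by
      rw [← hσ i₃]
      exact ⟨_, he _, rfl⟩
    have h4 : pol Q (e i₃) p = 0 := by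
      rw [hp, pol_add_right hQ, ortho hN h13.symm (he _) (ham _), ortho hN h23.symm (he _) (ham _), add_zero]
    have h5 : pol Q (e i₃) b = 1 := by
      rw [hb, pol_add_right hQ, pol_add_right hQ, ortho hN h13.symm (he _) (he _),
        ortho hN h23.symm (he _) (he _), hef']
      ring
    rw [hw, h4, h5, one_smul, zero_smul, sub_zero, mul_zero, zero_smul, sub_zero] at h3
    refine test_not_mem hN h13 (he i₁) (hf i₃) ?_ ?_ h3
    · rw [pol_add_left hQ, ortho hN h13.symm (he _) (he _), zero_add, hp, pol_add_left hQ, hae,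
        ortho hN h12.symm (ham _) (he _), add_zero]
      exact one_ne_zero
    · rw [pol_add_left hQ, hef, hp, pol_add_left hQ, ortho hN h13 (ham _) (hf _),
        ortho hN h23 (ham _) (hf _)]
      simp
  · rintro ⟨l, hl, -⟩
    exact hsm l hl

omit [Fintype ι] [DecidableEq ι] [Fintype F] hq hQ in
theorem f2_four (h2 : (2 : F) = 0) (a b c d : F) (ha : a = 0 ∨ a = 1) (hb : b = 0 ∨ b = 1)
    (hc : c = 0 ∨ c = 1) (hd : d = 0 ∨ d = 1) (h1 : b + a = 0) (h3 : b + (d + c) = 0)
    (h4 : a * b + c * d = 0) : a = 0 ∧ b = 0 ∧ c = 0 ∧ d = 0 := by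
  rcases ha with rfl | rfl <;> rcases hb with rfl | rfl <;> rcases hc with rfl | rfl <;>
    rcases hd with rfl | rfl <;> simp_all [one_add_one_eq_two]

omit hq in
/-- Cutting off a hyperbolic pair. -/
theorem hyp_step {X : Submodule F (ι → F)} (hX : NDOn Q X) {e f : ι → F} (he : e ∈ X) (hf : f ∈ X)
    (hQe : Q e = 0) (hQf : Q f = 0) (hef : pol Q e f = 1) :
    ∃ E : Submodule F (ι → F), E ≤ X ∧ NDOn Q E ∧ (∀ x ∈ E, pol Q x e = 0 ∧ pol Q x f = 0) ∧
      (∀ x ∈ X, x - pol Q x f • e - pol Q x e • f ∈ E) ∧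
      Module.finrank F X = Module.finrank F E + 2 := by
  have hee : pol Q e e = 0 := by rw [pol_self hQ, hQe, mul_zero]
  have hff : pol Q f f = 0 := by rw [pol_self hQ, hQf, mul_zero]
  have hfe : pol Q f e = 1 := by rw [pol_symm hQ, hef]
  set E : Submodule F (ι → F) := X ⊓ (polB hQ).orthogonal (Submodule.span F {e, f}) with hE
  have hmem : ∀ x, x ∈ E ↔ x ∈ X ∧ pol Q x e = 0 ∧ pol Q x f = 0 := by
    intro x
    rw [hE, Submodule.mem_inf, mem_orth_pair hQ]
  have hdec : ∀ x ∈ X, x - pol Q x f • e - pol Q x e • f ∈ E := by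
    intro x hx
    refine (hmem _).mpr ⟨X.sub_mem (X.sub_mem hx (X.smul_mem _ he)) (X.smul_mem _ hf), ?_, ?_⟩
    · rw [pol_sub_left hQ, pol_sub_left hQ, pol_smul_left hQ, pol_smul_left hQ, hee, hfe]
      ring
    · rw [pol_sub_left hQ, pol_sub_left hQ, pol_smul_left hQ, pol_smul_left hQ, hef, hff]
      ring
  refine ⟨E, inf_le_left, ?_, fun x hx => ((hmem x).mp hx).2, hdec, ?_⟩
  · intro u hu hu0
    obtain ⟨hu1, hu2, hu3⟩ := (hmem u).mp hu
    obtain ⟨u', hu', hne⟩ := hX u hu1 hu0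
    refine ⟨_, hdec u' hu', ?_⟩
    rw [pol_sub_right hQ, pol_sub_right hQ, pol_smul_right hQ, pol_smul_right hQ, hu2, hu3]
    simpa using hne
  · have h1 := Submodule.finrank_sup_add_finrank_inf_eq (Submodule.span F {e, f}) E
    have h3 : Submodule.span F {e, f} ⊔ E = X := by
      apply le_antisymm
      · refine sup_le ?_ inf_le_left
        rw [Submodule.span_le]
        rintro y (rfl | rfl)
        · exact he
        · exact hf
      · intro x hx
        have : x = (pol Q x f • e + pol Q x e • f) + (x - pol Q x f • e - pol Q x e • f) := by abel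
        rw [this]
        refine Submodule.add_mem_sup (Submodule.add_mem _ ?_ ?_) (hdec x hx)
        · exact Submodule.smul_mem _ _ (Submodule.subset_span (by simp))
        · exact Submodule.smul_mem _ _ (Submodule.subset_span (by simp))
    have h4 : Submodule.span F {e, f} ⊓ E = ⊥ := by
      rw [eq_bot_iff]
      rintro x ⟨hx1, hx2⟩
      obtain ⟨r, s, rfl⟩ := Submodule.mem_span_pair.mp hx1
      obtain ⟨-, h5, h6⟩ := (hmem _).mp hx2
      rw [pol_add_left hQ, pol_smul_left hQ, pol_smul_left hQ, hee, hfe] at h5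
      rw [pol_add_left hQ, pol_smul_left hQ, pol_smul_left hQ, hef, hff] at h6
      have hs : s = 0 := by linear_combination h5
      have hr : r = 0 := by linear_combination h6
      simp [hs, hr]
    have hli : LinearIndependent F ![e, f] := by
      rw [LinearIndependent.pair_iff]
      intro s r hsr
      have h5 := congrArg (fun z => pol Q z e) hsr
      have h6 := congrArg (fun z => pol Q z f) hsr
      simp only [pol_add_left hQ, pol_smul_left hQ, hee, hfe, hef, hff, pol_zero_left hQ] at h5 h6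
      constructor
      · linear_combination h6
      · linear_combination h5
    have h7 : Module.finrank F (Submodule.span F {e, f}) = 2 := by
      have h8 := finrank_span_eq_card hli
      have h9 : Set.range ![e, f] = {e, f} := by simp [Set.pair_comm]
      rw [h9] at h8
      simpa using h8
    rw [h3, h4, finrank_bot, h7] at h1
    omega

/-- An anisotropic plane in a four dimensional plus type space over `F₂`. -/
theorem q2_aniso {X : Submodule F (ι → F)} (hX : NDOn Q X) (hfin : Module.finrank F X = 4)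
    (hplus : IsPlusTypeOn Q X) :
    ∃ x ∈ X, ∃ y ∈ X, ∃ e ∈ X, ∃ v ∈ X, Q x = 1 ∧ Q y = 1 ∧ pol Q x y = 1 ∧ Q e = 0 ∧ pol Q x e = 1 ∧
      v ≠ 0 ∧ pol Q v x = 0 ∧ pol Q v y = 0 ∧
      ∀ z ∈ X, pol Q z x = 0 → pol Q z y = 0 → Q z = 0 → z = 0 := by
  have h2 := q2_two (F := F) hq
  have h01 := q2_cases (F := F) hq
  obtain ⟨U, hUX, hU, hfinU⟩ := hplus
  have hUpol : ∀ a ∈ U, ∀ b ∈ U, pol Q a b = 0 := by
    intro a ha b hb
    have h3 := hU _ (U.add_mem ha hb)
    rw [Q_add hQ, hU a ha, hU b hb, zero_add, zero_add] at h3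
    exact h3
  have hU2 : Module.finrank F U = 2 := by omega
  have hUne : U ≠ ⊥ := by
    intro h
    rw [h, finrank_bot] at hU2
    omega
  obtain ⟨e₁, he₁, he₁0⟩ := Submodule.exists_mem_ne_zero_of_ne_bot hUne
  obtain ⟨f₁, hf₁, hQf₁, hef₁⟩ := exists_partner hQ hX (hUX he₁) he₁0 (hU e₁ he₁)
  obtain ⟨E, hEX, hEnd, hEo, hdec, hfinE⟩ := hyp_step hQ hX (hUX he₁) hf₁ (hU e₁ he₁) hQf₁ hef₁
  -- the second singular vector
  obtain ⟨e₂', he₂', he₂'n⟩ : ∃ y ∈ U, y ∉ Submodule.span F {e₁} := by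
    by_contra hcon
    push Not at hcon
    have h3 : U ≤ Submodule.span F {e₁} := fun y hy => hcon y hy
    have h4 := Submodule.finrank_mono h3
    rw [hU2, finrank_span_singleton he₁0] at h4
    omega
  have hQe₁ := hU e₁ he₁
  have hee₁ : pol Q e₁ e₁ = 0 := by rw [pol_self hQ, hQe₁, mul_zero]
  set e₂ := e₂' - pol Q e₂' f₁ • e₁ - pol Q e₂' e₁ • f₁ with he₂def
  have he₂'e₁ : pol Q e₂' e₁ = 0 := hUpol _ he₂' _ he₁
  have he₂E : e₂ ∈ E := hdec _ (hUX he₂')
  have he₂U : e₂ = e₂' - pol Q e₂' f₁ • e₁ := by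
    rw [he₂def, he₂'e₁, zero_smul, sub_zero]
  have he₂Q : Q e₂ = 0 := by
    rw [he₂U]
    exact hU _ (U.sub_mem he₂' (U.smul_mem _ he₁))
  have he₂0 : e₂ ≠ 0 := by
    intro h0
    rw [he₂U] at h0
    apply he₂'n
    rw [sub_eq_zero.mp h0]
    exact Submodule.smul_mem _ _ (Submodule.mem_span_singleton_self e₁)
  obtain ⟨f₂, hf₂, hQf₂, hef₂⟩ := exists_partner hQ hEnd he₂E he₂0 he₂Q
  obtain ⟨E', hEX', hEnd', hEo', hdec', hfinE'⟩ := hyp_step hQ hEnd he₂E hf₂ he₂Q hQf₂ hef₂
  have hE'0 : Module.finrank F E' = 0 := by omega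
  have hE'bot : E' = ⊥ := Submodule.finrank_eq_zero.mp hE'0
  have hfe₁ : pol Q f₁ e₁ = 1 := by rw [pol_symm hQ, hef₁]
  have hfe₂ : pol Q f₂ e₂ = 1 := by rw [pol_symm hQ, hef₂]
  have hff₁ : pol Q f₁ f₁ = 0 := by rw [pol_self hQ, hQf₁, mul_zero]
  have hff₂ : pol Q f₂ f₂ = 0 := by rw [pol_self hQ, hQf₂, mul_zero]
  have hee₂ : pol Q e₂ e₂ = 0 := by rw [pol_self hQ, he₂Q, mul_zero]
  have h1 := (hEo _ he₂E)
  have h3 := (hEo _ hf₂)
  have e₂e₁ := h1.1
  have e₂f₁ := h1.2
  have f₂e₁ := h3.1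
  have f₂f₁ := h3.2
  have e₁e₂ : pol Q e₁ e₂ = 0 := by rw [pol_symm hQ]; exact e₂e₁
  have e₁f₂ : pol Q e₁ f₂ = 0 := by rw [pol_symm hQ]; exact f₂e₁
  have f₁e₂ : pol Q f₁ e₂ = 0 := by rw [pol_symm hQ]; exact e₂f₁
  have f₁f₂ : pol Q f₁ f₂ = 0 := by rw [pol_symm hQ]; exact f₂f₁
  have hcoord : ∀ z ∈ X, z = pol Q z f₁ • e₁ + pol Q z e₁ • f₁ + (pol Q z f₂ • e₂ + pol Q z e₂ • f₂) := by
    intro z hz
    set z₁ := z - pol Q z f₁ • e₁ - pol Q z e₁ • f₁ with hz₁
    have hz₁E := hdec z hz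
    have h5 := hdec' _ hz₁E
    rw [hE'bot, Submodule.mem_bot] at h5
    have hq1 : pol Q z₁ f₂ = pol Q z f₂ := by
      rw [hz₁, pol_sub_left hQ, pol_sub_left hQ, pol_smul_left hQ, pol_smul_left hQ, e₁f₂, f₁f₂]
      ring
    have hq2 : pol Q z₁ e₂ = pol Q z e₂ := by
      rw [hz₁, pol_sub_left hQ, pol_sub_left hQ, pol_smul_left hQ, pol_smul_left hQ, e₁e₂, f₁e₂]
      ring
    rw [hq1, hq2] at h5
    have h6 : z₁ = pol Q z f₂ • e₂ + pol Q z e₂ • f₂ := by
      rw [sub_sub, sub_eq_zero] at h5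
      exact h5
    have h7 : z = pol Q z f₁ • e₁ + pol Q z e₁ • f₁ + z₁ := by
      rw [hz₁]
      abel
    rw [← h6]
    exact h7
  have he₂X : e₂ ∈ X := hEX he₂E
  have hf₂X : f₂ ∈ X := hEX hf₂
  have he₁X : e₁ ∈ X := hUX he₁
  refine ⟨e₁ + f₁, X.add_mem he₁X hf₁, e₁ + (e₂ + f₂), X.add_mem he₁X (X.add_mem he₂X hf₂X), e₁, he₁X,
    e₂ + f₂, X.add_mem he₂X hf₂X, ?_, ?_, ?_, hQe₁, ?_, ?_, ?_, ?_, ?_⟩
  · rw [Q_add hQ, hQe₁, hQf₁, hef₁]
    ring
  · rw [Q_add hQ, Q_add hQ, hQe₁, he₂Q, hQf₂, hef₂, pol_add_right hQ, e₁e₂, e₁f₂]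
    ring
  · simp only [pol_add_left hQ, pol_add_right hQ, hee₁, e₁e₂, e₁f₂, hfe₁, f₁e₂, f₁f₂]
    ring
  · rw [pol_add_left hQ, hee₁, hfe₁, zero_add]
  · intro h0
    have h5 : pol Q (e₂ + f₂) e₂ = 1 := by rw [pol_add_left hQ, hee₂, hfe₂, zero_add]
    rw [h0, pol_zero_left hQ] at h5
    exact zero_ne_one h5
  · simp only [pol_add_left hQ, pol_add_right hQ, e₂e₁, e₂f₁, f₂e₁, f₂f₁]
    ring
  · simp only [pol_add_left hQ, pol_add_right hQ, e₂e₁, f₂e₁, hee₂, hef₂, hfe₂, hff₂]
    linear_combination h2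
  · intro z hz hz1 hz2 hz3
    have hze := hcoord z hz
    set α₁ := pol Q z f₁ with hα₁
    set β₁ := pol Q z e₁ with hβ₁
    set α₂ := pol Q z f₂ with hα₂
    set β₂ := pol Q z e₂ with hβ₂
    have hz1' : β₁ + α₁ = 0 := by
      rw [pol_add_right hQ] at hz1
      exact hz1
    have hz2' : β₁ + (β₂ + α₂) = 0 := by
      rw [pol_add_right hQ, pol_add_right hQ] at hz2
      exact hz2
    have hz3' : α₁ * β₁ + α₂ * β₂ = 0 := by
      rw [hze, Q_add hQ, Q_smul_add hQ, Q_smul_add hQ, pol_add_left hQ] at hz3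
      simp only [pol_add_right hQ, pol_smul_left hQ, pol_smul_right hQ, hQe₁, hQf₁, he₂Q, hQf₂, hef₁, hef₂,
        e₁e₂, e₁f₂, f₁e₂, f₁f₂] at hz3
      linear_combination hz3
    have hzero : α₁ = 0 ∧ β₁ = 0 ∧ α₂ = 0 ∧ β₂ = 0 :=
      f2_four h2 _ _ _ _ (h01 _) (h01 _) (h01 _) (h01 _) hz1' hz2' hz3'
    rw [hze, hzero.1, hzero.2.1, hzero.2.2.1, hzero.2.2.2]
    simp

/-- **`q = 2`**: four dimensional members of plus type. -/
theorem q2_four_not_maximal (hn : 7 ≤ Fintype.card ι)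
    (hN : IsNondegenerateMDecomposition (QuadraticMap.polar Q) 4 D)
    (hplus : ∀ i, IsPlusTypeOn Q (D i)) (ht : 2 ≤ t) :
    ∃ K : Subgroup (GL ι F), decompositionStabilizer D ⊓ omegaGL Q < K ∧ K < omegaGL Q := by
  have h2 := q2_two (F := F) hq
  have h01 := q2_cases (F := F) hq
  have hnd := fun i => ndOn_of_nondeg hQ (hN.nondegenerate i)
  have hfin := hN.decomp.finrank_eq
  have hani := fun i => q2_aniso hq hQ (hnd i) (hfin i) (hplus i)
  choose x hx y hy e he v hv hQx hQy hxy hQe hxe hv0 hvx hvy hani using hani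
  let i₁ : Fin t := ⟨0, by omega⟩
  let i₂ : Fin t := ⟨1, by omega⟩
  have h12 : i₁ ≠ i₂ := by simp [i₁, i₂, Fin.ext_iff]
  have hxx : ∀ i, pol Q (x i) (x i) = 0 := fun i => by rw [pol_self hQ, h2, zero_mul]
  have hyy : ∀ i, pol Q (y i) (y i) = 0 := fun i => by rw [pol_self hQ, h2, zero_mul]
  have hyx : ∀ i, pol Q (y i) (x i) = 1 := fun i => by rw [pol_symm hQ, hxy]
  set p := x i₁ + x i₂ with hp
  set b := y i₁ + y i₂ with hb
  have hQp : Q p = 0 := by
    rw [hp, Q_add hQ, hQx, hQx, ortho hN h12 (hx _) (hx _)]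
    linear_combination h2
  have hQb : Q b = 0 := by
    rw [hb, Q_add hQ, hQy, hQy, ortho hN h12 (hy _) (hy _)]
    linear_combination h2
  have hpb : pol Q p b = 0 := by
    rw [hp, hb]
    simp only [pol_add_left hQ, pol_add_right hQ]
    rw [hxy, hxy, ortho hN h12 (hx _) (hy _), ortho hN h12.symm (hx _) (hy _)]
    linear_combination h2
  obtain ⟨w, hw⟩ := exists_eich hQ hQp hpb
  have hwG := Eich.mem_omega hQ hn hw hQp hpb
  have hwm : ∀ z, (w : Matrix ι ι F) *ᵥ z = z + pol Q z b • p - pol Q z p • b := by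
    intro z
    rw [hw, hQb, zero_mul, zero_smul, sub_zero]
  -- the action on a member
  have hkey : ∀ (i : Fin t) (z : ι → F), z ∈ D i → Q z = 1 → pol Q z (x i) ≠ 0 ∨ pol Q z (y i) ≠ 0 →
      z = pol Q z (y i) • x i + pol Q z (x i) • y i := by
    intro i z hz hzQ hne
    set α := pol Q z (x i) with hα
    set β := pol Q z (y i) with hβ
    set z' := z - β • x i - α • y i with hz'
    have hz'D : z' ∈ D i := (D i).sub_mem ((D i).sub_mem hz ((D i).smul_mem _ (hx i))) ((D i).smul_mem _ (hy i))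
    have h3 : pol Q z' (x i) = 0 := by
      rw [hz', pol_sub_left hQ, pol_sub_left hQ, pol_smul_left hQ, pol_smul_left hQ, hxx, hyx, ← hα]
      ring
    have h4 : pol Q z' (y i) = 0 := by
      rw [hz', pol_sub_left hQ, pol_sub_left hQ, pol_smul_left hQ, pol_smul_left hQ, hxy, hyy, ← hβ]
      ring
    have h5 : z = (β • x i + α • y i) + z' := by
      rw [hz']
      abel
    have h6 : Q (β • x i + α • y i) = 1 := by
      rw [Q_smul_add hQ, hQx, hQy, hxy]
      rcases h01 α with e1 | e1 <;> rcases h01 β with e2 | e2 <;> simp [e1, e2] at hne ⊢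
      linear_combination h2
    have h7 : pol Q (β • x i + α • y i) z' = 0 := by
      rw [pol_add_left hQ, pol_smul_left hQ, pol_smul_left hQ, pol_symm hQ, h3, pol_symm hQ (y i), h4]
      ring
    have h8 : Q z' = 0 := by
      have h9 := hzQ
      rw [h5, Q_add hQ, h6, h7] at h9
      linear_combination h9
    have h10 := hani i z' hz'D h3 h4 h8
    rw [h10, add_zero] at h5
    exact h5
  obtain ⟨s, hs, hsm⟩ := exists_moved hQ hn hN h12 (x₀ := x i₁) (p := e i₁) (b' := x i₂)
    (hx _) (by rw [hQx]; exact one_ne_zero) (he _) (hQe _) (by rw [hxe]; exact one_ne_zero) (hx _)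
    (by
      rintro h0
      have := hQx i₂
      rw [h0, Q_zero hQ] at this
      exact zero_ne_one this)
  have hbz : ∀ i, ∀ z ∈ D i, i ≠ i₁ → i ≠ i₂ → (w : Matrix ι ι F) *ᵥ z = z := by
    intro i z hz h3 h4
    have h5 : pol Q z b = 0 := by
      rw [hb, pol_add_right hQ, ortho hN h3 hz (hy _), ortho hN h4 hz (hy _), add_zero]
    have h6 : pol Q z p = 0 := by
      rw [hp, pol_add_right hQ, ortho hN h3 hz (hx _), ortho hN h4 hz (hx _), add_zero]
    rw [hwm, h5, h6]
    simp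
  refine not_maximal_of_set {z | ∃ l, z ∈ D l ∧ Q z = 1} inf_le_right ?_ w hwG ?_ ?_ s hs (x i₁)
    ⟨i₁, hx _, hQx _⟩ ?_
  · rintro h ⟨⟨σ, hσ⟩, hG⟩ z ⟨l, hzl, hzQ⟩
    refine ⟨σ l, ?_, ?_⟩
    · rw [← hσ l]
      exact ⟨z, hzl, rfl⟩
    · rw [(mem_isometryGroup_iff Q _).mp (omegaGL_le_isometryGroup Q hG) z, hzQ]
  · rintro z ⟨l, hzl, hzQ⟩
    have hisom := (mem_isometryGroup_iff Q _).mp (omegaGL_le_isometryGroup Q hwG) z
    rw [hzQ] at hisom
    have hact : ∀ i j, i ≠ j → p = x i + x j → b = y i + y j → z ∈ D i → Q z = 1 →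
        ∃ l', (w : Matrix ι ι F) *ᵥ z ∈ D l' := by
      intro i j hij hp' hb' hzi hz1
      have hbv : pol Q z b = pol Q z (y i) := by
        rw [hb', pol_add_right hQ, ortho hN hij hzi (hy _), add_zero]
      have hpv : pol Q z p = pol Q z (x i) := by
        rw [hp', pol_add_right hQ, ortho hN hij hzi (hx _), add_zero]
      by_cases h4 : pol Q z (x i) = 0 ∧ pol Q z (y i) = 0
      · refine ⟨i, ?_⟩
        rw [hwm, hbv, hpv, h4.1, h4.2]
        simpa using hzi
      · refine ⟨j, ?_⟩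
        have h5 : pol Q z (x i) ≠ 0 ∨ pol Q z (y i) ≠ 0 := by
          by_contra h6
          push Not at h6
          exact h4 h6
        have h6 := hkey i z hzi hz1 h5
        have aux : ∀ (β α : F) (z' : ι → F), z' = β • x i + α • y i →
            z' + β • (x i + x j) - α • (y i + y j) = β • x j + α • y j := by
          intro β α z' hz'
          subst hz'
          ext l'
          simp only [Pi.add_apply, Pi.sub_apply, Pi.smul_apply, smul_eq_mul]
          linear_combination (β * x i l' - α * y j l') * h2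
        rw [hwm, hbv, hpv, hp', hb', aux _ _ z h6]
        exact (D _).add_mem ((D _).smul_mem _ (hx _)) ((D _).smul_mem _ (hy _))
    by_cases h3 : l = i₁
    · rw [h3] at hzl
      obtain ⟨l', hl'⟩ := hact i₁ i₂ h12 rfl rfl hzl hzQ
      exact ⟨l', hl', hisom⟩
    · by_cases h3' : l = i₂
      · rw [h3'] at hzl
        obtain ⟨l', hl'⟩ := hact i₂ i₁ h12.symm (add_comm _ _) (add_comm _ _) hzl hzQ
        exact ⟨l', hl', hisom⟩
      · exact ⟨l, by rw [hbz l z hzl h3 h3']; exact hzl, hisom⟩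
  · rintro ⟨⟨σ, hσ⟩, -⟩
    have h3 : (w : Matrix ι ι F) *ᵥ x i₁ ∈ D (σ i₁) := by
      rw [← hσ i₁]
      exact ⟨_, hx _, rfl⟩
    have h4 : (w : Matrix ι ι F) *ᵥ v i₁ ∈ D (σ i₁) := by
      rw [← hσ i₁]
      exact ⟨_, hv _, rfl⟩
    have e1 : (w : Matrix ι ι F) *ᵥ x i₁ = x i₂ := by
      have hbv : pol Q (x i₁) b = 1 := by
        rw [hb, pol_add_right hQ, hxy, ortho hN h12 (hx _) (hy _), add_zero]
      have hpv : pol Q (x i₁) p = 0 := by
        rw [hp, pol_add_right hQ, hxx, ortho hN h12 (hx _) (hx _), add_zero]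
      rw [hwm, hbv, hpv, one_smul, zero_smul, sub_zero, hp]
      ext j
      simp only [Pi.add_apply]
      linear_combination (x i₁ j) * h2
    have e2 : (w : Matrix ι ι F) *ᵥ v i₁ = v i₁ := by
      have hbv : pol Q (v i₁) b = 0 := by
        rw [hb, pol_add_right hQ, hvy, ortho hN h12 (hv _) (hy _), add_zero]
      have hpv : pol Q (v i₁) p = 0 := by
        rw [hp, pol_add_right hQ, hvx, ortho hN h12 (hv _) (hx _), add_zero]
      rw [hwm, hbv, hpv]
      simp
    rw [e1] at h3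
    rw [e2] at h4
    have hx0 : x i₂ ≠ 0 := by
      rintro h0
      have := hQx i₂
      rw [h0, Q_zero hQ] at this
      exact zero_ne_one this
    have h5 : i₂ = σ i₁ := eq_of_mem_mem hN (hx _) h3 hx0
    have h6 : i₁ = σ i₁ := eq_of_mem_mem hN (hv _) h4 (hv0 _)
    exact h12 (h6.trans h5.symm)
  · rintro ⟨l, hl, -⟩
    exact hsm l hl

end Q2

section Q4
variable [Fintype F] (hq : Fintype.card F = 4) (hQ : IsNondegenerateQuadraticForm Q)
include hq hQ

/-- **`q = 4`**: planes of plus type. -/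
theorem q4_not_maximal (hn : 7 ≤ Fintype.card ι)
    (hN : IsNondegenerateMDecomposition (QuadraticMap.polar Q) 2 D)
    (hplus : ∀ i, IsPlusTypeOn Q (D i)) (ht : 3 ≤ t) :
    ∃ K : Subgroup (GL ι F), decompositionStabilizer D ⊓ omegaGL Q < K ∧ K < omegaGL Q := by
  classical
  have hpow : ∀ z : F, z ^ 4 = z := fun z => by
    have := FiniteField.pow_card z
    rwa [hq] at this
  have h4 : (4 : F) = 0 := by
    have := card_cast_zero (F := F)
    rw [hq] at this
    exact_mod_cast this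
  have h2 : (2 : F) = 0 := by
    have : (2 : F) * 2 = 0 := by linear_combination h4
    simpa using this
  have hcube : ∀ {z : F}, z ≠ 0 → z ^ 3 = 1 := by
    intro z hz
    apply mul_left_cancel₀ hz
    linear_combination hpow z
  obtain ⟨ω, hω0, hω1⟩ : ∃ ω : F, ω ≠ 0 ∧ ω ≠ 1 := by
    by_contra hcon
    push Not at hcon
    have : Fintype.card F ≤ ({0, 1} : Finset F).card := by
      rw [← Finset.card_univ]
      refine Finset.card_le_card fun x _ => ?_
      by_cases hx : x = 0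
      · simp [hx]
      · simp [hcon x hx]
    have h5 : ({0, 1} : Finset F).card ≤ 2 := Finset.card_le_two
    omega
  have hωω : ω ^ 2 + ω + 1 = 0 := by
    have h3 := hcube hω0
    have h5 : (ω - 1) * (ω ^ 2 + ω + 1) = 0 := by linear_combination h3
    exact (mul_eq_zero.mp h5).resolve_left (sub_ne_zero.mpr hω1)
  have hnd := fun i => ndOn_of_nondeg hQ (hN.nondegenerate i)
  have hfin := hN.decomp.finrank_eq
  have hhyp := fun i => exists_hyp_of_plus hQ (hnd i) (by rw [hfin]; omega) (hplus i)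
  choose e he f hf hQe hQf hef he0 using hhyp
  have hfe : ∀ i, pol Q (f i) (e i) = 1 := fun i => by rw [pol_symm hQ, hef]
  have hee : ∀ i, pol Q (e i) (e i) = 0 := fun i => by rw [pol_self hQ, hQe, mul_zero]
  have hff : ∀ i, pol Q (f i) (f i) = 0 := fun i => by rw [pol_self hQ, hQf, mul_zero]
  -- values on norm one vectors
  have hsame : ∀ i, ∀ x ∈ D i, ∀ y ∈ D i, Q x = 1 → Q y = 1 → (pol Q x y) ^ 2 = pol Q x y := by
    intro i x hx y hy hxQ hyQ
    have hxe := hyp_span hQ (hfin i) (he i) (hf i) (hQe i) (hQf i) (hef i) x hx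
    have hye := hyp_span hQ (hfin i) (he i) (hf i) (hQe i) (hQf i) (hef i) y hy
    set α := pol Q x (f i)
    set β := pol Q x (e i)
    set γ := pol Q y (f i)
    set δ := pol Q y (e i)
    have hab : α * β = 1 := by
      rw [hxe, Q_smul_add hQ, hQe, hQf, hef] at hxQ
      linear_combination hxQ
    have hcd : γ * δ = 1 := by
      rw [hye, Q_smul_add hQ, hQe, hQf, hef] at hyQ
      linear_combination hyQ
    have hα0 : α ≠ 0 := by
      rintro h
      rw [h, zero_mul] at hab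
      exact zero_ne_one hab
    have hγ0 : γ ≠ 0 := by
      rintro h
      rw [h, zero_mul] at hcd
      exact zero_ne_one hcd
    have hβ : β = α ^ 2 := by
      have h3 := hcube hα0
      calc β = (α ^ 3) * β := by rw [h3, one_mul]
        _ = α ^ 2 * (α * β) := by ring
        _ = α ^ 2 := by rw [hab, mul_one]
    have hδ : δ = γ ^ 2 := by
      have h3 := hcube hγ0
      calc δ = (γ ^ 3) * δ := by rw [h3, one_mul]
        _ = γ ^ 2 * (γ * δ) := by ring
        _ = γ ^ 2 := by rw [hcd, mul_one]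
    have hpol : pol Q x y = α * δ + β * γ := by
      rw [hxe, hye]
      simp only [pol_add_left hQ, pol_add_right hQ, pol_smul_left hQ, pol_smul_right hQ, hee, hff, hef, hfe]
      ring
    rw [hpol, hβ, hδ]
    have h5 := hpow α
    have h6 := hpow γ
    linear_combination (α ^ 3 * γ ^ 3) * h2 + (α ^ 2) * h6 + (γ ^ 2) * h5
  have hall : ∀ i l, ∀ x ∈ D i, ∀ y ∈ D l, Q x = 1 → Q y = 1 → (pol Q x y) ^ 2 = pol Q x y := by
    intro i l x hx y hy hxQ hyQ
    by_cases hil : i = l
    · subst hil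
      exact hsame i x hx y hy hxQ hyQ
    · rw [ortho hN hil hx hy]
      simp
  let u : Fin t → ι → F := fun i => e i + f i
  let u' : Fin t → ι → F := fun i => ω • e i + ω ^ 2 • f i
  have hum : ∀ i, u i ∈ D i := fun i => (D i).add_mem (he i) (hf i)
  have hu'm : ∀ i, u' i ∈ D i := fun i => (D i).add_mem ((D i).smul_mem _ (he i)) ((D i).smul_mem _ (hf i))
  have hQu : ∀ i, Q (u i) = 1 := fun i => by
    simp only [u]
    rw [Q_add hQ, hQe, hQf, hef]
    ring
  have hQu' : ∀ i, Q (u' i) = 1 := fun i => by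
    simp only [u']
    rw [Q_smul_add hQ, hQe, hQf, hef]
    linear_combination hcube hω0
  have huu' : ∀ i, pol Q (u i) (u' i) = 1 := fun i => by
    simp only [u, u']
    simp only [pol_add_left hQ, pol_add_right hQ, pol_smul_right hQ, hee, hff, hef, hfe]
    linear_combination hωω - h2
  have hu'u : ∀ i, pol Q (u' i) (u i) = 1 := fun i => by rw [pol_symm hQ, huu']
  let i₁ : Fin t := ⟨0, by omega⟩
  let i₂ : Fin t := ⟨1, by omega⟩
  let i₃ : Fin t := ⟨2, by omega⟩
  have h12 : i₁ ≠ i₂ := by simp [i₁, i₂, Fin.ext_iff]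
  have h13 : i₁ ≠ i₃ := by simp [i₁, i₃, Fin.ext_iff]
  have h23 : i₂ ≠ i₃ := by simp [i₂, i₃, Fin.ext_iff]
  set p := u i₁ + u i₂ with hp
  set b := u' i₁ + u' i₂ + u i₃ with hb
  have hQp : Q p = 0 := by
    rw [hp, Q_add hQ, hQu, hQu, ortho hN h12 (hum _) (hum _)]
    linear_combination h2
  have hQb : Q b = 1 := by
    rw [hb, Q_add hQ, Q_add hQ, hQu', hQu', hQu, ortho hN h12 (hu'm _) (hu'm _), pol_add_left hQ,
      ortho hN h13 (hu'm _) (hum _), ortho hN h23 (hu'm _) (hum _)]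
    linear_combination h2
  have hpb : pol Q p b = 0 := by
    rw [hp, hb]
    simp only [pol_add_left hQ, pol_add_right hQ]
    rw [huu', huu', ortho hN h12 (hum _) (hu'm _), ortho hN h13 (hum _) (hum _),
      ortho hN h12.symm (hum _) (hu'm _), ortho hN h23 (hum _) (hum _)]
    linear_combination h2
  obtain ⟨w, hw⟩ := exists_eich hQ hQp hpb
  have hwG := Eich.mem_omega hQ hn hw hQp hpb
  -- closure of the prime field
  have hBadd : ∀ {a c : F}, a ^ 2 = a → c ^ 2 = c → (a + c) ^ 2 = a + c := by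
    intro a c ha hc
    linear_combination ha + hc + (a * c) * h2
  have hBmul : ∀ {a c : F}, a ^ 2 = a → c ^ 2 = c → (a * c) ^ 2 = a * c := by
    intro a c ha hc
    linear_combination (c ^ 2) * ha + a * hc
  have hBsub : ∀ {a c : F}, a ^ 2 = a → c ^ 2 = c → (a - c) ^ 2 = a - c := by
    intro a c ha hc
    linear_combination ha + hc + (c - a * c) * h2
  -- the second element
  have hbb0 : pol Q (e i₁) (ω • u' i₂) = 0 := ortho hN h12 (he _) ((D _).smul_mem _ (hu'm _))
  obtain ⟨s, hs⟩ := exists_eich hQ (hQe i₁) hbb0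
  have hsG := Eich.mem_omega hQ hn hs (hQe i₁) hbb0
  refine not_maximal_of_set {x | ∀ l, ∀ y ∈ D l, Q y = 1 → (pol Q x y) ^ 2 = pol Q x y} inf_le_right ?_ w hwG ?_ ?_
    s hsG (u i₁) ?_ ?_
  · rintro h ⟨⟨σ, hσ⟩, hG⟩ x hx l y hy hyQ
    have hI := omegaGL_le_isometryGroup Q hG
    have hy' : y ∈ D (σ (σ.symm l)) := by simpa using hy
    rw [← hσ] at hy'
    obtain ⟨z, hz, rfl⟩ := hy'
    rw [Matrix.toLin'_apply] at hyQ ⊢
    rw [(mem_isometryGroup_iff Q _).mp hI z] at hyQ
    rw [pol_isometry h hI]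
    exact hx _ z hz hyQ
  · intro x hx l y hy hyQ
    have hxu : ∀ i, (pol Q x (u i)) ^ 2 = pol Q x (u i) := fun i => hx i _ (hum i) (hQu i)
    have hxu' : ∀ i, (pol Q x (u' i)) ^ 2 = pol Q x (u' i) := fun i => hx i _ (hu'm i) (hQu' i)
    have hpx : (pol Q x p) ^ 2 = pol Q x p := by
      rw [hp, pol_add_right hQ]
      exact hBadd (hxu _) (hxu _)
    have hbx : (pol Q x b) ^ 2 = pol Q x b := by
      rw [hb, pol_add_right hQ, pol_add_right hQ]
      exact hBadd (hBadd (hxu' _) (hxu' _)) (hxu _)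
    have hpy : (pol Q p y) ^ 2 = pol Q p y := by
      rw [hp, pol_add_left hQ]
      exact hBadd (hall _ _ _ (hum _) _ hy (hQu _) hyQ) (hall _ _ _ (hum _) _ hy (hQu _) hyQ)
    have hby : (pol Q b y) ^ 2 = pol Q b y := by
      rw [hb, pol_add_left hQ, pol_add_left hQ]
      exact hBadd (hBadd (hall _ _ _ (hu'm _) _ hy (hQu' _) hyQ) (hall _ _ _ (hu'm _) _ hy (hQu' _) hyQ))
        (hall _ _ _ (hum _) _ hy (hQu _) hyQ)
    have e : pol Q ((w : Matrix ι ι F) *ᵥ x) y =
        pol Q x y + pol Q x b * pol Q p y - pol Q x p * pol Q b y - (1 * pol Q x p) * pol Q p y := by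
      rw [hw, pol_sub_left hQ, pol_sub_left hQ, pol_add_left hQ, pol_smul_left hQ, pol_smul_left hQ,
        pol_smul_left hQ, hQb]
    rw [e]
    have h1B : (1 : F) ^ 2 = 1 := by ring
    exact hBsub (hBsub (hBadd (hx l y hy hyQ) (hBmul hbx hpy)) (hBmul hpx hby)) (hBmul (hBmul h1B hpx) hpy)
  · rintro ⟨⟨σ, hσ⟩, -⟩
    have h3 : (w : Matrix ι ι F) *ᵥ u' i₃ ∈ D (σ i₃) := by
      rw [← hσ i₃]
      exact ⟨_, hu'm _, rfl⟩
    have h4 : pol Q (u' i₃) p = 0 := by
      rw [hp, pol_add_right hQ, ortho hN h13.symm (hu'm _) (hum _), ortho hN h23.symm (hu'm _) (hum _), add_zero]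
    have h5 : pol Q (u' i₃) b = 1 := by
      rw [hb, pol_add_right hQ, pol_add_right hQ, ortho hN h13.symm (hu'm _) (hu'm _),
        ortho hN h23.symm (hu'm _) (hu'm _), hu'u]
      ring
    rw [hw, h4, h5, one_smul, zero_smul, sub_zero, mul_zero, zero_smul, sub_zero] at h3
    refine test_not_mem hN h13 (hu'm i₁) (hum i₃) ?_ ?_ h3
    · rw [pol_add_left hQ, ortho hN h13.symm (hu'm _) (hu'm _), zero_add, hp, pol_add_left hQ, huu',
        ortho hN h12.symm (hum _) (hu'm _), add_zero]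
      exact one_ne_zero
    · rw [pol_add_left hQ, hu'u, hp, pol_add_left hQ, ortho hN h13 (hum _) (hum _),
        ortho hN h23 (hum _) (hum _)]
      simp
  · intro l y hy hyQ
    exact hall _ _ _ (hum _) _ hy (hQu _) hyQ
  · intro hS
    have h1 := hS i₂ (u i₂) (hum _) (hQu _)
    have e1 : pol Q (u i₁) (ω • u' i₂) = 0 := ortho hN h12 (hum _) ((D _).smul_mem _ (hu'm _))
    have e2 : pol Q (u i₁) (e i₁) = 1 := by
      simp only [u]
      rw [pol_add_left hQ, hee, hfe, zero_add]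
    have e3 : pol Q ((s : Matrix ι ι F) *ᵥ u i₁) (u i₂) = - ω := by
      rw [hs, e1, e2, zero_smul, add_zero, pol_sub_left hQ, pol_sub_left hQ, pol_smul_left hQ, pol_smul_left hQ,
        pol_smul_left hQ, ortho hN h12 (hum _) (hum _), ortho hN h12 (he _) (hum _), hu'u]
      ring
    rw [e3] at h1
    have h6 : (1 : F) = 0 := by linear_combination hωω - h1
    exact one_ne_zero h6

end Q4

end Cfsg.Agent.Lib.NotMax.OmegaFrame
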