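/-
`SL_n(q)`: the stabiliser of a decomposition into lines (`q ≤ 4`) or into planes (`q = 2`) is not maximal.
-/
import Cfsg.Agent.Lib.NotMax.Sp2
set_option autoImplicit false

namespace Cfsg.Agent.Lib.NotMax.SLMono

open Cfsg Cfsg.Geo Cfsg.Agent.Lib.Geo.Basic Cfsg.Agent.Lib.Geo.Centres
open scoped MatrixGroups Matrix

variable {ι : Type} [Fintype ι] [DecidableEq ι] {F : Type*} [Field F]

/-- Not maximal, by a form. -/
theorem not_maximal_of_form {t : ℕ} {D : Fin t → Submodule F (ι → F)} (f : (ι → F) → (ι → F) → F)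
    (hH : ∀ g ∈ decompositionStabilizer D ⊓ specialLinear ι F, ∀ u v,
      f ((g : Matrix ι ι F) *ᵥ u) ((g : Matrix ι ι F) *ᵥ v) = f u v)
    (w : GL ι F) (hw : w ∈ specialLinear ι F)
    (hwf : ∀ u v, f ((w : Matrix ι ι F) *ᵥ u) ((w : Matrix ι ι F) *ᵥ v) = f u v)
    (hwD : w ∉ decompositionStabilizer D)
    (s : GL ι F) (hs : s ∈ specialLinear ι F)
    (hsf : ¬ ∀ u v, f ((s : Matrix ι ι F) *ᵥ u) ((s : Matrix ι ι F) *ᵥ v) = f u v) :
    ∃ K : Subgroup (GL ι F), decompositionStabilizer D ⊓ specialLinear ι F < K ∧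
      K < specialLinear ι F := by
  refine ⟨preserving (Units.coeHom _) f ⊓ specialLinear ι F, lt_of_le_of_ne ?_ ?_,
    lt_of_le_of_ne inf_le_right ?_⟩
  · intro g hg
    exact ⟨hH g hg, hg.2⟩
  · intro h
    have : w ∈ decompositionStabilizer D ⊓ specialLinear ι F := by
      rw [h]
      exact ⟨hwf, hw⟩
    exact hwD this.1
  · intro h
    have : s ∈ preserving (Units.coeHom _) f ⊓ specialLinear ι F := by
      rw [h]
      exact hs
    exact hsf this.1

section Inv
variable [Fintype F]

/-- Inverse is additive for `q ≤ 4`. -/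
theorem inv_add_of_card_le_four (hq : Fintype.card F ≤ 4) (x y : F) : (x + y)⁻¹ = x⁻¹ + y⁻¹ := by
  have h2 : 2 ≤ Fintype.card F := Fintype.one_lt_card
  have hpow : ∀ z : F, z ^ Fintype.card F = z := FiniteField.pow_card
  by_cases h4 : Fintype.card F = 4
  · rw [h4] at hpow
    have hc : (4 : F) = 0 := by
      have h5 : ((Fintype.card F : ℕ) : F) = 0 := by
        simpa using (CharP.cast_card_eq_zero F)
      rw [h4] at h5
      exact_mod_cast h5
    have h20 : (2 : F) = 0 := by
      have : (2 : F) * 2 = 0 := by linear_combination hc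
      simpa using this
    have hi : ∀ z : F, z⁻¹ = z ^ 2 := by
      intro z
      by_cases hz : z = 0
      · simp [hz]
      · have : z ^ 3 = 1 := by
          have h6 := hpow z
          apply mul_left_cancel₀ hz
          linear_combination h6
        field_simp
        linear_combination -this
    rw [hi, hi, hi]
    linear_combination x * y * h20
  · have h3 : Fintype.card F = 2 ∨ Fintype.card F = 3 := by omega
    have hi : ∀ z : F, z⁻¹ = z := by
      intro z
      by_cases hz : z = 0
      · simp [hz]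
      · rcases h3 with h3 | h3
        · rw [h3] at hpow
          have h6 := hpow z
          have : z = 1 := by
            apply mul_left_cancel₀ hz
            linear_combination h6
          simp [this]
        · rw [h3] at hpow
          have h6 := hpow z
          have : z ^ 2 = 1 := by
            apply mul_left_cancel₀ hz
            linear_combination h6
          field_simp
          linear_combination -this
    rw [hi, hi, hi]

/-- Six is zero for `q ≤ 4`. -/
theorem six_eq_zero (hq : Fintype.card F ≤ 4) : (6 : F) = 0 := by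
  have h2 : 2 ≤ Fintype.card F := Fintype.one_lt_card
  have h5 : ((Fintype.card F : ℕ) : F) = 0 := by
    simpa using (CharP.cast_card_eq_zero F)
  have h3 : Fintype.card F = 2 ∨ Fintype.card F = 3 ∨ Fintype.card F = 4 := by omega
  rcases h3 with h3 | h3 | h3 <;> rw [h3] at h5
  · have : (2 : F) = 0 := by exact_mod_cast h5
    linear_combination 3 * this
  · have : (3 : F) = 0 := by exact_mod_cast h5
    linear_combination 2 * this
  · have : (4 : F) = 0 := by exact_mod_cast h5
    have h20 : (2 : F) = 0 := by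
      have : (2 : F) * 2 = 0 := by linear_combination this
      simpa using this
    linear_combination 3 * h20

end Inv

section Mono
variable [Fintype F]

/-- Decomposition into lines, `q ≤ 4`. -/
theorem lines_not_maximal {t : ℕ} {D : Fin t → Submodule F (ι → F)} (hD : IsMDecomposition 1 D)
    (hq : Fintype.card F ≤ 4) (hn : 12 ≤ Fintype.card ι) :
    ∃ K : Subgroup (GL ι F), decompositionStabilizer D ⊓ specialLinear ι F < K ∧
      K < specialLinear ι F := by
  classical
  have hcard := Cfsg.Agent.Lib.NotMax.Basic.card_le_mul D hD.iSup_eq_top hD.finrank_eq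
  rw [mul_one] at hcard
  have ht12 : 12 ≤ t := by omega
  have hne : ∀ i, D i ≠ ⊥ := by
    intro i h
    have := hD.finrank_eq i
    rw [h] at this
    simp at this
  have hex : ∀ i, ∃ v ∈ D i, v ≠ 0 := fun i => Submodule.exists_mem_ne_zero_of_ne_bot (hne i)
  choose v hv hv0 using hex
  have hli : LinearIndependent F v := hD.indep.linearIndependent _ hv hv0
  have hspan : ∀ i, ∀ x ∈ D i, ∃ c : F, x = c • v i := by
    intro i x hx
    have h1 := (finrank_eq_one_iff_of_nonzero' (⟨v i, hv i⟩ : D i) (by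
      intro h
      exact hv0 i (congrArg Subtype.val h))).mp (hD.finrank_eq i) ⟨x, hx⟩
    obtain ⟨c, hc⟩ := h1
    exact ⟨c, (congrArg Subtype.val hc).symm⟩
  have hcardt : Fintype.card (Fin t) = Module.finrank F (ι → F) := by
    have h1 : t ≤ Fintype.card ι := by
      have := hli.fintype_card_le_finrank
      simpa using this
    simp only [Fintype.card_fin, Module.finrank_fintype_fun_eq_card]
    omega
  have : Nonempty (Fin t) := ⟨⟨0, by omega⟩⟩
  let b : Module.Basis (Fin t) F (ι → F) := basisOfLinearIndependentOfCardEqFinrank hli hcardt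
  have hb : ∀ i, b i = v i := fun i => by
    simp [b, coe_basisOfLinearIndependentOfCardEqFinrank]
  let E : (ι → F) ≃ₗ[F] (Fin t → F) := b.equivFun
  have hEb : ∀ k i, E (v k) i = if k = i then 1 else 0 := by
    intro k i
    rw [← hb]
    simp only [E, Module.Basis.equivFun_apply, Module.Basis.repr_self, Finsupp.single_apply]
  let f : (ι → F) → (ι → F) → F := fun x y => ∑ i, E x i * (E y i)⁻¹
  have hfaddl : ∀ x y z, f (x + y) z = f x z + f y z := by
    intro x y z
    simp only [f, map_add, Pi.add_apply, add_mul, Finset.sum_add_distrib]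
  have hfaddr : ∀ x y z, f x (y + z) = f x y + f x z := by
    intro x y z
    simp only [f, map_add, Pi.add_apply, inv_add_of_card_le_four hq, mul_add,
      Finset.sum_add_distrib]
  have hfsmull : ∀ (c : F) x z, f (c • x) z = c * f x z := by
    intro c x z
    simp only [f, map_smul, Pi.smul_apply, smul_eq_mul, Finset.mul_sum, mul_assoc]
  have hfsmulr : ∀ (c : F) x z, f x (c • z) = c⁻¹ * f x z := by
    intro c x z
    simp only [f, map_smul, Pi.smul_apply, smul_eq_mul, Finset.mul_sum, mul_inv]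
    exact Finset.sum_congr rfl fun i _ => by ring
  have hinvsum : ∀ (s : Finset (Fin t)) (g : Fin t → F), (∑ i ∈ s, g i)⁻¹ = ∑ i ∈ s, (g i)⁻¹ := by
    intro s g
    induction s using Finset.induction_on with
    | empty => simp
    | insert a s ha ih =>
      rw [Finset.sum_insert ha, Finset.sum_insert ha, inv_add_of_card_le_four hq, ih]
  have hfsymm : ∀ x y, f y x = (f x y)⁻¹ := by
    intro x y
    simp only [f]
    rw [hinvsum]
    refine Finset.sum_congr rfl fun i _ => ?_
    rw [mul_inv, inv_inv, mul_comm]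
  -- the vectors
  let ind : Finset (Fin t) → (ι → F) := fun A => E.symm (fun i => if i ∈ A then 1 else 0)
  have hind : ∀ A i, E (ind A) i = if i ∈ A then 1 else 0 := by
    intro A i
    simp only [ind, LinearEquiv.apply_symm_apply]
  have hfind : ∀ x A, f x (ind A) = ∑ i ∈ A, E x i := by
    intro x A
    simp only [f, hind]
    rw [← Finset.sum_filter_add_sum_filter_not Finset.univ (· ∈ A)]
    have h1 : ∑ i ∈ Finset.univ.filter (· ∈ A), E x i * (if i ∈ A then (1 : F) else 0)⁻¹ =
        ∑ i ∈ A, E x i := by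
      rw [Finset.filter_mem_eq_inter, Finset.univ_inter]
      refine Finset.sum_congr rfl fun i hi => ?_
      simp [hi]
    have h2 : ∑ i ∈ Finset.univ.filter (fun i => ¬ i ∈ A),
        E x i * (if i ∈ A then (1 : F) else 0)⁻¹ = 0 := by
      refine Finset.sum_eq_zero fun i hi => ?_
      have : i ∉ A := (Finset.mem_filter.mp hi).2
      simp [this]
    rw [h1, h2, add_zero]
  let i₀ : Fin t := ⟨0, by omega⟩
  let i₁ : Fin t := ⟨1, by omega⟩
  have h01 : i₀ ≠ i₁ := by simp [i₀, i₁, Fin.ext_iff]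
  let e : Fin 12 → Fin t := Fin.castLE ht12
  have he : Function.Injective e := Fin.castLE_injective ht12
  let A : Finset (Fin t) := (Finset.univ.filter (fun i : Fin 12 => i.1 < 6)).map ⟨e, he⟩
  let B : Finset (Fin t) := (Finset.univ.filter (fun i : Fin 12 => ¬ i.1 < 6)).map ⟨e, he⟩
  have hAcard : A.card = 6 := by
    simp only [A, Finset.card_map]
    decide
  have hBcard : B.card = 6 := by
    simp only [B, Finset.card_map]
    decide
  have hAB : Disjoint A B := by
    rw [Finset.disjoint_map]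
    exact Finset.disjoint_filter_filter_not _ _ _
  have h6 := six_eq_zero hq
  have hfAA : f (ind A) (ind A) = 0 := by
    rw [hfind]
    simp only [hind]
    rw [Finset.sum_congr rfl (fun i hi => if_pos hi)]
    simp [hAcard, h6]
  have hfBB : f (ind B) (ind B) = 0 := by
    rw [hfind]
    simp only [hind]
    rw [Finset.sum_congr rfl (fun i hi => if_pos hi)]
    simp [hBcard, h6]
  have hfAB : f (ind A) (ind B) = 0 := by
    rw [hfind]
    simp only [hind]
    refine Finset.sum_eq_zero fun i hi => ?_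
    rw [if_neg]
    exact Finset.disjoint_right.mp hAB hi
  have hfBA : f (ind B) (ind A) = 0 := by
    rw [hfsymm (ind A) (ind B), hfAB, inv_zero]
  -- the element
  let a := ind A
  let c := ind B
  have hφa : formVec f a ⬝ᵥ c = 0 := by
    rw [formVec_dotProduct (fun x y v => hfaddl x y v) (fun r x v => hfsmull r x v)]
    exact hfBA
  have hφc : formVec f c ⬝ᵥ (-a) = 0 := by
    rw [formVec_dotProduct (fun x y v => hfaddl x y v) (fun r x v => hfsmull r x v)]
    have : f (-a) c = - f a c := by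
      have h1 := hfsmull (-1) a c
      simpa using h1
    rw [this]
    show - f (ind A) (ind B) = 0
    rw [hfAB, neg_zero]
  have hfz : ∀ z, f 0 z = 0 := by
    intro z
    have := hfsmull 0 0 z
    simpa using this
  have hfneg : ∀ x z, f (-x) z = - f x z := by
    intro x z
    have h1 := hfsmull (-1) x z
    simpa using h1
  have hfnegr : ∀ x z, f x (-z) = - f x z := by
    intro x z
    have h1 := hfsmulr (-1) x z
    simpa [inv_neg] using h1
  let w : GL ι F := transv c (formVec f a) hφa * transv (-a) (formVec f c) hφc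
  have hwm : ∀ x, (w : Matrix ι ι F) *ᵥ x = x + f x a • c - f x c • a := by
    intro x
    have h3 : f (x + (-(f x c) • a)) a = f x a := by
      rw [hfaddl, hfsmull]
      have : f a a = 0 := hfAA
      rw [this, mul_zero, add_zero]
    simp only [w, Units.val_mul]
    rw [← Matrix.mulVec_mulVec, transv_mulVec, transv_mulVec,
      formVec_dotProduct (fun x y v => hfaddl x y v) (fun r x v => hfsmull r x v),
      formVec_dotProduct (fun x y v => hfaddl x y v) (fun r x v => hfsmull r x v)]
    have h4 : f x c • (-a) = -(f x c) • a := by rw [smul_neg, neg_smul]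
    rw [h4, h3]
    module
  have hwS : w ∈ specialLinear ι F :=
    mul_mem (transv_mem_specialLinear _ _ _) (transv_mem_specialLinear _ _ _)
  have hwf : ∀ x y, f ((w : Matrix ι ι F) *ᵥ x) ((w : Matrix ι ι F) *ᵥ y) = f x y := by
    intro x y
    rw [hwm, hwm]
    have e1 : x + f x a • c - f x c • a = x + (f x a • c + (- f x c) • a) := by module
    have e2 : y + f y a • c - f y c • a = y + (f y a • c + (- f y c) • a) := by module
    rw [e1, e2]
    simp only [hfaddl, hfaddr, hfsmull, hfsmulr]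
    have haa : f a a = 0 := hfAA
    have hcc : f c c = 0 := hfBB
    have hac : f a c = 0 := hfAB
    have hca : f c a = 0 := hfBA
    have hsy1 : f a y = (f y a)⁻¹ := hfsymm y a
    have hsy2 : f c y = (f y c)⁻¹ := hfsymm y c
    rw [haa, hcc, hac, hca, hsy1, hsy2]
    simp only [inv_neg]
    ring
  -- not in the stabiliser
  have hAi : e ⟨0, by omega⟩ ∈ A := by
    simp only [A, Finset.mem_map, Function.Embedding.coeFn_mk]
    exact ⟨⟨0, by omega⟩, by simp, rfl⟩
  have hBi : e ⟨6, by omega⟩ ∈ B := by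
    simp only [B, Finset.mem_map, Function.Embedding.coeFn_mk]
    exact ⟨⟨6, by omega⟩, by simp, rfl⟩
  have hBA : e ⟨6, by omega⟩ ∉ A := fun h => Finset.disjoint_left.mp hAB h hBi
  have hAB' : e ⟨0, by omega⟩ ∉ B := fun h => Finset.disjoint_left.mp hAB hAi h
  set k₀ := e ⟨0, by omega⟩ with hk₀
  set k₁ := e ⟨6, by omega⟩ with hk₁
  have hk01 : k₀ ≠ k₁ := fun h => hBA (h ▸ hAi)
  have hfvk : ∀ k (S : Finset (Fin t)), f (v k) (ind S) = if k ∈ S then 1 else 0 := by
    intro k S
    rw [hfind]
    simp only [hEb]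
    rw [Finset.sum_ite_eq]
  have hwD : w ∉ decompositionStabilizer D := by
    rintro ⟨σ, hσ⟩
    have h1 : (w : Matrix ι ι F) *ᵥ v k₀ ∈ D (σ k₀) := by
      rw [← hσ k₀]
      exact ⟨v k₀, hv k₀, rfl⟩
    rw [hwm] at h1
    have e1 : f (v k₀) a = 1 := by
      show f (v k₀) (ind A) = 1
      rw [hfvk, if_pos hAi]
    have e2 : f (v k₀) c = 0 := by
      show f (v k₀) (ind B) = 0
      rw [hfvk, if_neg hAB']
    rw [e1, e2, one_smul, zero_smul, sub_zero] at h1
    obtain ⟨r, hr⟩ := hspan _ _ h1
    have c0 := congrFun (congrArg E hr) k₀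
    have c1 := congrFun (congrArg E hr) k₁
    simp only [map_add, Pi.add_apply, map_smul, Pi.smul_apply, smul_eq_mul, hEb, c, hind] at c0 c1
    rw [if_neg hAB', if_pos trivial] at c0
    rw [if_neg hk01, if_pos hBi] at c1
    by_cases h2 : σ k₀ = k₀
    · rw [h2, if_neg hk01] at c1
      simp at c1
    · rw [if_neg h2] at c0
      simp at c0
  -- the transvection outside
  have hvv : f (v i₀) (v i₁) = 0 := by
    simp only [f, hEb]
    refine Finset.sum_eq_zero fun i _ => ?_
    by_cases h1 : i₀ = i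
    · rw [if_neg (by rw [← h1]; exact h01.symm : ¬ i₁ = i)]
      simp
    · rw [if_neg h1, zero_mul]
  have hvvself : ∀ k, f (v k) (v k) = 1 := by
    intro k
    simp only [f, hEb]
    rw [Finset.sum_eq_single k]
    · simp
    · intro i _ hi
      rw [if_neg (Ne.symm hi), zero_mul]
    · simp
  have hφs : formVec f (v i₁) ⬝ᵥ v i₀ = 0 := by
    rw [formVec_dotProduct (fun x y v => hfaddl x y v) (fun r x v => hfsmull r x v)]
    exact hvv
  let s : GL ι F := transv (v i₀) (formVec f (v i₁)) hφs
  have hsf : ¬ ∀ x y, f ((s : Matrix ι ι F) *ᵥ x) ((s : Matrix ι ι F) *ᵥ y) = f x y := by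
    intro h
    have h1 := h (v i₁) (v i₁)
    simp only [s] at h1
    rw [transv_mulVec, formVec_dotProduct (fun x y v => hfaddl x y v) (fun r x v => hfsmull r x v),
      hvvself, one_smul, hfaddl, hfaddr, hfaddr, hvvself, hvvself] at h1
    have hvv' : f (v i₁) (v i₀) = 0 := by
      rw [hfsymm (v i₀) (v i₁), hvv, inv_zero]
    rw [hvv, hvv', zero_add, add_zero] at h1
    exact one_ne_zero (α := F) (by linear_combination h1)
  refine not_maximal_of_form f ?_ w hwS hwf hwD s (transv_mem_specialLinear _ _ _) hsf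
  -- `H` preserves the form
  rintro g ⟨⟨σ, hσ⟩, -⟩ x y
  have hc : ∀ i, ∃ r : F, r ≠ 0 ∧ (g : Matrix ι ι F) *ᵥ v i = r • v (σ i) := by
    intro i
    have h1 : (g : Matrix ι ι F) *ᵥ v i ∈ D (σ i) := by
      rw [← hσ i]
      exact ⟨v i, hv i, rfl⟩
    obtain ⟨r, hr⟩ := hspan _ _ h1
    refine ⟨r, ?_, hr⟩
    rintro rfl
    rw [zero_smul] at hr
    apply hv0 i
    have := inv_mulVec_mulVec g (v i)
    rw [hr, Matrix.mulVec_zero] at this
    exact this.symm
  choose r hr0 hr using hc
  have hcoord : ∀ z i, E ((g : Matrix ι ι F) *ᵥ z) (σ i) = r i * E z i := by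
    intro z i
    let L₁ : (ι → F) →ₗ[F] F := (LinearMap.proj (σ i)) ∘ₗ E.toLinearMap ∘ₗ
      Matrix.toLin' (g : Matrix ι ι F)
    let L₂ : (ι → F) →ₗ[F] F := r i • ((LinearMap.proj i) ∘ₗ E.toLinearMap)
    have hL : L₁ = L₂ := by
      refine b.ext fun k => ?_
      simp only [L₁, L₂, LinearMap.comp_apply, LinearEquiv.coe_coe, Matrix.toLin'_apply,
        LinearMap.proj_apply, LinearMap.smul_apply, smul_eq_mul]
      rw [hb, hr, map_smul, Pi.smul_apply, smul_eq_mul, hEb, hEb]
      by_cases h1 : k = i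
      · subst h1
        simp
      · rw [if_neg h1, if_neg (fun h => h1 (σ.injective h))]
        simp
    have := LinearMap.congr_fun hL z
    simpa [L₁, L₂] using this
  simp only [f]
  rw [← Equiv.sum_comp σ]
  refine Finset.sum_congr rfl fun i _ => ?_
  rw [hcoord, hcoord, mul_inv]
  field_simp [hr0 i]

end Mono

section Planes
variable [Fintype F]

omit [Fintype F] in
theorem f2_lemma (h01 : ∀ x : F, x = 0 ∨ x = 1) (p0 p1 q0 q1 : F) (h : p0 * q1 + p1 * q0 = 0) :
    (p0 = 0 ∧ p1 = 0) ∨ (q0 = 0 ∧ q1 = 0) ∨ (p0 = q0 ∧ p1 = q1) := by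
  rcases h01 p0 with rfl | rfl <;> rcases h01 p1 with rfl | rfl <;>
    rcases h01 q0 with rfl | rfl <;> rcases h01 q1 with rfl | rfl <;> simp_all

/-- Decomposition into planes, `q = 2`. -/
theorem planes_not_maximal {t : ℕ} {D : Fin t → Submodule F (ι → F)} (hD : IsMDecomposition 2 D)
    (hq : Fintype.card F = 2) :
    ∃ K : Subgroup (GL ι F), decompositionStabilizer D ⊓ specialLinear ι F < K ∧
      K < specialLinear ι F := by
  classical
  have h01 : ∀ x : F, x = 0 ∨ x = 1 := Cfsg.Agent.Lib.NotMax.Sp2.eq_zero_or_one hq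
  have h2 : (2 : F) = 0 := Cfsg.Agent.Lib.NotMax.Sp2.two_eq_zero hq
  have hint : DirectSum.IsInternal D :=
    DirectSum.isInternal_submodule_of_iSupIndep_of_iSup_eq_top hD.indep hD.iSup_eq_top
  let bb : ∀ i, Module.Basis (Fin 2) F (D i) := fun i => Module.finBasisOfFinrankEq F (D i) (hD.finrank_eq i)
  let b : Module.Basis (Σ _ : Fin t, Fin 2) F (ι → F) := hint.collectedBasis bb
  have hbmem : ∀ α, b α ∈ D α.1 := fun α => hint.collectedBasis_mem bb α
  let E : (ι → F) ≃ₗ[F] ((Σ _ : Fin t, Fin 2) → F) := b.equivFun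
  have hEb : ∀ α β, E (b α) β = if α = β then 1 else 0 := by
    intro α β
    simp only [E, Module.Basis.equivFun_apply, Module.Basis.repr_self, Finsupp.single_apply]
  -- coordinates vanish outside the member
  have hEout : ∀ j, ∀ x ∈ D j, ∀ i r, i ≠ j → E x ⟨i, r⟩ = 0 := by
    intro j x hx i r hij
    have h1 : x = ((⟨x, hx⟩ : D j) : ι → F) := rfl
    have h3 := (bb j).sum_repr ⟨x, hx⟩
    have h4 : x = ∑ s, (bb j).repr ⟨x, hx⟩ s • b ⟨j, s⟩ := by
      have h5 := congrArg (Subtype.val) h3
      simp only [AddSubmonoidClass.coe_finsetSum, SetLike.val_smul] at h5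
      refine h5.symm.trans (Finset.sum_congr rfl fun s _ => ?_)
      congr 1
      exact (congrFun (hint.collectedBasis_coe bb) ⟨j, s⟩).symm
    rw [h4, map_sum, Finset.sum_apply]
    refine Finset.sum_eq_zero fun s _ => ?_
    rw [map_smul, Pi.smul_apply, hEb, if_neg, smul_zero]
    intro h
    exact hij (congrArg Sigma.fst h).symm
  let f : (ι → F) → (ι → F) → F := fun x y =>
    ∑ i : Fin t, (E x ⟨i, 0⟩ * E y ⟨i, 1⟩ + E x ⟨i, 1⟩ * E y ⟨i, 0⟩)
  have hfaddl : ∀ x y z, f (x + y) z = f x z + f y z := by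
    intro x y z
    simp only [f, map_add, Pi.add_apply, ← Finset.sum_add_distrib]
    exact Finset.sum_congr rfl fun i _ => by ring
  have hfaddr : ∀ x y z, f x (y + z) = f x y + f x z := by
    intro x y z
    simp only [f, map_add, Pi.add_apply, ← Finset.sum_add_distrib]
    exact Finset.sum_congr rfl fun i _ => by ring
  have hfsmull : ∀ (c : F) x z, f (c • x) z = c * f x z := by
    intro c x z
    simp only [f, map_smul, Pi.smul_apply, smul_eq_mul, Finset.mul_sum]
    exact Finset.sum_congr rfl fun i _ => by ring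
  have hfsmulr : ∀ (c : F) x z, f x (c • z) = c * f x z := by
    intro c x z
    simp only [f, map_smul, Pi.smul_apply, smul_eq_mul, Finset.mul_sum]
    exact Finset.sum_congr rfl fun i _ => by ring
  have hfsymm : ∀ x y, f x y = f y x := by
    intro x y
    simp only [f]
    exact Finset.sum_congr rfl fun i _ => by ring
  have hfalt : ∀ x, f x x = 0 := by
    intro x
    simp only [f]
    refine Finset.sum_eq_zero fun i _ => ?_
    linear_combination (E x ⟨i, 0⟩ * E x ⟨i, 1⟩) * h2
  have hortho : ∀ i j, i ≠ j → ∀ x ∈ D i, ∀ y ∈ D j, f x y = 0 := by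
    intro i j hij x hx y hy
    simp only [f]
    refine Finset.sum_eq_zero fun k _ => ?_
    by_cases hk : k = i
    · subst hk
      rw [hEout j y hy k 0 hij, hEout j y hy k 1 hij]
      ring
    · rw [hEout i x hx k 0 hk, hEout i x hx k 1 hk]
      ring
  have hsame : ∀ i, ∀ x ∈ D i, ∀ y ∈ D i,
      f x y = E x ⟨i, 0⟩ * E y ⟨i, 1⟩ + E x ⟨i, 1⟩ * E y ⟨i, 0⟩ := by
    intro i x hx y hy
    simp only [f]
    rw [Finset.sum_eq_single i]
    · intro k _ hk
      rw [hEout i x hx k 0 hk, hEout i x hx k 1 hk]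
      ring
    · simp
  have hzero : ∀ i, ∀ x ∈ D i, E x ⟨i, 0⟩ = 0 → E x ⟨i, 1⟩ = 0 → x = 0 := by
    intro i x hx h0 h1
    apply E.injective
    rw [map_zero]
    funext ⟨k, r⟩
    by_cases hk : k = i
    · subst hk
      have : r = 0 ∨ r = 1 := by omega
      rcases this with rfl | rfl
      · exact h0
      · exact h1
    · exact hEout i x hx k r hk
  have hiff : ∀ i, ∀ x ∈ D i, ∀ y ∈ D i, f x y = 0 ↔ (x = 0 ∨ y = 0 ∨ x = y) := by
    intro i x hx y hy
    constructor
    · intro h
      rw [hsame i x hx y hy] at h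
      have hsub : x - y ∈ D i := (D i).sub_mem hx hy
      have hcases : (E x ⟨i, 0⟩ = 0 ∧ E x ⟨i, 1⟩ = 0) ∨ (E y ⟨i, 0⟩ = 0 ∧ E y ⟨i, 1⟩ = 0) ∨
          (E x ⟨i, 0⟩ = E y ⟨i, 0⟩ ∧ E x ⟨i, 1⟩ = E y ⟨i, 1⟩) := by
        exact f2_lemma h01 _ _ _ _ h
      rcases hcases with ⟨a, b'⟩ | ⟨a, b'⟩ | ⟨a, b'⟩
      · exact Or.inl (hzero i x hx a b')
      · exact Or.inr (Or.inl (hzero i y hy a b'))
      · refine Or.inr (Or.inr ?_)
        have := hzero i (x - y) hsub (by rw [map_sub, Pi.sub_apply, a, sub_self])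
          (by rw [map_sub, Pi.sub_apply, b', sub_self])
        exact sub_eq_zero.mp this
    · rintro (rfl | rfl | rfl)
      · simpa using hfsmull 0 0 y
      · simpa using hfsmulr 0 x 0
      · exact hfalt x
  -- vectors
  let i₀ : Fin t := ⟨0, by have := hD.two_le; omega⟩
  let i₁ : Fin t := ⟨1, by have := hD.two_le; omega⟩
  have hi01 : i₀ ≠ i₁ := by simp [i₀, i₁, Fin.ext_iff]
  let a : Fin t → ι → F := fun i => b ⟨i, 0⟩
  let c : Fin t → ι → F := fun i => b ⟨i, 1⟩
  have ham : ∀ i, a i ∈ D i := fun i => hbmem ⟨i, 0⟩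
  have hcm : ∀ i, c i ∈ D i := fun i => hbmem ⟨i, 1⟩
  have hEa : ∀ i j r, E (a i) ⟨j, r⟩ = if i = j ∧ r = 0 then 1 else 0 := by
    intro i j r
    simp only [a, hEb, Sigma.mk.injEq, heq_eq_eq]
    by_cases h1 : i = j
    · subst h1
      by_cases h3 : r = 0
      · subst h3
        simp
      · simp [h3, Ne.symm h3]
    · simp [h1]
  have hEc : ∀ i j r, E (c i) ⟨j, r⟩ = if i = j ∧ r = 1 then 1 else 0 := by
    intro i j r
    simp only [c, hEb, Sigma.mk.injEq, heq_eq_eq]
    by_cases h1 : i = j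
    · subst h1
      by_cases h3 : r = 1
      · subst h3
        simp
      · simp [h3, Ne.symm h3]
    · simp [h1]
  have hfac : ∀ i, f (a i) (c i) = 1 := by
    intro i
    rw [hsame i _ (ham i) _ (hcm i), hEa, hEa, hEc, hEc]
    simp
  have hfca : ∀ i, f (c i) (a i) = 1 := fun i => by rw [hfsymm, hfac]
  have hfaa : ∀ i, f (a i) (a i) = 0 := fun i => hfalt _
  have hfcc : ∀ i, f (c i) (c i) = 0 := fun i => hfalt _
  have hfd : ∀ x y, formVec f y ⬝ᵥ x = f x y :=
    fun x y => formVec_dotProduct (fun x y v => hfaddl x y v) (fun r x v => hfsmull r x v) x y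
  -- the witness in `K`
  let u : ι → F := a i₀ + a i₁
  have hfuu : f u u = 0 := hfalt _
  have hφu : formVec f u ⬝ᵥ u = 0 := by rw [hfd]; exact hfuu
  let w : GL ι F := transv u (formVec f u) hφu
  have hwm : ∀ x, (w : Matrix ι ι F) *ᵥ x = x + f x u • u := by
    intro x
    simp only [w]
    rw [transv_mulVec, hfd]
  have hwf : ∀ x y, f ((w : Matrix ι ι F) *ᵥ x) ((w : Matrix ι ι F) *ᵥ y) = f x y := by
    intro x y
    rw [hwm, hwm]
    simp only [hfaddl, hfaddr, hfsmull, hfsmulr, hfuu]
    rw [hfsymm u y]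
    linear_combination (f y u * f x u) * h2
  have hwD : w ∉ decompositionStabilizer D := by
    rintro ⟨σ, hσ⟩
    have h1 : (w : Matrix ι ι F) *ᵥ c i₀ ∈ D (σ i₀) := by
      rw [← hσ i₀]
      exact ⟨c i₀, hcm i₀, rfl⟩
    rw [hwm] at h1
    have e1 : f (c i₀) u = 1 := by
      simp only [u]
      rw [hfaddr, hfca, hortho i₀ i₁ hi01 _ (hcm i₀) _ (ham i₁), add_zero]
    rw [e1, one_smul] at h1
    have c0 : E (c i₀ + u) ⟨i₀, 0⟩ = 1 := by
      simp only [u, map_add, Pi.add_apply, hEa, hEc]
      simp [Ne.symm hi01]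
    have c1 : E (c i₀ + u) ⟨i₁, 0⟩ = 1 := by
      simp only [u, map_add, Pi.add_apply, hEa, hEc]
      simp [hi01]
    by_cases h3 : i₀ = σ i₀
    · have := hEout _ _ h1 i₁ 0 (by rw [← h3]; exact hi01.symm)
      rw [c1] at this
      exact one_ne_zero this
    · have := hEout _ _ h1 i₀ 0 h3
      rw [c0] at this
      exact one_ne_zero this
  -- the element outside
  have hφs : formVec f (a i₀) ⬝ᵥ a i₁ = 0 := by
    rw [hfd]
    exact hortho i₁ i₀ hi01.symm _ (ham i₁) _ (ham i₀)
  let s : GL ι F := transv (a i₁) (formVec f (a i₀)) hφs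
  have hsf : ¬ ∀ x y, f ((s : Matrix ι ι F) *ᵥ x) ((s : Matrix ι ι F) *ᵥ y) = f x y := by
    intro h
    have h1 := h (c i₀) (c i₁)
    simp only [s] at h1
    rw [transv_mulVec, transv_mulVec, hfd, hfd, hfca,
      hortho i₁ i₀ hi01.symm _ (hcm i₁) _ (ham i₀), zero_smul, add_zero, one_smul, hfaddl, hfac,
      hortho i₀ i₁ hi01 _ (hcm i₀) _ (hcm i₁), zero_add] at h1
    exact one_ne_zero h1
  refine not_maximal_of_form f ?_ w (transv_mem_specialLinear _ _ _) hwf hwD s
    (transv_mem_specialLinear _ _ _) hsf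
  -- `H` preserves the form
  rintro g ⟨⟨σ, hσ⟩, -⟩ x y
  have hginj : ∀ z z' : ι → F, (g : Matrix ι ι F) *ᵥ z = (g : Matrix ι ι F) *ᵥ z' → z = z' := by
    intro z z' h
    have h3 := inv_mulVec_mulVec g z
    rw [h, inv_mulVec_mulVec] at h3
    exact h3.symm
  have hgD : ∀ i, ∀ z ∈ D i, (g : Matrix ι ι F) *ᵥ z ∈ D (σ i) := by
    intro i z hz
    rw [← hσ i]
    exact ⟨z, hz, rfl⟩
  have hkey : ∀ α β, f ((g : Matrix ι ι F) *ᵥ b α) ((g : Matrix ι ι F) *ᵥ b β) = f (b α) (b β) := by
    intro α β
    by_cases hαβ : α.1 = β.1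
    · have hm1 := hbmem α
      have hm2 : b β ∈ D α.1 := hαβ ▸ hbmem β
      have h3 : f ((g : Matrix ι ι F) *ᵥ b α) ((g : Matrix ι ι F) *ᵥ b β) = 0 ↔ f (b α) (b β) = 0 := by
        rw [hiff _ _ (hgD _ _ hm1) _ (hgD _ _ hm2), hiff _ _ hm1 _ hm2]
        have hg0 : ∀ z : ι → F, (g : Matrix ι ι F) *ᵥ z = 0 ↔ z = 0 := by
          intro z
          constructor
          · intro h
            apply hginj
            rw [h, Matrix.mulVec_zero]
          · rintro rfl
            exact Matrix.mulVec_zero _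
        rw [hg0, hg0]
        constructor
        · rintro (h | h | h)
          · exact Or.inl h
          · exact Or.inr (Or.inl h)
          · exact Or.inr (Or.inr (hginj _ _ h))
        · rintro (h | h | h)
          · exact Or.inl h
          · exact Or.inr (Or.inl h)
          · exact Or.inr (Or.inr (by rw [h]))
      rcases h01 (f (b α) (b β)) with h4 | h4
      · rw [h4]
        exact h3.mpr h4
      · rw [h4]
        rcases h01 (f ((g : Matrix ι ι F) *ᵥ b α) ((g : Matrix ι ι F) *ᵥ b β)) with h5 | h5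
        · have := h3.mp h5
          rw [h4] at this
          exact absurd this one_ne_zero
        · exact h5
    · rw [hortho _ _ hαβ _ (hbmem α) _ (hbmem β),
        hortho (σ α.1) (σ β.1) (fun h => hαβ (σ.injective h)) _ (hgD _ _ (hbmem α)) _ (hgD _ _ (hbmem β))]
  let B₁ : (ι → F) →ₗ[F] (ι → F) →ₗ[F] F := LinearMap.mk₂ F f hfaddl (fun c x y => hfsmull c x y)
    hfaddr (fun c x y => hfsmulr c x y)
  let B₂ : (ι → F) →ₗ[F] (ι → F) →ₗ[F] F :=
    LinearMap.mk₂ F (fun x y => f ((g : Matrix ι ι F) *ᵥ x) ((g : Matrix ι ι F) *ᵥ y))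
      (fun x y z => by rw [Matrix.mulVec_add, hfaddl])
      (fun c x y => by rw [Matrix.mulVec_smul, hfsmull]; rfl)
      (fun x y z => by rw [Matrix.mulVec_add, hfaddr])
      (fun c x y => by rw [Matrix.mulVec_smul, hfsmulr]; rfl)
  have hB : B₂ = B₁ := LinearMap.ext_basis b b hkey
  exact LinearMap.congr_fun₂ hB x y

end Planes

end Cfsg.Agent.Lib.NotMax.SLMono
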